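import Cfsg.Agent.H21.Eo1

/-! Counting for the orthogonal elusivity theorems: `r`-parts and `p`-parts of orders of orthogonal groups,
`nd_lt`, `ts_lt`, `ts_not_dvd`. -/

set_option autoImplicit false
namespace H21.Eo
open H11 Module Polynomial H20.El
open H11.PForm hiding X

section Num
variable {q r i c : ℕ} (hr : r.Prime) (hr2 : r ≠ 2) (hi : i = orderOf (q : ZMod r)) (hi0 : i ≠ 0)
  (hc : c = if Even i then i else 2 * i)

theorem c_spec (hc : c = if Even i then i else 2 * i) (hi0 : i ≠ 0) :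
    ∃ h, 0 < h ∧ c = 2 * h ∧ ((Odd i ∧ h = i) ∨ (Even i ∧ i = 2 * h)) := by
  split_ifs at hc with h
  · obtain ⟨k, hk⟩ := h
    exact ⟨k, by omega, by omega, .inr ⟨⟨k, hk⟩, by omega⟩⟩
  · exact ⟨i, by omega, hc, .inl ⟨Nat.not_even_iff_odd.1 h, rfl⟩⟩

include hc in
theorem c_dvd {m : ℕ} : c ∣ 2 * m ↔ i ∣ 2 * m := by
  split_ifs at hc with h
  · rw [hc]
  · rw [hc, Nat.mul_dvd_mul_iff_left two_pos, Nat.Coprime.dvd_mul_left
      (Nat.coprime_two_right.2 (Nat.not_even_iff_odd.1 h))]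

include hr hr2 hi hi0 hc

open Classical in
theorem pow_eq {m t : ℕ} (h : t * c = 2 * m) : (q : ZMod r) ^ m = if Odd i ∨ Even t then 1 else -1 := by
  have := Fact.mk hr
  obtain ⟨k, h0, rfl, ⟨h1, rfl⟩ | ⟨h1, h2⟩⟩ := c_spec hc hi0
  · obtain rfl : m = k * t := by nlinarith
    rw [if_pos (.inl h1), pow_mul, hi, pow_orderOf_eq_one, one_pow]
  · obtain rfl : m = k * t := by nlinarith
    have h3 : (q : ZMod r) ^ k = -1 := by
      have h4 : (q : ZMod r) ^ k * (q : ZMod r) ^ k = 1 := by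
        rw [← pow_add, ← two_mul, ← h2, hi, pow_orderOf_eq_one]
      exact (mul_self_eq_one_iff.1 h4).resolve_left (pow_ne_one_of_lt_orderOf h0.ne' (by omega))
    rw [pow_mul, h3]
    rcases Nat.even_or_odd t with h5 | h5
    · rw [if_pos (.inr h5), h5.neg_one_pow]
    · rw [if_neg (by simp [h1, h5]), h5.neg_one_pow]

open Classical in
theorem mt_iff {m : ℕ} {ε : Prop} :
    (c ∣ 2 * m ∧ (ε ↔ Odd i ∨ Even (2 * m / c))) ↔ (q : ZMod r) ^ m = if ε then 1 else -1 := by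
  have := Fact.mk hr
  have : Fact (2 < r) := ⟨lt_of_le_of_ne hr.two_le hr2.symm⟩
  have h0 : (-1 : ZMod r) ≠ 1 := ZMod.neg_one_ne_one
  have h1 : c ∣ 2 * m → (q : ZMod r) ^ m = if Odd i ∨ Even (2 * m / c) then 1 else -1 := fun h =>
    pow_eq hr hr2 hi hi0 hc (Nat.div_mul_cancel h)
  constructor
  · rintro ⟨h2, h3⟩
    rw [h1 h2]
    exact if_congr h3.symm rfl rfl
  · intro h
    have h2 : c ∣ 2 * m := by
      rw [c_dvd hc, hi, orderOf_dvd_iff_pow_eq_one, mul_comm, pow_mul, h]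
      split_ifs <;> simp
    refine ⟨h2, ?_⟩
    rw [h1 h2] at h
    split_ifs at h with h3 h4 h4
    exacts [iff_of_true h4 h3, absurd h.symm h0, absurd h h0, iff_of_false h4 h3]

/-- same `r`-part -/
def Rv (r a b : ℕ) : Prop := ∃ u v, ¬ r ∣ u ∧ ¬ r ∣ v ∧ v * a = u * b

omit hr2 hi hi0 hc in
theorem Rv.mul {a b a' b' : ℕ} (h : Rv r a b) (h' : Rv r a' b') : Rv r (a * a') (b * b') := by
  obtain ⟨u, v, h1, h2, h3⟩ := h
  obtain ⟨u', v', h4, h5, h6⟩ := h'
  refine ⟨u * u', v * v', fun h => ((hr.dvd_mul).1 h).elim h1 h4, fun h => ((hr.dvd_mul).1 h).elim h2 h5, ?_⟩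
  rw [mul_mul_mul_comm, h3, h6, mul_mul_mul_comm]

omit hr2 hi hi0 hc in
theorem Rv.refl (a : ℕ) : Rv r a a := ⟨1, 1, hr.not_dvd_one, hr.not_dvd_one, rfl⟩

omit hr2 hi hi0 hc in
theorem Rv.one {a : ℕ} (h : ¬ r ∣ a) : Rv r a 1 := ⟨a, 1, h, hr.not_dvd_one, by simp⟩

omit hr2 in
theorem rv_gO (hq : 0 < q) (m : ℕ) : Rv r (gO (q ^ 2) m) (gO (q ^ c) (2 * m / c)) := by
  obtain ⟨k, h0, hk, -⟩ := c_spec hc hi0
  simp only [hk, Nat.mul_div_mul_left _ _ two_pos]
  induction m with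
  | zero => simpa [gO] using Rv.refl hr 1
  | succ m ih =>
    rw [gO_succ, Nat.succ_div]
    split_ifs with h
    · rw [gO_succ]
      convert ih.mul hr (Rv.refl hr _) using 3
      rw [← pow_mul, ← pow_mul, mul_assoc]
      congr 2
      rw [show m / k + 1 = (m + 1) / k by rw [Nat.succ_div, if_pos h], Nat.mul_div_cancel' h]
    · rw [← mul_one (gO _ (_ + 0)), add_zero]
      refine ih.mul hr (Rv.one hr fun h1 => h ?_)
      rw [← pow_mul, ← ord_dvd_iff hq, ← hi, ← c_dvd hc, hk] at h1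
      exact Nat.dvd_of_mul_dvd_mul_left two_pos h1

omit hr2 hi hi0 hc in
theorem lt_of_rv {Q N K A a M M₀ : ℕ} (hQ : 1 < Q) (h : N * K = A) (ha : a ∣ K) (h1 : Rv r A (gO Q M))
    (h2 : Rv r a (gO Q M₀)) (hN : r ∣ N) : M₀ < M := by
  by_contra h3
  obtain ⟨w, hw⟩ : gO Q M ∣ gO Q M₀ := Finset.prod_dvd_prod_of_subset _ _ _ (Finset.range_mono (by omega))
  obtain ⟨u, v, h4, h5, h6⟩ := h1
  obtain ⟨u', v', h7, h8, h9⟩ := h2
  obtain ⟨k, rfl⟩ := ha
  have h10 : (N * (v * k * u' * w)) * gO Q M = (v' * u) * gO Q M := by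
    calc _ = N * v * k * (u' * (gO Q M * w)) := by ring
      _ = v' * (v * (N * (a * k))) := by rw [← hw, ← h9]; ring
      _ = _ := by rw [h, h6]; ring
  have h11 := Nat.eq_of_mul_eq_mul_right (gO_pos hQ M) h10
  exact ((hr.dvd_mul).1 (h11 ▸ hN.mul_right _)).elim h8 h4

end Num

universe u
variable {F : Type u} [Field F] {V : Type u} [AddCommGroup V] [Module F V]
  {S : PForm (orthP F) V} [FiniteDimensional F V] [Finite F]

theorem prod_eq_gO (q m : ℕ) : ∏ i ∈ Finset.range m, (q ^ (2 * (i + 1)) - 1) = gO (q ^ 2) m := by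
  simp only [gO, pow_mul]

open Classical in
theorem card_even (hS : S.Nondeg) {m : ℕ} (hV : finrank F V = 2 * (m + 1)) :
    Nat.card S.Isom = 2 * Nat.card F ^ ((m + 1) * m) *
      (if Pl S then Nat.card F ^ (m + 1) - 1 else Nat.card F ^ (m + 1) + 1) * gO (Nat.card F ^ 2) m := by
  rw [pl_iff hV]
  split_ifs with h
  · rw [hS.orth_card_plus (by omega) hV h, prod_eq_gO]; rfl
  · rw [hS.orth_card_minus hV h, prod_eq_gO]; rfl

theorem card_cl (hS : S.Nondeg) {W₀ : Submodule F V} (h0 : (S.restrict W₀).Nondeg) :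
    Nat.card {U : Submodule F V // Eqv (S.restrict U) (S.restrict W₀)} *
      (Nat.card (S.restrict W₀).Isom * Nat.card (S.restrict (S.perp W₀)).Isom) = Nat.card S.Isom := by
  letI : MulAction S.Isom (Submodule F V) :=
    { smul := fun g U => U.map (g.1 : V →ₗ[F] V)
      one_smul := fun U => Submodule.map_id U
      mul_smul := fun g g' U => Submodule.map_comp (g'.1 : V →ₗ[F] V) (g.1 : V →ₗ[F] V) U }
  rw [card_eq_orbit_mul (G := S.Isom) W₀ (fun U => Eqv (S.restrict U) (S.restrict W₀))]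
  · have : S.stab W₀ = MulAction.stabilizer S.Isom W₀ := by
      ext g
      exact mem_stab_iff_map
    rw [← this, Nat.card_congr (stabEquivProd h0).toEquiv, Nat.card_prod]
  · intro U
    constructor
    · intro h
      obtain ⟨a, ha⟩ := h.symm
      obtain ⟨g, hg⟩ := hS.witt_subspace W₀ (U.subtype ∘ₗ a.toLinearMap) (U.subtype_injective.comp a.injective)
        ((H20.El.isIsom_subtype U).comp ha)
      refine ⟨g, Submodule.eq_of_le_of_finrank_eq ?_ ?_⟩
      · rintro _ ⟨x, hx, rfl⟩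
        exact (hg ⟨x, hx⟩).symm ▸ (a ⟨x, hx⟩).2
      · exact (LinearEquiv.finrank_map_eq g.1 W₀).trans a.finrank_eq
    · rintro ⟨g, rfl⟩
      exact (eqv_map g.1 (isom_isIsom g) W₀).symm

theorem card_ts (hS : S.Nondeg) {m : ℕ} (h : S.HasTS m) : ∃ X : Submodule F V, (S.restrict X).Nondeg ∧
    finrank F X + 2 * m = finrank F V ∧ (Pl (S.restrict X) ↔ Pl S) ∧
    Nat.card {U : Submodule F V // finrank F U = m ∧ S.TS U} * (Nat.card F ^ (m * finrank F X + 2 * m.choose 2) *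
      gO (Nat.card F) m * Nat.card (S.restrict X).Isom) = Nat.card S.Isom := by
  obtain ⟨U, hU, rfl⟩ := h
  obtain ⟨X, h1, h2, h3, h4⟩ := exists_card_fix_TS _ hS hU rfl
  obtain ⟨h5, h6⟩ := hU.perp_eq_sup hS h1 h2 h3
  refine ⟨X, h1, h3, ⟨fun h => ?_, fun h => ?_⟩, ?_⟩
  · obtain ⟨A, h7, h8, h9⟩ := hasTS_iff.1 h
    exact ⟨U ⊔ A, ts_sup hU h8 (h7.trans h2), by rw [finrank_sup (h5.mono_right h7)]; omega⟩
  · have := hU.hasTS_compl hS h6 h
    rwa [show finrank F V / 2 - finrank F U = finrank F X / 2 by omega] at this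
  · have h7 := prod_sub_mul (Nat.card F) (le_refl (finrank F U))
    rw [Nat.sub_self, show gO _ 0 = 1 from rfl, mul_one] at h7
    rw [← hS.card_TS_mul_card_stab hU, hU.card_stab hS rfl, h4, h7]
    simp only [orthP_Λ, AddSubgroup.card_bot]
    ring

theorem card_p (hS : S.Nondeg) (hV : 0 < finrank F V) {p : ℕ} (hp : p.Prime) (h : p ∣ Nat.card F) :
    ∃ w, ¬ p ∣ w ∧ Nat.card S.Isom = 2 * Nat.card F ^ (finrank F V / 2 * ((finrank F V - 1) / 2)) * w := by
  have h0 : 0 < Nat.card F := Nat.card_pos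
  have h1 : ∀ m, ¬ p ∣ gO (Nat.card F ^ 2) m := not_dvd_gO hp (by positivity) (dvd_pow h two_ne_zero)
  rcases Nat.even_or_odd' (finrank F V) with ⟨m, hm | hm⟩
  · obtain ⟨m, rfl⟩ : ∃ k, m = k + 1 := ⟨m - 1, by omega⟩
    refine ⟨_, ?_, by rw [card_even hS hm, hm, mul_assoc]; congr 4 <;> omega⟩
    have h2 : p ∣ Nat.card F ^ (m + 1) := dvd_pow h (by omega)
    rw [hp.dvd_mul, not_or]
    refine ⟨fun h3 => hp.not_dvd_one ?_, h1 m⟩
    split_ifs at h3
    · have := Nat.dvd_sub h2 h3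
      rwa [Nat.sub_sub_self (Nat.one_le_pow _ _ h0)] at this
    · exact (Nat.dvd_add_right h2).1 h3
  · exact ⟨_, h1 m, by rw [orth_card_odd m hS hm, prod_eq_gO, hm, pow_two m]; congr 4 <;> omega⟩

theorem ts_not_dvd (hS : S.Nondeg) {m : ℕ} (hm : 2 * m < finrank F V) {p : ℕ} (hp : p.Prime) (h : p ∣ Nat.card F) :
    ¬ p ∣ Nat.card {U : Submodule F V // finrank F U = m ∧ S.TS U} := by
  obtain ⟨X, h1, h2, -, h3⟩ := card_ts hS (hS.orth_hasTS hm)
  obtain ⟨w, h4, h5⟩ := card_p hS (by omega) hp h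
  obtain ⟨w', -, h6⟩ := card_p h1 (by omega) hp h
  have h7 : finrank F V / 2 * ((finrank F V - 1) / 2) =
      m * finrank F X + 2 * m.choose 2 + finrank F X / 2 * ((finrank F X - 1) / 2) := by
    obtain ⟨a, b, ha, hb, hx⟩ : ∃ a b, finrank F X / 2 = a ∧ (finrank F X - 1) / 2 = b ∧ finrank F X = a + b + 1 :=
      ⟨_, _, rfl, rfl, by omega⟩
    rw [show finrank F V / 2 = a + m by omega, show (finrank F V - 1) / 2 = b + m by omega, ha, hb, hx]
    have : 2 * m.choose 2 + m = m * m := by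
      rw [Nat.choose_two_right, Nat.mul_div_cancel' (Nat.even_mul_pred_self m).two_dvd]
      rcases m with _ | m
      · rfl
      · simp; ring
    nlinarith
  rw [h5, h6, h7] at h3
  have h8 : 0 < 2 * Nat.card F ^ (m * finrank F X + 2 * m.choose 2 + finrank F X / 2 * ((finrank F X - 1) / 2)) := by
    have : 0 < Nat.card F := Nat.card_pos
    positivity
  intro h9
  have h10 : Nat.card {U : Submodule F V // finrank F U = m ∧ S.TS U} * (gO (Nat.card F) m * w') = w := by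
    refine Nat.eq_of_mul_eq_mul_left h8 ?_
    rw [← h3]
    ring
  exact h4 (h10 ▸ h9.mul_right _)

section R
variable {r i c : ℕ} (hr : r.Prime) (hr2 : r ≠ 2) (h0 : (r : F) ≠ 0) (hi : i = orderOf (Nat.card F : ZMod r))
  (hc : c = if Even i then i else 2 * i)
include hr h0 hi

theorem i_ne : i ≠ 0 := hi ▸ orderOf_card_ne_zero hr h0

theorem not_dvd_card : ¬ r ∣ Nat.card F := fun h => by
  have := Fact.mk hr
  have h1 := i_ne hr h0 hi
  rw [hi, (ZMod.natCast_eq_zero_iff _ _).2 h, orderOf_zero] at h1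
  exact h1 rfl

include hc in
theorem c_pos : 0 < c := by
  obtain ⟨k, h1, h2, -⟩ := c_spec hc (i_ne hr h0 hi)
  omega

include hr2 hc

theorem rv_card (hS : S.Nondeg) (hV : 0 < finrank F V) :
    Rv r (Nat.card S.Isom) (gO (Nat.card F ^ c) (mx c (Odd i) (finrank F V) (Pl S))) := by
  have := Fact.mk hr
  have : Fact (2 < r) := ⟨lt_of_le_of_ne hr.two_le hr2.symm⟩
  have h00 : (-1 : ZMod r) ≠ 1 := ZMod.neg_one_ne_one
  have hi0 := i_ne hr h0 hi
  have hq : 0 < Nat.card F := Nat.card_pos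
  have h1 : ∀ e, ¬ r ∣ 2 * Nat.card F ^ e := fun e h => ((hr.dvd_mul).1 h).elim
    (fun h => hr2 ((Nat.prime_dvd_prime_iff_eq hr Nat.prime_two).1 h)) fun h => not_dvd_card hr h0 hi (hr.dvd_of_dvd_pow h)
  obtain ⟨k, hk0, hk, -⟩ := c_spec hc hi0
  have h3 : ∀ m, r ∣ Nat.card F ^ m - 1 ↔ (Nat.card F : ZMod r) ^ m = 1 := fun m => by
    rw [← ord_dvd_iff hq, orderOf_dvd_iff_pow_eq_one]
  have h4 : ∀ m, r ∣ Nat.card F ^ m + 1 ↔ (Nat.card F : ZMod r) ^ m = -1 := fun m => by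
    rw [← ZMod.natCast_eq_zero_iff, ← eq_neg_iff_add_eq_zero.symm.trans Iff.rfl]
    simp [eq_neg_iff_add_eq_zero]
  rcases Nat.even_or_odd' (finrank F V) with ⟨m, hm | hm⟩
  · obtain ⟨m, rfl⟩ : ∃ k, m = k + 1 := ⟨m - 1, by omega⟩
    rw [hm, mx]
    split_ifs with h
    · rw [mt_iff hr hr2 hi hi0 hc] at h
      obtain ⟨u, v, h5, h6, h7⟩ := (Rv.one hr (h1 ((m + 1) * m))).mul hr (rv_gO hr hi hi0 hc hq (m + 1))
      have h8 : (Nat.card F ^ 2) ^ (m + 1) - 1 = (Nat.card F ^ (m + 1) + 1) * (Nat.card F ^ (m + 1) - 1) := by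
        rw [← pow_mul, mul_comm, pow_mul]
        exact Nat.sq_sub_sq _ 1
      rw [gO_succ, h8, one_mul] at h7
      rw [card_even hS hm]
      split_ifs at h ⊢
      · exact ⟨u, v * (Nat.card F ^ (m + 1) + 1), h5, fun h9 => ((hr.dvd_mul).1 h9).elim h6 fun h9 =>
          h00 (((h4 _).1 h9).symm.trans h), by rw [← h7]; ring⟩
      · exact ⟨u, v * (Nat.card F ^ (m + 1) - 1), h5, fun h9 => ((hr.dvd_mul).1 h9).elim h6 fun h9 =>
          h00 (h.symm.trans ((h3 _).1 h9)), by rw [← h7]; ring⟩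
    · rw [mt_iff hr hr2 hi hi0 hc] at h
      rw [card_even hS hm, show (2 * (m + 1) - 1) / c = 2 * m / c by
        rw [hk, ← Nat.div_div_eq_div_mul, ← Nat.div_div_eq_div_mul]; congr 1; omega,
        show gO (Nat.card F ^ c) (2 * m / c) = 1 * 1 * gO (Nat.card F ^ c) (2 * m / c) by simp]
      refine ((Rv.one hr (h1 _)).mul hr (Rv.one hr ?_)).mul hr (rv_gO hr hi hi0 hc hq m)
      split_ifs at h ⊢
      · rwa [h3]
      · rwa [h4]
  · rw [orth_card_odd m hS hm, prod_eq_gO, hm, mx, if_neg (fun h => by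
      obtain ⟨t, ht⟩ := h.1
      rw [hk, mul_assoc] at ht
      omega), ← one_mul (gO (_ ^ c) _)]
    exact (Rv.one hr (h1 _)).mul hr (rv_gO hr hi hi0 hc hq m)

theorem nd_lt (hS : S.Nondeg) {W₀ : Submodule F V} (hW : (S.restrict W₀).Nondeg) (h1 : 0 < finrank F W₀)
    (h2 : finrank F W₀ < finrank F V) (h : r ∣ Nat.card {U : Submodule F V // Eqv (S.restrict U) (S.restrict W₀)}) :
    mx c (Odd i) (finrank F W₀) (Pl (S.restrict W₀)) < mx c (Odd i) (finrank F V) (Pl S) ∧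
    mx c (Odd i) (finrank F V - finrank F W₀) (Pl (S.restrict (S.perp W₀))) < mx c (Odd i) (finrank F V) (Pl S) := by
  have h3 := hS.finrank_perp W₀
  have h4 : 1 < Nat.card F ^ c := Nat.one_lt_pow (c_pos hr h0 hi hc).ne' Finite.one_lt_card
  have h5 := rv_card hr hr2 h0 hi hc hS (by omega)
  refine ⟨lt_of_rv hr h4 (card_cl hS hW) (Dvd.intro _ rfl) h5 (rv_card hr hr2 h0 hi hc hW h1) h,
    lt_of_rv hr h4 (card_cl hS hW) (Dvd.intro_left _ rfl) h5 ?_ h⟩
  rw [show finrank F V - finrank F W₀ = finrank F (S.perp W₀) by omega]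
  exact rv_card hr hr2 h0 hi hc (hS.restrict_perp hW) (by omega)

theorem ts_lt (hS : S.Nondeg) {m : ℕ} (hm : 2 * m < finrank F V)
    (h : r ∣ Nat.card {U : Submodule F V // finrank F U = m ∧ S.TS U}) :
    mx c (Odd i) (finrank F V - 2 * m) (Pl S) < mx c (Odd i) (finrank F V) (Pl S) := by
  obtain ⟨X, h1, h2, h3, h4⟩ := card_ts hS (hS.orth_hasTS hm)
  refine lt_of_rv hr (Nat.one_lt_pow (c_pos hr h0 hi hc).ne' Finite.one_lt_card) h4 (Dvd.intro_left _ rfl)
    (rv_card hr hr2 h0 hi hc hS (by omega)) ?_ h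
  rw [show finrank F V - 2 * m = finrank F X by omega, ← propext h3]
  exact rv_card hr hr2 h0 hi hc h1 (by omega)

end R

end H21.Eo
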