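import Cfsg.Agent.H21.Crit
import Cfsg.Agent.H9.InvCount
import Cfsg.Agent.H22.Misc2

/-! Order bounds: Landau's theorem (`landau`: the order is bounded in terms of the class number),
Brauer–Fowler type bounds (`bf_one`, `bf_two`) and `four_bound`: a group with a four-group whose three
involutions have centralizers of bounded order, and with bounded `2`-part, has bounded order. -/

set_option autoImplicit false
set_option linter.unusedSectionVars false

namespace H21
open Cfsg Subgroup H18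
universe u

theorem egypt (k : ℕ) : ∀ c : ℚ, ∃ N : ℕ, ∀ s : Multiset ℕ, s.card ≤ k → (∀ n ∈ s, 0 < n) →
    (s.map fun n : ℕ => ((n : ℚ))⁻¹).sum = c → ∀ n ∈ s, n ≤ N := by
  induction k with
  | zero => intro c; refine ⟨0, fun s hs _ _ n hn => ?_⟩; simp [Multiset.card_eq_zero.1 (Nat.le_zero.1 hs)] at hn
  | succ k ih =>
    intro c
    choose f hf using ih
    set b := ⌈((k + 1 : ℕ) : ℚ) / c⌉₊
    refine ⟨b + (Finset.range (b + 1)).sup fun m : ℕ => f (c - (m : ℚ)⁻¹), fun s hs hp e n hn => ?_⟩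
    obtain ⟨m, hm, hmin⟩ := s.toFinset.exists_min_image id ⟨n, Multiset.mem_toFinset.2 hn⟩
    rw [Multiset.mem_toFinset] at hm
    have hm0 : (0 : ℚ) < m := by exact_mod_cast hp m hm
    have h1 : c ≤ ((k + 1 : ℕ) : ℚ) * (m : ℚ)⁻¹ := by
      rw [← e]
      refine (Multiset.sum_le_card_nsmul _ (m : ℚ)⁻¹ fun x hx => ?_).trans ?_
      · obtain ⟨y, hy, rfl⟩ := Multiset.mem_map.1 hx
        exact inv_anti₀ hm0 (by exact_mod_cast hmin y (Multiset.mem_toFinset.2 hy))
      · rw [Multiset.card_map, nsmul_eq_mul]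
        exact mul_le_mul_of_nonneg_right (by exact_mod_cast hs) (inv_pos.2 hm0).le
    obtain ⟨t, rfl⟩ := Multiset.exists_cons_of_mem hm
    rw [Multiset.map_cons, Multiset.sum_cons] at e
    have hc : 0 < c := by
      rw [← e]
      exact add_pos_of_pos_of_nonneg (inv_pos.2 hm0) (Multiset.sum_nonneg fun x hx => by
        obtain ⟨y, -, rfl⟩ := Multiset.mem_map.1 hx; positivity)
    have h2 : m ≤ b := by
      have : (m : ℚ) ≤ ((k + 1 : ℕ) : ℚ) / c := by
        rw [le_div_iff₀ hc, mul_comm, ← le_div_iff₀ hm0, div_eq_mul_inv]; exact h1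
      exact_mod_cast this.trans (Nat.le_ceil _)
    rcases Multiset.mem_cons.1 hn with rfl | hn
    · omega
    · have := hf (c - (m : ℚ)⁻¹) t (by simpa using hs) (fun x hx => hp x (Multiset.mem_cons_of_mem hx))
        (by rw [← e]; ring) n hn
      have h3 := Finset.le_sup (f := fun m : ℕ => f (c - (m : ℚ)⁻¹)) (Finset.mem_range.2 (Nat.lt_succ_of_le h2))
      exact (this.trans h3).trans (Nat.le_add_left _ _)

/-- Landau's theorem. -/
theorem landau (k : ℕ) : ∃ N : ℕ, ∀ (G : Type u) [Group G] [Finite G], Nat.card (ConjClasses G) ≤ k → Nat.card G ≤ N := by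
  obtain ⟨N, hN⟩ := egypt k 1
  refine ⟨N, fun G _ _ h => ?_⟩
  classical
  have := Fintype.ofFinite G
  have hG : (Nat.card G : ℚ) ≠ 0 := by exact_mod_cast Nat.card_pos.ne'
  have key : ∀ c : ConjClasses G, Nat.card c.carrier * Nat.card C1(c.out) = Nat.card G := fun c => by
    conv_lhs => rw [← (show ConjClasses.mk c.out = c from Quotient.out_eq c)]
    rw [Nat.card_coe_set_eq, ncard_class, (show ConjClasses.mk c.out = c from Quotient.out_eq c), index_mul_card]
  refine hN ((Finset.univ : Finset (ConjClasses G)).val.map fun c => Nat.card C1(c.out)) (by simpa using h)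
    (fun n hn => ?_) ?_ _ (Multiset.mem_map.2 ⟨1, by simp, ?_⟩)
  · obtain ⟨c, -, rfl⟩ := Multiset.mem_map.1 hn; exact Nat.card_pos
  · rw [Multiset.map_map]
    change ∑ c : ConjClasses G, ((Nat.card C1(c.out) : ℚ))⁻¹ = 1
    apply mul_left_cancel₀ hG
    rw [Finset.mul_sum, mul_one]
    have := sum_conjClasses_card_eq_card G
    rw [← Nat.card_eq_fintype_card] at this
    conv_rhs => rw [← this]
    push_cast
    refine Finset.sum_congr rfl fun c _ => ?_
    have h0 : (Nat.card C1(c.out) : ℚ) ≠ 0 := by exact_mod_cast Nat.card_pos.ne'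
    rw [← key c, Set.toFinset_card, ← Nat.card_eq_fintype_card]
    push_cast
    field_simp
  · have : (1 : ConjClasses G).out = 1 := by
      have h1 : ConjClasses.mk (1 : ConjClasses G).out = ConjClasses.mk 1 := Quotient.out_eq _
      exact isConj_one_left.1 (ConjClasses.mk_eq_mk_iff_isConj.1 h1)
    rw [this, C1_one, card_top]

variable {G : Type u} [Group G] [Finite G] {t x y z : G} {c : ℕ}

theorem bf_one (ht : orderOf t = 2) (hc : Nat.card C1(t) ≤ c) :
    Nat.card G ≤ 2 * c ∨ ∃ x : G, x ≠ 1 ∧ C1(x).index ≤ 2 * c ^ 2 := by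
  by_contra! h
  classical
  have := Fintype.ofFinite G
  have h1 := H9.sum_card_pairs (G := G)
  rw [← Finset.add_sum_erase _ _ (Finset.mem_univ 1), H9.card_pairs_one] at h1
  have h2 := H9.index_le_card_involutions ht
  have h3 := C1(t).index_mul_card
  set n := Nat.card {t : G // orderOf t = 2}
  have h4 : Nat.card G ≤ n * c := h3 ▸ Nat.mul_le_mul h2 hc
  have h5 : 2 * c ^ 2 * ∑ x ∈ Finset.univ.erase (1 : G),
      Nat.card {p : G × G // orderOf p.1 = 2 ∧ orderOf p.2 = 2 ∧ p.1 * p.2 = x} ≤ Nat.card G * Nat.card G := by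
    rw [Finset.mul_sum]
    refine (Finset.sum_le_card_nsmul _ _ (Nat.card G) fun x hx => ?_).trans ?_
    · rw [← C1(x).index_mul_card]
      exact Nat.mul_le_mul (h.2 x (Finset.ne_of_mem_erase hx)).le (H9.card_pairs_le x)
    · rw [smul_eq_mul]
      refine Nat.mul_le_mul_right _ ?_
      rw [Nat.card_eq_fintype_card]; exact Finset.card_le_univ _
  have h6 : Nat.card G * Nat.card G ≤ (n * c) * (n * c) := Nat.mul_le_mul h4 h4
  have hc0 : 0 < c := lt_of_lt_of_le Nat.card_pos hc
  have h7 : 2 < n := by by_contra h7; have := h.1; nlinarith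
  have h8 : 2 * c ^ 2 * n ^ 2 ≤ 2 * c ^ 2 * n + (n * c) * (n * c) := by rw [← h1, mul_add]; omega
  have h9 : c ^ 2 * n * n ≤ c ^ 2 * n * 2 := by nlinarith
  have := Nat.le_of_mul_le_mul_left h9 (by positivity)
  omega

theorem bf_two (hx : orderOf x = 2) (hy : orderOf y = 2) (h : ¬ IsConj x y)
    (hc : ∀ w : G, orderOf w = 2 → Nat.card C1(w) ≤ c) : Nat.card G ≤ c ^ 4 := by
  classical
  have := Fintype.ofFinite G
  have key : ∀ p : {a // IsConj x a} × {b // IsConj y b}, ∃ w : G, orderOf w = 2 ∧ p.1.1 ∈ C1(w) ∧ p.2.1 ∈ C1(w) := by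
    rintro ⟨⟨a, ha⟩, ⟨b, hb⟩⟩
    rcases H9.isConj_or_exists_commute (H9.mul_self_of_orderOf ((H9.IsConj.orderOf_eq' ha).symm.trans hx))
      (H9.mul_self_of_orderOf ((H9.IsConj.orderOf_eq' hb).symm.trans hy)) with h1 | ⟨w, h1, -, h2, h3⟩
    · exact absurd ((ha.trans h1).trans hb.symm) h
    · exact ⟨w, h1, mem_C1.2 h2.symm, mem_C1.2 h3.symm⟩
  choose f hf using key
  have h1 : Nat.card ({a // IsConj x a} × {b // IsConj y b}) ≤
      Nat.card (Σ w : {w : G // orderOf w = 2}, C1(w.1) × C1(w.1)) := by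
    refine Nat.card_le_card_of_injective (fun p => ⟨⟨f p, (hf p).1⟩, ⟨p.1.1, (hf p).2.1⟩, ⟨p.2.1, (hf p).2.2⟩⟩) ?_
    intro p q e
    have e1 := congrArg (fun s : (Σ w : {w : G // orderOf w = 2}, C1(w.1) × C1(w.1)) => (s.2.1 : G)) e
    have e2 := congrArg (fun s : (Σ w : {w : G // orderOf w = 2}, C1(w.1) × C1(w.1)) => (s.2.2 : G)) e
    exact Prod.ext (Subtype.ext e1) (Subtype.ext e2)
  rw [Nat.card_prod, H9.card_conj_eq_index, H9.card_conj_eq_index, Nat.card_sigma] at h1
  have h2 : ∑ w : {w : G // orderOf w = 2}, Nat.card (C1(w.1) × C1(w.1)) ≤ Nat.card G * (c * c) := by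
    refine (Finset.sum_le_card_nsmul _ _ (c * c) fun w _ => ?_).trans ?_
    · rw [Nat.card_prod]; exact Nat.mul_le_mul (hc _ w.2) (hc _ w.2)
    · rw [smul_eq_mul]
      refine Nat.mul_le_mul_right _ ?_
      rw [Nat.card_eq_fintype_card, Finset.card_univ]; exact Fintype.card_subtype_le _
  have h3 := C1(x).index_mul_card
  have h4 := C1(y).index_mul_card
  have h5 : Nat.card G * Nat.card G ≤ C1(x).index * C1(y).index * (c * c) := by
    calc Nat.card G * Nat.card G = (C1(x).index * Nat.card C1(x)) * (C1(y).index * Nat.card C1(y)) := by rw [h3, h4]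
      _ = C1(x).index * C1(y).index * (Nat.card C1(x) * Nat.card C1(y)) := by ring
      _ ≤ _ := Nat.mul_le_mul_left _ (Nat.mul_le_mul (hc x hx) (hc y hy))
  have h6 : Nat.card G * Nat.card G ≤ Nat.card G * c ^ 4 := by
    calc _ ≤ _ := h5
      _ ≤ Nat.card G * (c * c) * (c * c) := Nat.mul_le_mul_right _ (h1.trans h2)
      _ = _ := by ring
  exact Nat.le_of_mul_le_mul_left h6 Nat.card_pos

theorem eq_or_eq_of_mem_zpowers (ht : orderOf t = 2) (h : x ∈ zpowers t) : x = 1 ∨ x = t := by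
  classical
  rw [mem_zpowers_iff_mem_range_orderOf, ht] at h
  obtain ⟨k, hk, rfl⟩ := Finset.mem_image.1 h
  have := Finset.mem_range.1 hk
  interval_cases k <;> simp

theorem card_C1_sub {H : Subgroup G} (w : H) : Nat.card C1(w) ≤ Nat.card C1((w : G)) :=
  Nat.card_le_card_of_injective (fun a => ⟨a.1.1, mem_C1.2 (congrArg Subtype.val (mem_C1.1 a.2))⟩)
    fun _ _ e => Subtype.ext (Subtype.ext (congrArg (fun a : C1((w : G)) => a.1) e))

/-- `x`, `y`, `x * y` are involutions with centralizers of order at most `c`. -/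
def Four (c : ℕ) (x y : G) : Prop := ∀ w, w = x ∨ w = y ∨ w = x * y → orderOf w = 2 ∧ Nat.card C1(w) ≤ c

theorem Four.odd_le (h : Four c x y) {K : Subgroup G} [K.Normal] (hK : PiGrp {2}ᶜ K) : Nat.card K ≤ c ^ 4 := by
  obtain ⟨hx, -⟩ := h x (.inl rfl)
  obtain ⟨hy, -⟩ := h y (.inr (.inl rfl))
  obtain ⟨hxy, -⟩ := h (x * y) (.inr (.inr rfl))
  have odd : ∀ k ∈ K, Odd (orderOf k) := fun k hk =>
    Nat.not_even_iff_odd.1 fun e => (piNat_compl_iff Nat.prime_two).1 (hK.elt hk) (even_iff_two_dvd.1 e)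
  have hcm : x * y = y * x := by
    rw [← H9.inv_eq_of_orderOf hxy, mul_inv_rev, H9.inv_eq_of_orderOf hx, H9.inv_eq_of_orderOf hy]
  have hV : ∀ g ∈ K ⊔ (zpowers x ⊔ zpowers y), ∃ k ∈ K, ∃ w, (w = 1 ∨ w = x ∨ w = y ∨ w = x * y) ∧ g = k * w := by
    intro g hg
    obtain ⟨k, hk, w, hw, rfl⟩ := (mem_sup_of_norm' norm_of_normal).1 hg
    obtain ⟨a, ha, b, hb, rfl⟩ := (mem_sup_of_cent (zpowers_le.2 (C_zpowers (x := y) ▸ mem_C1.2 hcm))).1 hw
    refine ⟨k, hk, _, ?_, rfl⟩
    rcases eq_or_eq_of_mem_zpowers hx ha with rfl | rfl <;> rcases eq_or_eq_of_mem_zpowers hy hb with rfl | rfl <;> simp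
  refine (card_le (le_sup_left (b := zpowers x ⊔ zpowers y))).trans (bf_two
    (x := ⟨x, mem_sup_right (mem_sup_left (mem_zpowers x))⟩) (y := ⟨y, mem_sup_right (mem_sup_right (mem_zpowers y))⟩)
    ((orderOf_coe _).symm.trans hx) ((orderOf_coe _).symm.trans hy) ?_ ?_)
  · rw [isConj_iff]
    rintro ⟨⟨g, hg⟩, e⟩
    obtain ⟨k, hk, w, hw, rfl⟩ := hV g hg
    have e : k * w * x * (k * w)⁻¹ = y := congrArg Subtype.val e
    have e1 : w * x = x * w := by
      rcases hw with rfl | rfl | rfl | rfl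
      · simp
      · rfl
      · exact hcm.symm
      · rw [mul_assoc, ← hcm]
    have e2 : x * y = x * k * x⁻¹ * k⁻¹ := by
      rw [← e, mul_assoc k, e1, H9.inv_eq_of_orderOf hx]; group
    have := odd _ (K.mul_mem (‹K.Normal›.conj_mem k hk x) (K.inv_mem hk))
    rw [← e2, hxy] at this
    exact absurd this (by decide)
  · rintro ⟨g, hg⟩ h2
    replace h2 : orderOf g = 2 := (orderOf_coe (⟨g, hg⟩ : ↥(K ⊔ (zpowers x ⊔ zpowers y)))).trans h2
    refine (card_C1_sub _).trans ?_
    obtain ⟨k, hk, w, hw, rfl⟩ := hV g hg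
    rcases hw with rfl | hw
    · have := odd k hk
      rw [mul_one] at h2; rw [h2] at this; exact absurd this (by decide)
    · obtain ⟨h3, h4⟩ := h w hw
      refine (H9.card_centralizer_of_isConj (H9.isConj_of_odd (H9.mul_self_of_orderOf h2) (H9.mul_self_of_orderOf h3) ?_)).trans_le h4
      rw [mul_assoc, H9.mul_self_of_orderOf h3, mul_one]; exact odd k hk

theorem Four.quot (h : Four c x y) (K : Subgroup G) [K.Normal] (hK : ∀ w, w = x ∨ w = y ∨ w = x * y → w ∉ K) :
    Four c (x : G ⧸ K) (y : G ⧸ K) := by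
  have key : ∀ w, w = x ∨ w = y ∨ w = x * y → orderOf (w : G ⧸ K) = 2 ∧ Nat.card C1((w : G ⧸ K)) ≤ c := fun w hw =>
    ⟨H9.orderOf_eq_two.2 ⟨by rw [← QuotientGroup.mk_mul, H9.mul_self_of_orderOf (h w hw).1, QuotientGroup.mk_one],
      fun e => hK w hw ((QuotientGroup.eq_one_iff w).1 e)⟩, (H22.card_centralizer_quotient_le K w).trans (h w hw).2⟩
  rintro _ (rfl | rfl | rfl)
  · exact key x (.inl rfl)
  · exact key y (.inr (.inl rfl))
  · exact key (x * y) (.inr (.inr rfl))

theorem index_normalCore_le (H : Subgroup G) : H.normalCore.index ≤ H.index.factorial := by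
  classical
  have := Fintype.ofFinite (G ⧸ H)
  rw [normalCore_eq_ker, index_ker]
  refine (card_le le_top).trans_eq ?_
  rw [card_top, Nat.card_eq_fintype_card, Fintype.card_perm, index, Nat.card_eq_fintype_card]

theorem four_bound (c a : ℕ) : ∃ N : ℕ, ∀ (G : Type u) [Group G] [Finite G], ¬ 2 ^ a ∣ Nat.card G →
    ∀ x y : G, Four c x y → Nat.card G ≤ N := by
  induction a with
  | zero => exact ⟨0, fun G _ _ h => absurd (by simp) h⟩
  | succ a ih =>
    obtain ⟨N, hN⟩ := ih
    set m := (2 * c ^ 2).factorial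
    have step : ∀ (G : Type u) [Group G] [Finite G], O[{2}ᶜ]((⊤ : Subgroup G)) = ⊥ → ¬ 2 ^ (a + 1) ∣ Nat.card G →
        ∀ x y : G, Four c x y → Nat.card G ≤ 2 * c + m * c + N * (m * 2 ^ a) := by
      intro G _ _ hO h2 x y h
      rcases bf_one (h x (.inl rfl)).1 (h x (.inl rfl)).2 with h1 | ⟨z, hz, h1⟩
      · omega
      have hm : C1(z).normalCore.index ≤ m := (index_normalCore_le _).trans (Nat.factorial_le h1)
      set K := C1(z).normalCore
      set D := normalClosure ({z} : Set G)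
      have hKD : D ≤ C(K) := normalClosure_le_normal (Set.singleton_subset_iff.2 (le_C1_iff.1 (normalCore_le _)))
      by_cases hw : ∃ w, (w = x ∨ w = y ∨ w = x * y) ∧ w ∈ D
      · obtain ⟨w, hw, hwD⟩ := hw
        have := K.index_mul_card ▸ Nat.mul_le_mul hm ((card_le (le_C1_iff.2 (hKD hwD))).trans (h w hw).2)
        omega
      have hodd : ∀ L : Subgroup G, L ⊴ ⊤ → PiGrp {2}ᶜ L → L = ⊥ := fun L h1 h2 => le_bot_iff.1 (hO ▸ le_pcore h1 h2)
      have hD2 : 2 ∣ Nat.card D := by
        by_contra hD2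
        exact ne_bot_of_mem (subset_normalClosure (Set.mem_singleton z)) hz
          (hodd D nml_top ((piNat_compl_iff Nat.prime_two).2 hD2))
      have h3 := hN (G ⧸ D) (fun e => h2 (by
        rw [card_eq_card_quotient_mul_card_subgroup D, pow_succ]; exact mul_dvd_mul e hD2)) _ _
        (h.quot D fun w h1 h2 => hw ⟨w, h1, h2⟩)
      have hA : Abel (K ⊓ D) := cent_mono hKD inf_le_right inf_le_left
      have h4 : PiGrp {2} (K ⊓ D) := by
        have := hA.nil.pcore_sup (π := {2})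
        rw [hodd _ (Nml.pcore nml_top) pcore_pi, sup_bot_eq] at this
        exact this ▸ pcore_pi
      obtain ⟨k, hk⟩ := h4.card_eq_pow
      have h5 : Nat.card (K ⊓ D :) ≤ 2 ^ a := by
        rw [hk]
        refine Nat.pow_le_pow_right two_pos (Nat.le_of_lt_succ (lt_of_not_ge fun e => h2 ?_))
        exact (pow_dvd_pow 2 e).trans (hk ▸ card_subgroup_dvd_card _)
      have h6 : Nat.card D ≤ m * 2 ^ a := by
        rw [← card_mul_relIndex' (A := K) (B := D), mul_comm]
        exact Nat.mul_le_mul ((Nat.le_of_dvd (Nat.pos_of_ne_zero index_ne_zero_of_finite) (relIndex_dvd_index_of_normal _ _)).trans hm) h5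
      have := card_eq_card_quotient_mul_card_subgroup D ▸ Nat.mul_le_mul h3 h6
      omega
    refine ⟨(2 * c + m * c + N * (m * 2 ^ a)) * c ^ 4, fun G _ _ h2 x y h => ?_⟩
    have : O[{2}ᶜ]((⊤ : Subgroup G)).Normal := pcore_nml.normal
    set K := O[{2}ᶜ]((⊤ : Subgroup G))
    rw [card_eq_card_quotient_mul_card_subgroup K]
    refine Nat.mul_le_mul (step _ ?_ (fun e => h2 (e.trans (card_quotient_dvd_card K))) _ _ (h.quot K fun w hw e => ?_))
      (h.odd_le pcore_pi)
    · set L := O[{2}ᶜ]((⊤ : Subgroup (G ⧸ K)))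
      have : L.Normal := pcore_nml.normal
      have h1 : L.comap (QuotientGroup.mk' K) ≤ K := le_pcore nml_top (piGrp_of_relIndex (A := K)
        (fun k hk => by simp [(QuotientGroup.eq_one_iff k).2 hk]) pcore_pi (by
          conv => enter [2, 1]; rw [← QuotientGroup.ker_mk' K, ← MonoidHom.comap_bot]
          rw [relIndex_comap, map_comap_eq_self_of_surjective (QuotientGroup.mk'_surjective K), relIndex_bot_left]
          exact pcore_pi))
      refine le_bot_iff.1 fun g hg => ?_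
      obtain ⟨g, rfl⟩ := QuotientGroup.mk'_surjective K g
      exact (QuotientGroup.eq_one_iff g).2 (h1 hg)
    · exact (piNat_compl_iff Nat.prime_two).1 (pcore_pi.elt e) (h w hw).1.symm.dvd

end H21
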