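import Cfsg.Agent.H20.El4
import Cfsg.Agent.H11.Reg
import Cfsg.Agent.H11.Inv2
import Cfsg.Agent.H11.Orth2
import Cfsg.Prelude.Def_GeometricClasses

/-! Elusivity for orthogonal groups: definitions `Fx`, `Elu`, bridges to matrix statements, embeddings,
the numerical function `mx`. -/

set_option autoImplicit false
namespace H21.Eo
open H11 Module Polynomial
open H11.PForm hiding X

universe u
variable {F : Type u} [Field F] {V W : Type u} [AddCommGroup V] [Module F V] [AddCommGroup W]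
  [Module F W] {S : PForm (orthP F) V} {T : PForm (orthP F) W}

/-- `g` fixes a subspace satisfying `Φ` -/
def Fx (Φ : Submodule F V → Prop) (g : S.Isom) : Prop := ∃ U, Φ U ∧ ∀ x ∈ U, g.1 x ∈ U

/-- elusivity -/
def Elu (S : PForm (orthP F) V) (r : ℕ) (Φ : Submodule F V → Prop) : Prop :=
  ∀ g ∈ commutator S.Isom, (g ^ r = 1 ∨ g ^ r = S.negOne) → g ≠ 1 → g ≠ S.negOne → Fx Φ g

theorem negOne_mul_self : S.negOne * S.negOne = 1 := isom_ext fun x => by simp

theorem negOne_comm (g : S.Isom) : Commute S.negOne g := isom_ext fun x => by simp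

theorem negOne_pow_odd {r : ℕ} (hr : Odd r) : S.negOne ^ r = S.negOne := by
  obtain ⟨k, rfl⟩ := hr
  rw [pow_succ, pow_mul, pow_two, negOne_mul_self, one_pow, one_mul]

theorem scalar_iff (hS : S.Nondeg) [Nontrivial V] (g : S.Isom) :
    (∃ z : F, ∀ x, g.1 x = z • x) ↔ g = 1 ∨ g = S.negOne := by
  constructor
  · rintro ⟨z, hz⟩
    obtain ⟨v, hv⟩ := hS.orth_exists_q_ne
    have h1 := orth_isom_q g v
    rw [hz, orth_q_smul] at h1
    have h2 : z * z = 1 := mul_right_cancel₀ hv (by rw [← pow_two, h1, one_mul])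
    rcases mul_self_eq_one_iff.1 h2 with h | h
    · exact .inl (isom_ext fun x => by simp [hz, h])
    · exact .inr (isom_ext fun x => by simp [hz, h])
  · rintro (rfl | rfl)
    · exact ⟨1, fun x => by simp⟩
    · exact ⟨-1, fun x => by simp⟩

section Br
variable {ι : Type} [Fintype ι] [DecidableEq ι] (Q : QuadraticForm F (ι → F))

theorem all_omega {Ψ : GL ι F → Prop} : (∀ x, x ∈ Cfsg.Geo.omegaGL ⇑Q → Ψ x) ↔
    ∀ g : Cfsg.isometryGroup F ⇑Q, orthEquiv Q g ∈ commutator (orthS Q).Isom → Ψ g := by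
  constructor
  · exact fun h g hg => h _ ⟨g, (mem_Omega_iff Q g).2 hg, rfl⟩
  · rintro h _ ⟨g, hg, rfl⟩
    exact h g ((mem_Omega_iff Q g).1 hg)

theorem fx_coe (g : Cfsg.isometryGroup F ⇑Q) (Φ : Submodule F (ι → F) → Prop) :
    (∃ U, Φ U ∧ U.map (Matrix.toLin' ((g : GL ι F) : Matrix ι ι F)) ≤ U) ↔ Fx Φ (orthEquiv Q g) :=
  exists_congr fun _ => and_congr_right fun _ => H20.El.map_le_iff

theorem scalar_coe (hS : (orthS Q).Nondeg) [Nonempty ι] (g : Cfsg.isometryGroup F ⇑Q) :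
    (∃ z : F, ((g : GL ι F) : Matrix ι ι F) = z • (1 : Matrix ι ι F)) ↔
      orthEquiv Q g = 1 ∨ orthEquiv Q g = (orthS Q).negOne := by
  rw [← scalar_iff hS]
  refine exists_congr fun z => ?_
  rw [coe_eq_iff]
  simp [Matrix.smul_mulVec]

theorem bridge (hS : (orthS Q).Nondeg) [Nonempty ι] (r : ℕ) (Φ : Submodule F (ι → F) → Prop) :
    (∀ x : GL ι F, x ∈ Cfsg.Geo.omegaGL ⇑Q →
      (∃ z : F, ((x ^ r : GL ι F) : Matrix ι ι F) = z • (1 : Matrix ι ι F)) →
      (∀ z : F, (x : Matrix ι ι F) ≠ z • (1 : Matrix ι ι F)) →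
      ∃ U, Φ U ∧ U.map (Matrix.toLin' (x : Matrix ι ι F)) ≤ U) ↔ Elu (orthS Q) r Φ := by
  rw [all_omega, Elu, (orthEquiv Q).surjective.forall]
  refine forall_congr' fun g => imp_congr_right fun _ => ?_
  rw [fx_coe, ← map_pow, ← scalar_coe Q hS, ← and_imp (a := _ ≠ 1), ← not_or, ← scalar_coe Q hS, not_exists]
  rfl

theorem bridge' [Finite F] (hS : (orthS Q).Nondeg) (ho : Odd (finrank F (ι → F))) {r : ℕ} (hr : r.Prime)
    (Φ : Submodule F (ι → F) → Prop) :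
    (∀ x : GL ι F, x ∈ Cfsg.Geo.omegaGL ⇑Q → orderOf x = r →
      ∃ U, Φ U ∧ U.map (Matrix.toLin' (x : Matrix ι ι F)) ≤ U) ↔ Elu (orthS Q) r Φ := by
  have := Fact.mk hr
  have h1 : (orthS Q).negOne ∉ commutator (orthS Q).Isom := fun h =>
    Nat.not_even_iff_odd.2 ho ((hS.negOne_mem_commutator_iff (hS.two_ne_zero_of_odd ho)).1 h).1
  rw [all_omega, Elu, (orthEquiv Q).surjective.forall]
  refine forall_congr' fun g => imp_congr_right fun hg => ?_
  rw [fx_coe, Subgroup.orderOf_coe, ← (orthEquiv Q).orderOf_eq g]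
  constructor
  · rintro h (h2 | h2) h3 -
    · exact h (orderOf_eq_prime h2 h3)
    · exact absurd (h2 ▸ pow_mem hg r) h1
  · intro h h2
    refine h (.inl (h2 ▸ pow_orderOf_eq_one _)) (fun h3 => ?_) fun h3 => h1 (h3 ▸ hg)
    rw [h3, orderOf_one] at h2
    exact hr.one_lt.ne h2

theorem nd_iff (U : Submodule F (ι → F)) :
    Cfsg.Geo.IsNondegenerateOn (QuadraticMap.polar ⇑Q) U ↔ ((orthS Q).restrict U).Nondeg := by
  rw [restrict_nondeg_iff']
  refine forall_congr' fun w => imp_congr_right fun _ => ?_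
  constructor
  · intro h h1
    by_contra h2
    obtain ⟨x, hx, h3⟩ := (h h2).2
    exact h3 (h1 x hx)
  · intro h h1
    have := mt h h1
    push Not at this
    obtain ⟨x, hx, h3⟩ := this
    exact ⟨⟨x, hx, by rwa [QuadraticMap.polar_comm]⟩, x, hx, h3⟩

theorem nd_iff' (U : Submodule F (ι → F)) :
    (∀ u ∈ U, u ≠ 0 → ∃ v ∈ U, QuadraticMap.polar ⇑Q u v ≠ 0) ↔ ((orthS Q).restrict U).Nondeg := by
  rw [restrict_nondeg_iff']
  refine forall_congr' fun w => imp_congr_right fun _ => ?_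
  rw [← not_imp_not]
  push Not
  rfl

theorem plus_iff {U : Submodule F (ι → F)} {k : ℕ} (h : finrank F U = 2 * k) :
    Cfsg.Geo.IsPlusTypeOn ⇑Q U ↔ ((orthS Q).restrict U).HasTS k := by
  rw [H20.El.hasTS_iff, Cfsg.Geo.IsPlusTypeOn, h]
  refine exists_congr fun A => and_congr_right fun _ => and_congr (orth_ts_iff (S := orthS Q)).symm (by omega)

theorem isom_iff (U U' : Submodule F (ι → F)) :
    Cfsg.Geo.AreIsometricFor ⇑Q U U' ↔ Eqv ((orthS Q).restrict U) ((orthS Q).restrict U') :=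
  exists_congr fun e => ⟨fun h => orth_isIsom (f := e.toLinearMap) h, fun h x => h.orth_q x⟩

end Br

theorem eqv_range {f : W →ₗ[F] V} (hf : IsIsom T S f) (hi : Function.Injective f) :
    Eqv (S.restrict (LinearMap.range f)) T :=
  Eqv.symm ⟨LinearEquiv.ofInjective f hi, orth_isIsom (f := (LinearEquiv.ofInjective f hi).toLinearMap)
    fun x => hf.orth_q x⟩

variable [FiniteDimensional F V] [FiniteDimensional F W]

theorem fx_iff (hS : S.Nondeg) {W₀ : Submodule F V} (h0 : (S.restrict W₀).Nondeg) (g : S.Isom) :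
    Fx (fun U => Eqv (S.restrict U) (S.restrict W₀)) g ↔
      ∃ (a : (S.restrict W₀).Isom) (b : (S.restrict (S.perp W₀)).Isom), Spl g a b := by
  constructor
  · rintro ⟨U, h1, h2⟩
    obtain ⟨a, ha⟩ := h1.exists_isim (rst g U h2)
    obtain ⟨b, hb⟩ := (eqv_perp_of_eqv hS (Eqv.refl S) h1).exists_isim (rst g _ (perp_inv h2))
    exact ⟨a, b, (ha.prod hb).symm.trans (spl_rst g (h1.symm.nondeg h0) h2)⟩
  · rintro ⟨a, b, e, h1, h2⟩
    refine ⟨LinearMap.range (e.toLinearMap ∘ₗ LinearMap.inl F _ _), eqv_range (h1.comp H20.El.isIsom_inl)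
      (e.injective.comp LinearMap.inl_injective), ?_⟩
    rintro _ ⟨x, rfl⟩
    exact ⟨a.1 x, by simpa using h2 (x, 0)⟩

omit [FiniteDimensional F V] in
theorem Spl.of_isim {Y : Type u} [AddCommGroup Y] [Module F Y] {R : PForm (orthP F) Y} {g k : S.Isom} {a : T.Isom}
    {b : R.Isom} (h : Spl k a b) (h' : ISim k g) : Spl g a b := ISim.trans h h'

variable [Finite F]

theorem exists_emb (hS : S.Nondeg) (hT : T.Nondeg) (h : finrank F W < finrank F V) :
    ∃ U : Submodule F V, Eqv (S.restrict U) T := by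
  obtain ⟨U, -, e, he⟩ := orth_exists_compl hS hT h
  exact ⟨_, eqv_range (f := e.toLinearMap ∘ₗ LinearMap.inl F _ _) (he.comp H20.El.isIsom_inl)
    (e.injective.comp LinearMap.inl_injective)⟩

theorem mem_comm_odd (hS : S.Nondeg) (h4 : S.NotO4) {r : ℕ} (hr : Odd r) {g : S.Isom} (h : g ^ r = 1) :
    g ∈ commutator S.Isom := by
  have : Odd (orderOf g) := hr.of_dvd_nat (orderOf_dvd_of_pow_eq_one h)
  exact (hS.mem_commutator_iff h4 g).2 ⟨hom_eq_one_of_odd _ this, hom_eq_one_of_odd _ this⟩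

theorem elu_odd (hS : S.Nondeg) (h4 : S.NotO4) {r : ℕ} (hr : Odd r) (Φ : Submodule F V → Prop) :
    Elu S r Φ ↔ ∀ g : S.Isom, g ^ r = 1 → g ≠ 1 → Fx Φ g := by
  constructor
  · refine fun h g h1 h2 => h g (mem_comm_odd hS h4 hr h1) (.inl h1) h2 fun h3 => h2 ?_
    rw [h3, negOne_pow_odd hr] at h1
    rw [h3, h1]
  · rintro h g - (h1 | h1) h2 h3
    · exact h g h1 h2
    · obtain ⟨U, h5, h6⟩ := h (S.negOne * g) (by
        rw [(negOne_comm g).mul_pow, negOne_pow_odd hr, h1, negOne_mul_self]) fun h5 => h3 (by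
        rw [← one_mul g, ← negOne_mul_self, mul_assoc, h5, mul_one])
      exact ⟨U, h5, fun x hx => by simpa using h6 x hx⟩

/-! ### numerics -/

open Classical in
/-- maximal number of blocks of size `c` -/
noncomputable def mx (c : ℕ) (τ : Prop) (n : ℕ) (ε : Prop) : ℕ :=
  if c ∣ n ∧ (ε ↔ τ ∨ Even (n / c)) then n / c else (n - 1) / c

theorem le_mx {c : ℕ} (hc : 0 < c) {τ : Prop} {n : ℕ} (hn : 0 < n) {ε : Prop} {t : ℕ} :
    t ≤ mx c τ n ε ↔ t * c < n ∨ (t * c = n ∧ (ε ↔ τ ∨ Even t)) := by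
  unfold mx
  split_ifs with h
  · rw [Nat.le_div_iff_mul_le hc, le_iff_lt_or_eq]
    refine or_congr_right ⟨fun h1 => ⟨h1, ?_⟩, And.left⟩
    have := h.2
    rwa [← h1, Nat.mul_div_cancel _ hc] at this
  · rw [Nat.le_div_iff_mul_le hc]
    refine ⟨fun h1 => .inl (by omega), ?_⟩
    rintro (h1 | ⟨rfl, h1⟩)
    · omega
    · exact absurd ⟨Dvd.intro_left _ rfl, by rwa [Nat.mul_div_cancel _ hc]⟩ h

theorem mx_spec {c : ℕ} (hc : 0 < c) (τ : Prop) {n : ℕ} (hn : 0 < n) (ε : Prop) :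
    (n % c = 0 ∧ ¬ (ε ↔ τ ∨ Even (n / c)) ∧ mx c τ n ε + 1 = n / c) ∨
      ((0 < n % c ∨ (ε ↔ τ ∨ Even (n / c))) ∧ mx c τ n ε = n / c) := by
  obtain ⟨n, rfl⟩ : ∃ k, n = k + 1 := ⟨n - 1, by omega⟩
  unfold mx
  split_ifs with h
  · exact .inr ⟨.inr h.2, rfl⟩
  · rw [Nat.add_sub_cancel]
    by_cases h1 : c ∣ n + 1
    · exact .inl ⟨Nat.mod_eq_zero_of_dvd h1, fun h2 => h ⟨h1, h2⟩, by rw [Nat.succ_div, if_pos h1]⟩
    · exact .inr ⟨.inl (Nat.pos_of_ne_zero fun h2 => h1 (Nat.dvd_of_mod_eq_zero h2)), by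
        rw [Nat.succ_div, if_neg h1, add_zero]⟩

/-- plus type (or odd dimension) -/
def Pl (S : PForm (orthP F) V) : Prop := S.HasTS (finrank F V / 2)

theorem hasTS_num (hS : S.Nondeg) {e : ℕ} : S.HasTS e ↔ 2 * e < finrank F V ∨ (2 * e = finrank F V ∧ Pl S) := by
  constructor
  · intro h
    rcases (h.two_mul_le hS).lt_or_eq with h1 | h1
    · exact .inl h1
    · exact .inr ⟨h1, by rwa [Pl, ← h1, Nat.mul_div_cancel_left _ two_pos]⟩
  · rintro (h | ⟨h, h1⟩)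
    · exact hS.orth_hasTS h
    · rwa [Pl, ← h, Nat.mul_div_cancel_left _ two_pos] at h1

omit [FiniteDimensional F V] [Finite F] in
theorem pl_iff {m : ℕ} (h : finrank F V = 2 * m) : Pl S ↔ S.HasTS m := by
  rw [Pl, h, Nat.mul_div_cancel_left _ two_pos]

theorem pl_of_odd (hS : S.Nondeg) (h : Odd (finrank F V)) : Pl S :=
  hS.orth_hasTS (by obtain ⟨k, hk⟩ := h; omega)

omit [FiniteDimensional F V] [FiniteDimensional F W] [Finite F] in
theorem Eqv.pl_iff (h : Eqv S T) : Pl S ↔ Pl T := by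
  rw [Pl, Pl, h.finrank_eq, h.hasTS_iff]

theorem pl_prod (hS : S.Nondeg) (hT : T.Nondeg) (h1 : Even (finrank F V)) (h2 : Even (finrank F W)) :
    Pl (S.prod T) ↔ (Pl S ↔ Pl T) := by
  obtain ⟨a, ha⟩ := h1
  obtain ⟨b, hb⟩ := h2
  rw [← two_mul] at ha hb
  rw [pl_iff ha, pl_iff hb, pl_iff (m := a + b) (by rw [finrank_prod, ha, hb, mul_add]), hasTS_prod hS hT ha hb]

theorem pl_perp (hS : S.Nondeg) {U : Submodule F V} (hU : (S.restrict U).Nondeg) (h1 : Even (finrank F V))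
    (h2 : Even (finrank F U)) : Pl S ↔ (Pl (S.restrict U) ↔ Pl (S.restrict (S.perp U))) := by
  have h3 := hS.finrank_perp U
  rw [← Eqv.pl_iff (eqv_prod_perp hU), pl_prod hU (hS.restrict_perp hU) h2 (by
    rw [← h3, Nat.even_add] at h1; exact h1.1 h2)]

theorem eqv_of_pl (hS : S.Nondeg) (hT : T.Nondeg) (h1 : Even (finrank F V)) (h2 : finrank F W = finrank F V)
    (h3 : Pl S ↔ Pl T) : Eqv S T := by
  obtain ⟨a, ha⟩ := h1
  rw [← two_mul] at ha
  rw [ha] at h2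
  exact orth_eqv_even a hS hT ha h2 (by rwa [pl_iff ha, pl_iff h2] at h3)

theorem exists_pl (hS : S.Nondeg) {k : ℕ} (hk : 0 < k) (h : 2 * k < finrank F V) (ε : Prop) :
    ∃ U : Submodule F V, (S.restrict U).Nondeg ∧ finrank F U = 2 * k ∧ (Pl (S.restrict U) ↔ ε) := by
  by_cases hε : ε
  · have h1 : finrank F (Fin k ⊕ Fin k → F) = 2 * k := by simp [two_mul]
    obtain ⟨U, hU⟩ := exists_emb hS (sPlus_nondeg k F) (by omega)
    exact ⟨U, hU.symm.nondeg (sPlus_nondeg k F), hU.finrank_eq.trans h1, by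
      rw [Eqv.pl_iff hU, pl_iff h1]; exact iff_of_true (sPlus_hasTS k F) hε⟩
  · obtain ⟨ζ, hζ⟩ := exists_aniso_poly (F := F)
    have h1 := finrank_minus_fun' (F := F) hk
    have h2 := sMinus_nondeg (k - 1) (aniso_of_poly hζ)
    obtain ⟨U, hU⟩ := exists_emb hS h2 (by omega)
    exact ⟨U, hU.symm.nondeg h2, hU.finrank_eq.trans h1, by
      rw [Eqv.pl_iff hU, pl_iff h1]; exact iff_of_false (sMinus_not_hasTS' hk (aniso_of_poly hζ)) hε⟩

theorem eqv_iff_pl {W₀ : Submodule F V} (h0 : (S.restrict W₀).Nondeg) (h1 : Even (finrank F W₀))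
    (U : Submodule F V) : Eqv (S.restrict U) (S.restrict W₀) ↔
      finrank F U = finrank F W₀ ∧ (S.restrict U).Nondeg ∧ (Pl (S.restrict U) ↔ Pl (S.restrict W₀)) :=
  ⟨fun h => ⟨h.finrank_eq, h.symm.nondeg h0, Eqv.pl_iff h⟩,
    fun h => (eqv_of_pl h0 h.2.1 h1 h.1 h.2.2.symm).symm⟩

end H21.Eo
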