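import Cfsg.Agent.H21.Eo2

/-! Orthogonal elusivity for odd primes `r ≠ p`: `nd_odd`, `ts_odd`, `exists_fpf`. -/

set_option autoImplicit false
namespace H21.Eo
open H11 Module Polynomial H20.El Multiset
open H11.PForm hiding X

universe u
variable {F : Type u} [Field F] {V : Type u} [AddCommGroup V] [Module F V]
  {S : PForm (orthP F) V} [FiniteDimensional F V] [Finite F]

omit [FiniteDimensional F V] [Finite F] in
theorem iE_pow_eq_one {g : S.Isom} {r : ℕ} : iE g ^ r = 1 ↔ g ^ r = 1 := by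
  rw [← iE_pow, ← iE_one, iE_inj]

omit [Finite F] in
theorem nED_eq_zero' {g : S.Isom} : nED (iE g) = 0 ↔ g = 1 := by
  rw [nED_eq_zero, ← iE_one, iE_inj]

variable {r i c : ℕ} (hr : r.Prime) (hr2 : r ≠ 2) (h0 : (r : F) ≠ 0) (hi : i = orderOf (Nat.card F : ZMod r))
  (hc : c = if Even i then i else 2 * i)
include hr h0

theorem ned_spec (hS : S.Nondeg) {g : S.Isom} (h : g ^ r = 1) : SS (iE g) ∧ (∀ P ∈ nED (iE g), P ∈ PhiF F r) ∧
    (nED (iE g)).map (dualP (RingHom.id F)) = nED (iE g) := by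
  have h1 := ss_of_pow_eq_one h0 (iE_pow_eq_one.2 h)
  exact ⟨h1, mem_PhiF_of_pow hr h0 (iE_pow_eq_one.2 h), (hS.dl g).map_nED (fun _ => rfl) h1⟩

omit [Finite F] in
theorem hφ : ∀ a ∈ PhiF F r, dualP (RingHom.id F) a ∈ PhiF F r ∧ dualP (RingHom.id F) (dualP (RingHom.id F) a) = a :=
  fun _ ha => dualP_mem_PhiF (fun _ => rfl) hr h0 ha

include hr2 hi

theorem hb : ∀ a ∈ PhiF F r, dualP (RingHom.id F) a = a ↔ Even i :=
  fun _ ha => hi ▸ dualP_id_eq_self_iff hr hr2 h0 ha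

include hc

theorem shape {s : Multiset F[X]} (hs : ∀ P ∈ s, P ∈ PhiF F r) (hd : s.map (dualP (RingHom.id F)) = s) :
    ∃ t, s.card * i = t * c ∧ ∀ k ≤ t, ∃ s' ≤ s, s'.map (dualP (RingHom.id F)) = s' ∧ s'.card * i = k * c := by
  obtain ⟨t, h1, h2⟩ := nd_shape (hb hr hr2 h0 hi) (hφ hr h0) hs hd
  have h3 : ∀ {a k : ℕ}, a = k * (@ite _ (Even i) (Classical.propDecidable _) 1 2) → a * i = k * c := by
    rintro a k rfl
    rw [hc]
    split_ifs <;> ring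
  refine ⟨t, h3 h1, fun k hk => ?_⟩
  obtain ⟨s', h4, h5, h6⟩ := h2 k hk
  exact ⟨s', h4, h5, h3 h6⟩

theorem real_iff (hS : S.Nondeg) (hV : 0 < finrank F V) {s : Multiset F[X]} (hs : ∀ P ∈ s, P ∈ PhiF F r)
    (hd : s.map (dualP (RingHom.id F)) = s) {t : ℕ} (ht : s.card * i = t * c) :
    (∃ k : S.Isom, nED (iE k) = s) ↔ t ≤ mx c (Odd i) (finrank F V) (Pl S) := by
  have h1 := c_pos hr h0 hi hc
  rw [hS.orth_real_iff hr hr2 h0 s hs hd, le_mx h1 hV, ← hi, ht]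
  refine or_congr_right ⟨?_, ?_⟩
  · rintro ⟨m, h2, h3, h4⟩
    have h5 := ((mt_iff hr hr2 hi (i_ne hr h0 hi) hc).2 h4).2
    rw [← h3, Nat.mul_div_cancel _ h1, ← pl_iff h2] at h5
    exact ⟨h3.trans h2.symm, h5⟩
  · rintro ⟨h2, h3⟩
    obtain ⟨k, -, hk, -⟩ := c_spec hc (i_ne hr h0 hi)
    have h4 : t * c = 2 * (t * k) := by rw [hk]; ring
    refine ⟨t * k, h2.symm.trans h4, h4, (mt_iff hr hr2 hi (i_ne hr h0 hi) hc).1 ⟨⟨t, by rw [← h4, mul_comm]⟩, ?_⟩⟩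
    rwa [← h4, Nat.mul_div_cancel _ h1, ← pl_iff (h2.symm.trans h4)]

omit hc in
theorem exists_wo {w o : ℕ} (h1 : o ≤ (r - 1) / i) (h2 : Odd i → o = 0) :
    ∃ s : Multiset F[X], (∀ P ∈ s, P ∈ PhiF F r) ∧ s.map (dualP (RingHom.id F)) = s ∧ s.card = 2 * w + o ∧
      ∀ t, t + t.map (dualP (RingHom.id F)) ≤ s → t.card ≤ w :=
  exists_shape (hb hr hr2 h0 hi) (hφ hr h0) (exists_mem_PhiF hr h0) (by
    rwa [← (PhiF_spec hr h0).2, ← hi, Nat.mul_div_cancel _ (Nat.pos_of_ne_zero (i_ne hr h0 hi))] at h1)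
    fun h => h2 (Nat.not_even_iff_odd.1 h)

omit hr2 hc in
theorem t_pos : 0 < (r - 1) / i := by
  rw [← (PhiF_spec hr h0).2, ← hi, Nat.mul_div_cancel _ (Nat.pos_of_ne_zero (i_ne hr h0 hi))]
  exact Finset.card_pos.2 (exists_mem_PhiF hr h0)

theorem exists_sh (t : ℕ) : ∃ s : Multiset F[X], (∀ P ∈ s, P ∈ PhiF F r) ∧ s.map (dualP (RingHom.id F)) = s ∧
    s.card * i = t * c := by
  obtain ⟨k, -, hk, ⟨h1, rfl⟩ | ⟨h1, h2⟩⟩ := c_spec hc (i_ne hr h0 hi)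
  · obtain ⟨s, h3, h4, h5, -⟩ := exists_wo hr hr2 h0 hi (w := t) (o := 0) (Nat.zero_le _) fun _ => rfl
    exact ⟨s, h3, h4, by rw [h5, hk]; ring⟩
  · have := t_pos hr h0 hi
    obtain ⟨s, h3, h4, h5, -⟩ := exists_wo hr hr2 h0 hi (w := t / 2) (o := t % 2) (by omega)
      fun h => absurd h (Nat.not_odd_iff_even.2 h1)
    exact ⟨s, h3, h4, by rw [h5, hk, ← h2, Nat.div_add_mod]⟩

theorem exists_elt (hS : S.Nondeg) (hV : 0 < finrank F V) {s : Multiset F[X]} (hs : ∀ P ∈ s, P ∈ PhiF F r)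
    (hd : s.map (dualP (RingHom.id F)) = s) {t : ℕ} (ht : s.card * i = t * c) (h1 : 0 < t)
    (h2 : t ≤ mx c (Odd i) (finrank F V) (Pl S)) : ∃ k : S.Isom, nED (iE k) = s ∧ k ^ r = 1 ∧ k ≠ 1 := by
  obtain ⟨k, rfl⟩ := (real_iff hr hr2 h0 hi hc hS hV hs hd ht).2 h2
  refine ⟨k, rfl, iE_pow_eq_one.1 (pow_eq_one_of_nED hs), fun h => ?_⟩
  rw [nED_eq_zero'.2 h] at ht
  exact (Nat.mul_pos h1 (c_pos hr h0 hi hc)).ne (by simpa using ht)

theorem nd_odd (hS : S.Nondeg) (h4 : S.NotO4) {W₀ : Submodule F V} (hW : (S.restrict W₀).Nondeg)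
    (h1 : 0 < finrank F W₀) (h2 : finrank F W₀ < finrank F V) :
    Elu S r (fun U => Eqv (S.restrict U) (S.restrict W₀)) ↔ mx c (Odd i) (finrank F V) (Pl S) ≤
      mx c (Odd i) (finrank F W₀) (Pl (S.restrict W₀)) +
      mx c (Odd i) (finrank F V - finrank F W₀) (Pl (S.restrict (S.perp W₀))) := by
  have h3 := hS.finrank_perp W₀
  have hP := hS.restrict_perp hW
  have hc0 := c_pos hr h0 hi hc
  rw [show finrank F V - finrank F W₀ = finrank F (S.perp W₀) by omega, elu_odd hS h4 (hr.odd_of_ne_two hr2)]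
  simp only [fx_iff hS hW]
  constructor
  · intro h
    by_contra h5
    obtain ⟨s, h6, h7, h8⟩ := exists_sh hr hr2 h0 hi hc (mx c (Odd i) (finrank F V) (Pl S))
    obtain ⟨k, rfl, h9, h10⟩ := exists_elt hr hr2 h0 hi hc hS (by omega) h6 h7 h8 (by omega) le_rfl
    obtain ⟨a, b, hab⟩ := h k h9 h10
    obtain ⟨ha, hb⟩ := (hab.pow r).eq_one_iff.1 h9
    obtain ⟨-, h11, h12⟩ := ned_spec hr h0 hW ha
    obtain ⟨-, h13, h14⟩ := ned_spec hr h0 hP hb
    obtain ⟨t₁, h15, -⟩ := shape hr hr2 h0 hi hc h11 h12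
    obtain ⟨t₂, h16, -⟩ := shape hr hr2 h0 hi hc h13 h14
    have h17 := (real_iff hr hr2 h0 hi hc hW h1 h11 h12 h15).1 ⟨a, rfl⟩
    have h18 := (real_iff hr hr2 h0 hi hc hP (by omega) h13 h14 h16).1 ⟨b, rfl⟩
    rw [hab.sim.nED_eq, nED_prodMap, card_add, add_mul, h15, h16, ← add_mul] at h8
    have := Nat.eq_of_mul_eq_mul_right hc0 h8
    omega
  · intro h g hg _
    obtain ⟨h5, h6, h7⟩ := ned_spec hr h0 hS hg
    obtain ⟨t, h8, h9⟩ := shape hr hr2 h0 hi hc h6 h7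
    have h10 := (real_iff hr hr2 h0 hi hc hS (by omega) h6 h7 h8).1 ⟨g, rfl⟩
    obtain ⟨s, h11, h12, h13⟩ := h9 (min t (mx c (Odd i) (finrank F W₀) (Pl (S.restrict W₀)))) (min_le_left _ _)
    obtain ⟨s', h14⟩ := Multiset.le_iff_exists_add.1 h11
    rw [h14] at h6 h7 h8
    obtain ⟨a, rfl⟩ := (real_iff hr hr2 h0 hi hc hW h1 (fun P hP => h6 P (by simp [hP])) h12 h13).2 (min_le_right _ _)
    obtain ⟨b, rfl⟩ := (real_iff hr hr2 h0 hi hc hP (by omega) (fun P hP => h6 P (by simp [hP])) (dual_sub h7 h12)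
      (t := t - min t (mx c (Odd i) (finrank F W₀) (Pl (S.restrict W₀)))) (by
        rw [Nat.sub_mul, ← h8, ← h13, card_add, add_mul, Nat.add_sub_cancel_left])).2 (by omega)
    obtain ⟨k, hk⟩ := (eqv_prod_perp hW).exists_spl a b
    refine ⟨a, b, Spl.of_isim hk (isim_of_fix hS hS (Eqv.refl S) ((sim_iff_nED rfl).2 ?_) h5
      (fix_of_coprime ?_)).symm⟩
    · rw [hk.sim.nED_eq, nED_prodMap, h14]
    · exact Nat.coprime_two_left.2 ((hr.odd_of_ne_two hr2).of_dvd_nat (orderOf_dvd_of_pow_eq_one hg))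

theorem fix_num (hS : S.Nondeg) {g : S.Isom} (hg : g ^ r = 1) {t : ℕ} (ht : (nED (iE g)).card * i = t * c) :
    finrank F (fixSp g) + t * c = finrank F V ∧
      (Even (finrank F V) → (Pl (S.restrict (fixSp g)) ↔ (Pl S ↔ Odd i ∨ Even t))) := by
  obtain ⟨h1, h2, h3⟩ := ned_spec hr h0 hS hg
  have h4 : finrank F (res g) = t * c := by
    rw [(hasED_res hS h1).finrank_eq, dg, sum_natDegree_PhiF hr h0 h2, ← hi, ht]
  have h5 := hS.nondeg_res h1
  obtain ⟨k, -, hk, -⟩ := c_spec hc (i_ne hr h0 hi)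
  have h6 : t * c = 2 * (t * k) := by rw [hk]; ring
  refine ⟨h4 ▸ finrank_fix hS g, fun h7 => ?_⟩
  have h8 := orth_type_of_free h5 (h4.trans h6) hr h0 (g := rst g (res g) (res_inv' g)) (j := 1) (by
    ext x
    exact (rst_pow g _ _ _ x).trans (by simp [hg])) fun x hx => Subtype.ext
      (Submodule.disjoint_def.1 (hS.nondeg_res_iff.1 h5) _ x.2 (congrArg Subtype.val hx))
  have h9 := ((mt_iff hr hr2 hi (i_ne hr h0 hi) hc).2 h8).2
  rw [← h6, Nat.mul_div_cancel _ (c_pos hr h0 hi hc), ← pl_iff (h4.trans h6)] at h9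
  rw [pl_perp hS h5 h7 ⟨t * k, by omega⟩, h9, hS.perp_res]
  tauto

theorem ts_fx (hS : S.Nondeg) {m : ℕ} (hm : 2 * m < finrank F V) {g : S.Isom} (hg : g ^ r = 1) {t w β : ℕ}
    (ht : (nED (iE g)).card * i = t * c) (hβ : β * c = 2 * i) (hβ' : Odd i ∨ Even β) (hw : w * β ≤ t)
    (h : ∀ k, (∃ s, s + s.map (dualP (RingHom.id F)) ≤ nED (iE g) ∧ s.card = k) ↔ k ≤ w) :
    Fx (fun U => finrank F U = m ∧ S.TS U) g ↔
      ∃ k ≤ w, k ≤ m / i ∧ t ≤ k * β + mx c (Odd i) (finrank F V - 2 * m) (Pl S) := by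
  obtain ⟨h1, h2, h3⟩ := ned_spec hr h0 hS hg
  obtain ⟨h4, h5⟩ := fix_num hr hr2 h0 hi hc hS hg ht
  have hi0 := Nat.pos_of_ne_zero (i_ne hr h0 hi)
  have h6 : ∀ s : Multiset F[X], s + s.map (dualP (RingHom.id F)) ≤ nED (iE g) → dg s = s.card * i := fun s hs => by
    rw [dg, sum_natDegree_PhiF hr h0 fun P hP => h2 P (mem_of_le hs (by simp [hP])), ← hi]
  have h7 : ∀ e k, k ≤ w → e + k * i = m → ((S.restrict (fixSp g)).HasTS e ↔
      t ≤ k * β + mx c (Odd i) (finrank F V - 2 * m) (Pl S)) := fun e k hk he => by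
    obtain ⟨j, rfl⟩ := Nat.exists_eq_add_of_le ((Nat.mul_le_mul_right β hk).trans hw)
    have h8 : (k * β + j) * c = 2 * (k * i) + j * c := by rw [add_mul, mul_assoc, hβ]; ring
    obtain ⟨l, -, hl, -⟩ := c_spec hc hi0.ne'
    rw [add_le_add_iff_left, le_mx (c_pos hr h0 hi hc) (by omega), hasTS_num (nd_fix hS h1)]
    refine or_congr (by omega) ⟨fun ⟨h9, h10⟩ => ⟨by omega, ?_⟩, fun ⟨h9, h10⟩ => ⟨by omega, ?_⟩⟩
    all_goals
      have h11 : j * c = 2 * (j * l) := by rw [hl]; ring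
      have h12 := h5 ⟨m + j * l, by omega⟩
      have h13 : Odd i ∨ Even (k * β + j) ↔ Odd i ∨ Even j := by
        rcases hβ' with h | h
        · simp [h]
        · simp [Nat.even_add, h.mul_left k]
      rw [h13] at h12
    exacts [h12.1 h10, h12.2 h10]
  refine Iff.trans ?_ ((ts_iff hS (hr.odd_of_ne_two hr2) h0 hg (m := m)).trans ⟨?_, ?_⟩)
  · simp only [Fx, and_assoc, map_le_iff]
    rfl
  · rintro ⟨e, s, h8, h9, h10⟩
    rw [h6 s h9] at h10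
    have h11 := (h _).1 ⟨s, h9, rfl⟩
    exact ⟨_, h11, (Nat.le_div_iff_mul_le hi0).2 (by omega), (h7 e _ h11 h10).1 h8⟩
  · rintro ⟨k, h8, h9, h10⟩
    obtain ⟨s, h11, rfl⟩ := (h k).2 h8
    rw [Nat.le_div_iff_mul_le hi0] at h9
    exact ⟨m - s.card * i, s, (h7 _ _ h8 (by omega)).2 h10, h11, by rw [h6 s h11]; omega⟩

theorem ts_odd (hS : S.Nondeg) (h4 : S.NotO4) {m : ℕ} (hm : 2 * m < finrank F V)
    (hlt : mx c (Odd i) (finrank F V - 2 * m) (Pl S) < mx c (Odd i) (finrank F V) (Pl S)) :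
    Elu S r (fun U => finrank F U = m ∧ S.TS U) ↔
      (Odd i ∧ mx c (Odd i) (finrank F V) (Pl S) ≤ m / i + mx c (Odd i) (finrank F V - 2 * m) (Pl S)) ∨
      (Even i ∧ mx c (Odd i) (finrank F V) (Pl S) ≤ 2 * (m / i) + mx c (Odd i) (finrank F V - 2 * m) (Pl S) ∧
        (r - 1) / i ≤ mx c (Odd i) (finrank F V - 2 * m) (Pl S)) := by
  have hc0 := c_pos hr h0 hi hc
  have hi0 := Nat.pos_of_ne_zero (i_ne hr h0 hi)
  have ht0 := t_pos hr h0 hi
  rw [elu_odd hS h4 (hr.odd_of_ne_two hr2)]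
  have key : ∀ β, β * c = 2 * i → (Odd i ∨ Even β) → (∀ w o t, (Odd i → o = 0) → (2 * w + o) * i = t * c → w * β ≤ t) →
      ((∀ g : S.Isom, g ^ r = 1 → g ≠ 1 → Fx (fun U => finrank F U = m ∧ S.TS U) g) ↔
      ∀ w o t, o ≤ (r - 1) / i → (Odd i → o = 0) → (2 * w + o) * i = t * c → 0 < t →
        t ≤ mx c (Odd i) (finrank F V) (Pl S) →
        ∃ k ≤ w, k ≤ m / i ∧ t ≤ k * β + mx c (Odd i) (finrank F V - 2 * m) (Pl S)) := fun β h1 h2 h3 => by
    constructor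
    · intro h w o t h5 h6 h7 h8 h9
      obtain ⟨s, h10, h11, h12, h13⟩ := exists_wo hr hr2 h0 hi (w := w) h5 h6
      obtain ⟨g, rfl, h14, h15⟩ := exists_elt hr hr2 h0 hi hc hS (by omega) h10 h11 (h12 ▸ h7) h8 h9
      obtain ⟨w', o', -, h16, h17, h18⟩ := ts_shape (hb hr hr2 h0 hi) (hφ hr h0) h10 h11
      have h19 : w' ≤ w := by
        obtain ⟨s, h20, rfl⟩ := (h18 w').2 le_rfl
        exact h13 s h20
      obtain ⟨k, h20, h21⟩ := (ts_fx hr hr2 h0 hi hc hS hm h14 (h12 ▸ h7) h1 h2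
        ((Nat.mul_le_mul_right β h19).trans (h3 w o t h6 h7)) h18).1 (h g h14 h15)
      exact ⟨k, h20.trans h19, h21⟩
    · intro h g hg h5
      obtain ⟨-, h10, h11⟩ := ned_spec hr h0 hS hg
      obtain ⟨w, o, h15, h16, h17, h18⟩ := ts_shape (hb hr hr2 h0 hi) (hφ hr h0) h10 h11
      obtain ⟨t, h8, -⟩ := shape hr hr2 h0 hi hc h10 h11
      have h19 : Odd i → o = 0 := fun h => h16 (Nat.not_even_iff_odd.2 h)
      refine (ts_fx hr hr2 h0 hi hc hS hm hg h8 h1 h2 (h3 w o t h19 (h17 ▸ h8)) h18).2 (h w o t ?_ h19 (h17 ▸ h8)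
        (Nat.pos_of_ne_zero ?_) ((real_iff hr hr2 h0 hi hc hS (by omega) h10 h11 h8).1 ⟨g, rfl⟩))
      · rwa [← (PhiF_spec hr h0).2, ← hi, Nat.mul_div_cancel _ hi0]
      · rintro rfl
        exact h5 (nED_eq_zero'.1 (card_eq_zero.1 (by simpa [hi0.ne'] using h8)))
  generalize mx c (Odd i) (finrank F V - 2 * m) (Pl S) = X at *
  generalize mx c (Odd i) (finrank F V) (Pl S) = M at *
  obtain ⟨l, -, hl, ⟨h1, rfl⟩ | ⟨h1, h2⟩⟩ := c_spec hc hi0.ne'
  · have h3 : ∀ w t, (2 * w + 0) * l = t * c → t = w := fun w t h =>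
      Nat.eq_of_mul_eq_mul_right hc0 (by rw [← h, hl]; ring)
    rw [key 1 (by omega) (.inl h1) fun w o t h5 h6 => by rw [h5 h1] at h6; have := h3 w t h6; omega]
    simp only [h1, Nat.not_even_iff_odd.2 h1, true_and, false_and, or_false, forall_true_left]
    constructor
    · intro h
      obtain ⟨k, -, h5, h6⟩ := h M 0 M (Nat.zero_le _) rfl (by rw [hl]; ring) (by omega) le_rfl
      omega
    · rintro h w o t - rfl h5 - h6
      obtain rfl := h3 w t h5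
      exact ⟨min t (m / l), by omega, by omega, by omega⟩
  · obtain rfl : c = i := by omega
    have h3 : ∀ a t, a * c = t * c → a = t := fun w t h => Nat.eq_of_mul_eq_mul_right hc0 h
    rw [key 2 rfl (.inr even_two) fun w o t h5 h6 => by have := h3 _ t h6; omega]
    simp only [h1, Nat.not_odd_iff_even.2 h1, true_and, false_and, false_or, false_imp_iff, forall_true_left]
    constructor
    · intro h
      obtain ⟨k, -, h5, h6⟩ := h (M / 2) (M % 2) M (by omega) (by rw [Nat.div_add_mod]) (by omega) le_rfl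
      obtain ⟨k', h7, -, h8⟩ := h 0 (min M ((r - 1) / c)) (min M ((r - 1) / c)) (by omega) (by simp) (by omega)
        (by omega)
      omega
    · rintro h w o t h7 h5 - h6
      obtain rfl := h3 _ t h5
      exact ⟨min w (m / c), by omega, by omega, by omega⟩

open Classical in
omit hi hc in
theorem exists_fpf (hS : S.Nondeg) {d : ℕ} (hV : finrank F V = 2 * d) (hd : 0 < d)
    (h : (Nat.card F : ZMod r) ^ d = if Pl S then 1 else -1) :
    ∃ g : S.Isom, g ^ r = 1 ∧ g ≠ 1 ∧ ∀ x, g.1 x = x → x = 0 := by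
  obtain ⟨⟨t, h1⟩, h2⟩ := (mt_iff hr hr2 rfl (i_ne hr h0 rfl) rfl).2 h
  have hc0 := c_pos hr h0 rfl rfl
  rw [h1, Nat.mul_div_cancel_left _ hc0] at h2
  obtain ⟨s, h3, h4, h5⟩ := exists_sh hr hr2 h0 rfl rfl t
  obtain ⟨g, rfl, h6, h7⟩ := exists_elt hr hr2 h0 rfl rfl hS (by omega) h3 h4 h5 (Nat.pos_of_ne_zero (by
    rintro rfl; omega)) ((le_mx hc0 (by omega)).2 (.inr ⟨by rw [hV, h1, mul_comm], h2⟩))
  have h8 := (fix_num hr hr2 h0 rfl rfl hS h6 h5).1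
  rw [hV, h1, mul_comm t, add_eq_right, Submodule.finrank_eq_zero] at h8
  exact ⟨g, h6, h7, fun x hx => (Submodule.mem_bot F).1 (h8 ▸ mem_fixSp.2 hx)⟩

end H21.Eo
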