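import Cfsg.Agent.H21.Eo3

/-! Orthogonal elusivity for `r = 2 ≠ p`: `nd_two`, `ts_two`. -/

set_option autoImplicit false
namespace H21.Eo
open H11 Module Polynomial H20.El
open H11.PForm hiding X

universe u
variable {F : Type u} [Field F] {V W : Type u} [AddCommGroup V] [Module F V] [AddCommGroup W]
  [Module F W] {S : PForm (orthP F) V} {T : PForm (orthP F) W}

theorem neg_apply {g : S.Isom} (h : g * g = S.negOne) (x : V) : g.1 (g.1 x) = -x := by
  rw [← isom_mul_apply, h, negOne_apply]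

theorem neg_h (h2 : (2 : F) ≠ 0) {g : S.Isom} (h : g * g = S.negOne) (x : V) : S.h x (g.1 x) = 0 := by
  have h1 := isom_h g x (g.1 x)
  rw [neg_apply h, map_neg, orth_symm] at h1
  exact (mul_eq_zero.1 (by linear_combination -h1)).resolve_left h2

theorem inv_res {g : S.Isom} (h : g ^ 2 = 1) {x : V} (hx : x ∈ res g) : g.1 x = -x := by
  obtain ⟨y, rfl⟩ := mem_res.1 hx
  rw [map_sub, ← isom_mul_apply, ← pow_two, h, isom_one_apply, neg_sub]

theorem negOne_ne (h2 : (2 : F) ≠ 0) (h : 0 < finrank F V) : S.negOne ≠ 1 := fun h1 =>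
  neg1_ne (S := S) h2 h (isom_ext fun x => by rw [← h1]; simp)

variable [FiniteDimensional F V] [FiniteDimensional F W]

theorem neg_rst {g : S.Isom} (h : g * g = S.negOne) {U : Submodule F V} (hU : ∀ x ∈ U, g.1 x ∈ U) :
    rst g U hU * rst g U hU = negOne _ := isom_ext fun x => Subtype.ext (by simp [neg_apply h])

theorem neg_sq {g : S.Isom} (h : g * g = S.negOne) {U : Submodule F V} (hU : ∀ x ∈ U, g.1 x ∈ U) :
    IsSquare (-1 : F) ∨ Even (finrank F U) := by
  rcases Nat.even_or_odd (finrank F U) with h1 | h1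
  · exact .inr h1
  · refine .inl ⟨LinearMap.det (iE (rst g U hU)), ?_⟩
    rw [← map_mul, ← iE_mul, neg_rst h, show iE (S.restrict U).negOne = (-1 : F) • 1 by ext; simp,
      LinearMap.det_smul, h1.neg_one_pow, map_one, mul_one]

theorem fix_glue (h2 : (2 : F) ≠ 0) {U : Submodule F V} (hU : (S.restrict U).Nondeg) :
    fixSp (glue hU (negOne _, 1)) = S.perp U := by
  ext x
  refine ⟨fun h => ?_, fun h => glue_right hU _ ⟨x, h⟩⟩
  obtain ⟨a, ha, b, hb, rfl⟩ := exists_decomp hU x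
  rw [mem_fixSp, map_add, glue_left hU _ ⟨a, ha⟩, glue_right hU _ ⟨b, hb⟩] at h
  have h1 : (2 : F) • a = 0 := by
    rw [two_smul, ← eq_neg_iff_add_eq_zero]
    simpa using (add_right_cancel h).symm
  rwa [(smul_eq_zero.1 h1).resolve_left h2, zero_add]

theorem neg_ts (hS : S.Nondeg) (h2 : (2 : F) ≠ 0) {g : S.Isom} (h : g * g = S.negOne) {m : ℕ} (hm : S.HasTS m) :
    Fx (fun U => finrank F U = m ∧ S.TS U) g ↔ IsSquare (-1 : F) ∨ Even m := by
  refine ⟨fun ⟨U, h1, h3⟩ => h1.1 ▸ neg_sq h h3, fun h1 => ?_⟩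
  by_cases h3 : IsSquare (-1 : F)
  · obtain ⟨ι, hι⟩ := h3
    have h4 : ∀ a : F, a * a = -1 → S.TS (LinearMap.ker (iE g - a • 1)) := fun a ha => orth_ts_iff.2 fun x hx => by
      have h5 := orth_isom_q g x
      rw [show g.1 x = a • x by simpa [sub_eq_zero] using hx, orth_q_smul, pow_two, ha] at h5
      exact (mul_eq_zero.1 (by linear_combination -h5)).resolve_left h2
    have h5 : LinearMap.ker (iE g - ι • 1) ⊔ LinearMap.ker (iE g - (-ι) • 1) = ⊤ := by
      refine eq_top_iff.2 fun x _ => Submodule.mem_sup.2 ⟨(2 : F)⁻¹ • (x - ι • g.1 x), Submodule.smul_mem _ _ ?_,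
        (2 : F)⁻¹ • (x + ι • g.1 x), Submodule.smul_mem _ _ ?_, ?_⟩
      · simp [neg_apply h, smul_sub, smul_smul, ← hι, add_comm]
      · simp [neg_apply h, smul_smul, ← hι]
      · rw [← smul_add, sub_add_add_cancel, ← two_smul F, smul_smul, inv_mul_cancel₀ h2, one_smul]
    have h6 := Submodule.finrank_add_le_finrank_add_finrank (LinearMap.ker (iE g - ι • 1))
      (LinearMap.ker (iE g - (-ι) • 1))
    have h7 := (h4 ι hι.symm).two_mul_finrank_le hS
    have h8 := (h4 (-ι) (by rw [neg_mul_neg, hι])).two_mul_finrank_le hS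
    have h9 := hm.two_mul_le hS
    rw [h5, finrank_top] at h6
    obtain ⟨U, hU⟩ := exists_sub (F := F) (V := LinearMap.ker (iE g - ι • 1)) (m := m) (by omega)
    refine ⟨U.map (Submodule.subtype _), ⟨(Submodule.finrank_map_subtype_eq _ _).trans hU,
      (h4 ι hι.symm).mono (Submodule.map_subtype_le _ _)⟩, fun x hx => ?_⟩
    rw [show g.1 x = ι • x by simpa [sub_eq_zero] using Submodule.map_subtype_le _ _ hx]
    exact Submodule.smul_mem _ _ hx
  · obtain ⟨j, rfl⟩ := h1.resolve_left h3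
    clear h1
    induction j with
    | zero => exact ⟨⊥, ⟨finrank_bot F V, ts_bot⟩, by simp⟩
    | succ j ih =>
      obtain ⟨U, ⟨h4, h5⟩, h6⟩ := ih (hm.mono (by omega))
      obtain ⟨x, h7, h8, h9⟩ : ∃ x ∈ S.perp U, S.Sing x ∧ x ∉ U := by
        by_contra h7
        push Not at h7
        obtain ⟨Y, h8, h9⟩ := hm
        have := h5.finrank_le_of_maximal hS h7 h8
        omega
      have h10 : ∀ y ∈ (U ⊔ F ∙ x) ⊔ F ∙ g.1 x, g.1 y ∈ (U ⊔ F ∙ x) ⊔ F ∙ g.1 x := by
        refine map_le_iff (f := iE g).1 ?_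
        simp only [Submodule.map_sup, Submodule.map_span, Set.image_singleton]
        refine sup_le (sup_le ((map_le_iff.2 h6).trans (le_sup_left.trans le_sup_left)) le_sup_right) ?_
        rw [Submodule.span_singleton_le_iff_mem]
        exact (show iE g (g.1 x) = -x from neg_apply h x) ▸ neg_mem (Submodule.mem_sup_left (Submodule.mem_sup_right
          (Submodule.mem_span_singleton_self x)))
      refine ⟨_, ⟨?_, (h5.sup_span h8 h7).sup_span ((isom_sing g x).2 h8) ?_⟩, h10⟩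
      · have h11 := (neg_sq h h10).resolve_left h3
        have h12 := Submodule.finrank_add_le_finrank_add_finrank (U ⊔ F ∙ x) (F ∙ g.1 x)
        have h13 := Submodule.finrank_mono (le_sup_left : U ⊔ F ∙ x ≤ (U ⊔ F ∙ x) ⊔ F ∙ g.1 x)
        have h14 : finrank F (F ∙ g.1 x) ≤ 1 := by simpa using finrank_span_le_card (R := F) ({g.1 x} : Set V)
        have h15 : x ≠ 0 := fun h => h9 (h ▸ U.zero_mem)
        rw [finrank_sup ((Submodule.disjoint_span_singleton' h15).2 h9), finrank_span_singleton h15] at h12 h13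
        obtain ⟨k, hk⟩ := h11
        omega
      · rw [perp_sup]
        exact ⟨perp_inv h6 x h7, S.mem_perp_singleton.2 (neg_h h2 h x)⟩

theorem inv_ts (hS : S.Nondeg) (h2 : (2 : F) ≠ 0) {g : S.Isom} (h : g ^ 2 = 1) {m : ℕ} :
    Fx (fun U => finrank F U = m ∧ S.TS U) g ↔
      ∃ e e', (S.restrict (fixSp g)).HasTS e ∧ (S.restrict (res g)).HasTS e' ∧ e + e' = m := by
  refine Iff.trans ?_ ((ts_split hS (ss_of_pow_eq_one (m := 2) (by simpa using h2) (by rw [← iE_pow, h, iE_one]))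
    (m := m)).trans (exists_congr fun e => ⟨?_, ?_⟩))
  · simp only [Fx, and_assoc, map_le_iff]
    rfl
  · rintro ⟨h1, B, h3, h4, -, h5⟩
    exact ⟨_, h1, hasTS_iff.2 ⟨B, h3, h4, rfl⟩, h5⟩
  · rintro ⟨_, h1, h3, h5⟩
    obtain ⟨B, h6, h7, rfl⟩ := hasTS_iff.1 h3
    exact ⟨h1, B, h6, h7, map_le_iff.2 fun x hx => (show iE g x = -x from inv_res h (h6 hx)) ▸ neg_mem hx, h5⟩

variable [Finite F]

theorem exists_emb' {A : Submodule F V} (hA : (S.restrict A).Nondeg) (hT : T.Nondeg)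
    (h : finrank F W < finrank F A) : ∃ B ≤ A, Eqv (S.restrict B) T := by
  obtain ⟨U, hU⟩ := exists_emb hA hT h
  exact ⟨_, Submodule.map_subtype_le _ _, (eqv_map_subtype A U).symm.trans hU⟩

theorem exists_sub_nd (h2 : (2 : F) ≠ 0) {A : Submodule F V} (hA : (S.restrict A).Nondeg) {k : ℕ}
    (h : k ≤ finrank F A) : ∃ B ≤ A, (S.restrict B).Nondeg ∧ finrank F B = k := by
  rcases h.lt_or_eq with h | rfl
  · rcases Nat.even_or_odd' k with ⟨j, rfl | rfl⟩
    · have h1 : finrank F (Fin j ⊕ Fin j → F) = 2 * j := by simp [two_mul]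
      obtain ⟨B, h3, h4⟩ := exists_emb' hA (sPlus_nondeg j F) (by omega)
      exact ⟨B, h3, h4.symm.nondeg (sPlus_nondeg j F), h4.finrank_eq.trans h1⟩
    · have h1 := finrank_odd_fun (F := F) j
      obtain ⟨B, h3, h4⟩ := exists_emb' hA (sOdd_nondeg j h2) (by omega)
      exact ⟨B, h3, h4.symm.nondeg (sOdd_nondeg j h2), h4.finrank_eq.trans h1⟩
  · exact ⟨A, le_rfl, hA, rfl⟩

theorem fx_split (h2 : (2 : F) ≠ 0) {A B : Submodule F V} (hA : (S.restrict A).Nondeg) (hB : (S.restrict B).Nondeg)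
    (h : A ≤ S.perp B) (h1 : 2 ≤ finrank F A) (hT : T.Nondeg) (h3 : 0 < finrank F W)
    (h4 : finrank F W < finrank F A + finrank F B) : ∃ A' ≤ A, ∃ B' ≤ B, Eqv (S.restrict (B' ⊔ A')) T := by
  obtain ⟨B', h5, h6, h7⟩ := exists_sub_nd h2 hB (k := finrank F W - max 1 (finrank F W - finrank F B)) (by omega)
  obtain ⟨U, h8, h9⟩ := orth_exists_compl hT h6 (by omega)
  have h10 := h9.finrank_eq
  rw [finrank_prod] at h10
  obtain ⟨A', h11, h12⟩ := exists_emb' hA h8 (by omega)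
  have h13 : A' ≤ S.perp B' := h11.trans (h.trans (S.perp_anti h5))
  exact ⟨A', h11, B', h5, (eqv_sup (disj_of_nd h6 h13) h13).symm.trans (((Eqv.refl _).prod h12).trans h9)⟩

theorem neg_disc (hS : S.Nondeg) (h2 : (2 : F) ≠ 0) {g : S.Isom} (h : g * g = S.negOne) :
    Even (finrank F V) ∧ hS.disc = 1 :=
  (hS.negOne_mem_commutator_iff h2).1 (by rw [← h, ← pow_two]; exact hS.sq_mem_comm h2 g)

theorem neg_ind (h2 : (2 : F) ≠ 0) (n : ℕ) : ∀ {V : Type u} [AddCommGroup V] [Module F V] [FiniteDimensional F V]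
    {S : PForm (orthP F) V} (hS : S.Nondeg) {g : S.Isom}, finrank F V = 2 * n → g * g = S.negOne →
    hS.dick g = 1 ∧ hS.spin g = sqSign (2 : F) ^ n ∧
      ∀ j ≤ n, ∃ U : Submodule F V, (S.restrict U).Nondeg ∧ finrank F U = 2 * j ∧ ∀ x ∈ U, g.1 x ∈ U := by
  induction n with
  | zero =>
    intro V _ _ _ S hS g hV _
    have : Subsingleton V := finrank_zero_iff.1 hV
    obtain rfl : g = 1 := isom_ext fun _ => Subsingleton.elim _ _
    exact ⟨map_one _, by simp, fun j hj => ⟨⊤, nd_top hS, by rw [finrank_top]; omega, by simp⟩⟩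
  | succ n ih =>
    intro V _ _ _ S hS g hV h
    have : Nontrivial V := finrank_pos_iff.1 (by omega : 0 < finrank F V)
    obtain ⟨v, hv⟩ := hS.orth_exists_q_ne
    have h1 : S.h v v ≠ 0 := by rw [orth_h_self]; exact mul_ne_zero h2 hv
    have h3 : S.h (g.1 v) (g.1 v) ≠ 0 := by rwa [isom_h]
    have h4 := neg_h h2 h v
    have h5 : F ∙ g.1 v ≤ S.perp (F ∙ v) := (Submodule.span_singleton_le_iff_mem _ _).2 (S.mem_perp_singleton.2 h4)
    have hU := nd_sup (nondeg_singleton h1) (nondeg_singleton h3) h5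
    have h6 := finrank_sup (disj_of_nd (nondeg_singleton h1) h5)
    rw [finrank_span_singleton (by rintro rfl; simp at h1), finrank_span_singleton fun h => by simp [h] at h3] at h6
    have h7 : ∀ x ∈ (F ∙ v) ⊔ F ∙ g.1 v, ∃ a b : F, x = a • v + b • g.1 v := fun x hx => by
      obtain ⟨_, h8, _, h9, rfl⟩ := Submodule.mem_sup.1 hx
      obtain ⟨a, rfl⟩ := Submodule.mem_span_singleton.1 h8
      obtain ⟨b, rfl⟩ := Submodule.mem_span_singleton.1 h9
      exact ⟨a, b, rfl⟩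
    have hv1 : v ∈ (F ∙ v) ⊔ F ∙ g.1 v := Submodule.mem_sup_left (Submodule.mem_span_singleton_self _)
    have hv2 : g.1 v ∈ (F ∙ v) ⊔ F ∙ g.1 v := Submodule.mem_sup_right (Submodule.mem_span_singleton_self _)
    have h8 : ∀ x ∈ (F ∙ v) ⊔ F ∙ g.1 v, g.1 x ∈ (F ∙ v) ⊔ F ∙ g.1 v := fun x hx => by
      obtain ⟨a, b, rfl⟩ := h7 x hx
      rw [map_add, map_smul, map_smul, neg_apply h]
      exact add_mem (Submodule.smul_mem _ _ hv2) (Submodule.smul_mem _ _ (neg_mem hv1))
    have h9 := hS.finrank_perp ((F ∙ v) ⊔ F ∙ g.1 v)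
    obtain ⟨h10, h11, h12⟩ := ih (hS.restrict_perp hU) (by omega) (neg_rst h (perp_inv h8))
    have h13 : S.q (v - g.1 v) = 2 * S.q v := by rw [orth_q_sub, h4, orth_isom_q]; ring
    have h14 : S.q (v - g.1 v) ≠ 0 := h13 ▸ mul_ne_zero h2 hv
    have h15 : g = S.refl v * S.refl (v - g.1 v) * ext2 hU (rst g _ (perp_inv h8)) := by
      refine isom_ext_perp hU (fun x hx => ?_) fun x hx => ?_
      · rw [isom_mul_apply, ext2_left hU _ hx, isom_mul_apply]
        obtain ⟨a, b, rfl⟩ := h7 x hx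
        have h16 := refl_sub_apply (orth_isom_q g v).symm h14
        have h17 : (S.refl (v - g.1 v)).1 (g.1 v) = v := by
          conv_lhs => enter [2]; rw [← h16]
          exact refl_refl_apply _ _
        simp only [map_add, map_smul, h16, h17, refl_apply_of_perp h4, refl_apply_self hv, neg_apply h]
      · have h16 := perp_inv h8 x hx
        rw [isom_mul_apply, ext2_right hU _ ⟨x, hx⟩, isom_mul_apply, rst_apply,
          refl_apply_of_perp (h16 _ (sub_mem hv1 hv2)), refl_apply_of_perp (h16 _ hv1)]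
    refine ⟨?_, ?_, fun j hj => ?_⟩
    · rw [h15, map_mul, map_mul, hS.dick_refl hv, hS.dick_refl h14, hS.dick_ext2, h10]
      simp
    · rw [h15, map_mul, map_mul, hS.spin_refl hv, hS.spin_refl h14, hS.spin_ext2, h11, h13, sqSign_mul h2 hv,
        mul_left_comm, Int.units_mul_self, mul_one, pow_succ']
    · rcases hj.lt_or_eq with hj | rfl
      · obtain ⟨U, h16, h17, h18⟩ := h12 j (by omega)
        refine ⟨_, nd_map (H20.El.isIsom_subtype _) h16, (Submodule.finrank_map_subtype_eq _ _).trans h17, ?_⟩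
        rintro _ ⟨x, hx, rfl⟩
        exact ⟨_, h18 x hx, rfl⟩
      · exact ⟨⊤, nd_top hS, by rw [finrank_top, hV], by simp⟩

theorem exists_neg (hS : S.Nondeg) (h2 : (2 : F) ≠ 0) (h1 : Even (finrank F V)) (h3 : hS.disc = 1) :
    ∃ g : S.Isom, g * g = S.negOne := by
  obtain ⟨k, hk⟩ := h1
  obtain ⟨U, -, h4, h5⟩ := exists_sub_nd h2 (nd_top hS) (k := k) (by rw [finrank_top]; omega)
  let g := mkIsom (h4.prod h4) ((-LinearMap.snd F U U).prod (LinearMap.fst F U U))
    (orth_isIsom fun x => by simp [orth_q_neg, add_comm])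
  have h6 : g * g = negOne _ := isom_ext fun x => by simp [g, Prod.ext_iff]
  obtain ⟨k, e, -, he⟩ := (orth_eqv_of_disc h2 _ (h4.prod h4) hS (by rw [finrank_prod, h5, hk]) rfl
    ((neg_disc _ h2 h6).2.trans h3.symm)).exists_isim g
  refine ⟨k, isom_ext fun x => ?_⟩
  obtain ⟨x, rfl⟩ := e.surjective x
  rw [isom_mul_apply, ← he, ← he, neg_apply h6, map_neg, negOne_apply]

theorem elu_two (hS : S.Nondeg) (h2 : (2 : F) ≠ 0) (hV : 0 < finrank F V) (Φ : Submodule F V → Prop) :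
    Elu S 2 Φ ↔ (∀ g ∈ commutator S.Isom, g ^ 2 = 1 → g ≠ 1 → g ≠ S.negOne → Fx Φ g) ∧
      (sqSign (2 : F) ^ (finrank F V / 2) = 1 → ∀ g : S.Isom, g * g = S.negOne → Fx Φ g) := by
  have key : ∀ g : S.Isom, g * g = S.negOne →
      (g ∈ commutator S.Isom ↔ sqSign (2 : F) ^ (finrank F V / 2) = 1) := fun g hg => by
    obtain ⟨k, hk⟩ := (neg_disc hS h2 hg).1
    obtain ⟨h3, h4, -⟩ := neg_ind h2 k hS (by omega) hg
    rw [hS.mem_commutator_iff (notO4_of_two_ne h2), h3, h4, show finrank F V / 2 = k by omega]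
    simp
  constructor
  · refine fun h => ⟨fun g h1 h3 => h g h1 (.inl h3), fun h1 g hg => h g ((key g hg).2 h1) (.inr (pow_two g ▸ hg))
      ?_ ?_⟩ <;> rintro rfl
    · exact negOne_ne h2 hV (by rw [← hg, one_mul])
    · exact negOne_ne h2 hV (by rw [← hg, negOne_mul_self])
  · rintro ⟨h, h'⟩ g h1 (h3 | h3) h4 h5
    · exact h g h1 h3 h4 h5
    · exact h' ((key g (pow_two g ▸ h3)).1 h1) g (pow_two g ▸ h3)

theorem inv_spec (hS : S.Nondeg) (h2 : (2 : F) ≠ 0) {g : S.Isom} (h : g ^ 2 = 1) (h1 : g ∈ commutator S.Isom)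
    (h3 : g ≠ 1) : ∃ hR : (S.restrict (res g)).Nondeg, (S.restrict (fixSp g)).Nondeg ∧ Even (finrank F (res g)) ∧
      2 ≤ finrank F (res g) ∧ hR.disc = 1 := by
  have h4 : SS (iE g) := ss_of_pow_eq_one (m := 2) (by simpa using h2) (by rw [← iE_pow, h, iE_one])
  have hR := hS.nondeg_res h4
  have h5 : g = ext1 hR (negOne _) := isom_ext_perp hR (fun x hx => by
    rw [ext1_left hR _ ⟨x, hx⟩, inv_res h hx]; simp) fun x hx => by
    rw [ext1_right hR _ hx]; exact mem_fixSp.1 (hS.perp_res g ▸ hx)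
  rw [hS.mem_commutator_iff (notO4_of_two_ne h2), h5, hS.dick_ext1, hS.spin_ext1,
    ← hR.mem_commutator_iff (notO4_of_two_ne h2), hR.negOne_mem_commutator_iff h2] at h1
  refine ⟨hR, nd_fix hS h4, h1.1, ?_, h1.2⟩
  have h6 : finrank F (res g) ≠ 0 := fun h6 => h3 (res_eq_bot_iff.1 (Submodule.finrank_eq_zero.1 h6))
  obtain ⟨k, hk⟩ := h1.1
  omega

theorem nd_two (hS : S.Nondeg) (h2 : (2 : F) ≠ 0) {W₀ : Submodule F V} (hW : (S.restrict W₀).Nondeg)
    (h1 : 0 < finrank F W₀) (h3 : finrank F W₀ < finrank F V) :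
    Elu S 2 (fun U => Eqv (S.restrict U) (S.restrict W₀)) ↔ (Even (finrank F V) → hS.disc = 1 →
      sqSign (2 : F) ^ (finrank F V / 2) = 1 → Even (finrank F W₀) ∧ hW.disc = 1) := by
  rw [elu_two hS h2 (by omega)]
  constructor
  · rintro ⟨-, h⟩ h4 h5 h6
    obtain ⟨g, hg⟩ := exists_neg hS h2 h4 h5
    obtain ⟨U, h7, h8⟩ := h h6 g hg
    have h9 := neg_disc (h7.symm.nondeg hW) h2 (neg_rst hg h8)
    rwa [h7.finrank_eq, h7.disc_eq _ hW] at h9
  · refine fun h => ⟨fun g h4 h5 h6 _ => ?_, fun h4 g hg => ?_⟩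
    · obtain ⟨hR, h7, -, h8, -⟩ := inv_spec hS h2 h5 h4 h6
      obtain ⟨A, h9, B, h10, h11⟩ := fx_split h2 hR h7 (res_le_perp g) h8 hW h1 (by
        rw [add_comm, finrank_fix hS g]; exact h3)
      exact ⟨_, h11, map_le_iff.1 (nd_join h10 h9 (map_le_iff.2 fun x hx =>
        (show iE g x = -x from inv_res h5 (h9 hx)) ▸ neg_mem hx)).2⟩
    · obtain ⟨h5, h6⟩ := neg_disc hS h2 hg
      obtain ⟨⟨j, hj⟩, h7⟩ := h h5 h6 h4
      obtain ⟨k, hk⟩ := h5
      obtain ⟨U, h8, h9, h10⟩ := (neg_ind h2 k hS (by omega) hg).2.2 j (by omega)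
      exact ⟨U, orth_eqv_of_disc h2 _ h8 hW rfl (by omega) ((neg_disc h8 h2 (neg_rst hg h10)).2.trans h7.symm), h10⟩

theorem units_pow_eq_one (u : ℤˣ) (k : ℕ) : u ^ k = 1 ↔ u = 1 ∨ Even k := by
  rcases Int.units_eq_one_or u with rfl | rfl
  · simp
  · rcases Nat.even_or_odd k with h | h
    · simp [h, h.neg_one_pow]
    · simp [Nat.not_even_iff_odd.2 h, h.neg_one_pow]

theorem disc_eq_one (hS : S.Nondeg) (h2 : (2 : F) ≠ 0) {k : ℕ} (h : finrank F V = 2 * k) :
    hS.disc = 1 ↔ (Pl S ↔ IsSquare (-1 : F) ∨ Even k) := by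
  rw [pl_iff h, hS.hasTS_iff_disc h2 h, ← sqSign_eq_one_iff, ← units_pow_eq_one]
  rcases Int.units_eq_one_or hS.disc with h1 | h1 <;> rcases Int.units_eq_one_or (sqSign (-1 : F) ^ k) with h3 | h3 <;>
    simp [h1, h3]

theorem ts_two (hS : S.Nondeg) (h2 : (2 : F) ≠ 0) {m : ℕ} (hm : 2 * m < finrank F V) (h3 : 2 < finrank F V) :
    Elu S 2 (fun U => finrank F U = m ∧ S.TS U) ↔
      (¬ IsSquare (-1 : F) → Pl S → 2 * m + 3 ≤ finrank F V) ∧ (Even (finrank F V) → hS.disc = 1 →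
      sqSign (2 : F) ^ (finrank F V / 2) = 1 → IsSquare (-1 : F) ∨ Even m) := by
  rw [elu_two hS h2 (by omega)]
  refine and_congr ⟨fun h h4 h5 => ?_, fun h g h4 h5 h6 _ => ?_⟩ ⟨fun h h4 h5 h6 => ?_, fun h h4 g hg => ?_⟩
  · obtain ⟨U, hU, h6, h7⟩ := exists_pl hS one_pos h3 False
    have h8 := fix_glue h2 hU
    have h9 : res (glue hU (negOne _, 1)) = U := by rw [← hS.perp_perp (res _), hS.perp_res, h8, hS.perp_perp]
    have h10 := hS.finrank_perp U
    obtain ⟨e, e', h11, h12, rfl⟩ := (inv_ts hS h2 (g := glue hU (negOne _, 1)) (by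
      rw [← map_pow, Prod.pow_mk, pow_two, negOne_mul_self, one_pow]; exact map_one _)).1 (h _ (by
        rw [hS.mem_commutator_iff (notO4_of_two_ne h2), hS.dick_glue, hS.spin_glue, map_one, map_one, mul_one,
          mul_one, ← hU.mem_commutator_iff (notO4_of_two_ne h2), hU.negOne_mem_commutator_iff h2,
          disc_eq_one hU h2 h6, h7, h6]
        simp [h4]) (by rw [← map_pow, Prod.pow_mk, pow_two, negOne_mul_self, one_pow]; exact map_one _)
        (fun h => by rw [res_eq_bot_iff.2 h] at h9; subst h9; simp at h6) fun h => by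
          obtain ⟨x, hx, h0⟩ := exists_ne_zero_of_finrank (S.perp U) (by omega)
          rw [← h8, h, mem_fixSp, negOne_apply, neg_eq_iff_add_eq_zero, ← two_smul F] at hx
          exact h0 ((smul_eq_zero.1 hx).resolve_left h2))
    rw [h8, hasTS_num (hS.restrict_perp hU)] at h11
    rw [h9, hasTS_num hU, h7] at h12
    rcases h11 with h11 | ⟨h11, h13⟩
    · simp only [and_false, or_false] at h12
      omega
    · rw [pl_perp hS hU ⟨e + 1, by omega⟩ ⟨1, by omega⟩, h7] at h5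
      exact absurd h13 h5.2
  · obtain ⟨hR, h7, ⟨a, ha⟩, h8, h9⟩ := inv_spec hS h2 h5 h4 h6
    have h10 := finrank_fix hS g
    rw [inv_ts hS h2 h5]
    simp only [hasTS_num hR]
    by_cases h11 : Pl (S.restrict (res g))
    · refine ⟨m - min m a, min m a, ?_, by simp only [h11, and_true]; omega, by omega⟩
      rcases Nat.eq_zero_or_pos (m - min m a) with h12 | h12
      · exact h12 ▸ hasTS_zero
      · exact (hasTS_num h7).2 (.inl (by omega))
    · refine ⟨m - min m (a - 1), min m (a - 1), ?_, .inl (by omega), by omega⟩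
      rcases Nat.eq_zero_or_pos (m - min m (a - 1)) with h12 | h12
      · exact h12 ▸ hasTS_zero
      have h13 := (disc_eq_one hR h2 (k := a) (by omega)).1 h9
      by_cases h14 : Pl S
      · have := h (fun h => h11 (h13.2 (.inl h))) h14
        exact (hasTS_num h7).2 (.inl (by omega))
      · have h15 : Even (finrank F V) := Nat.not_odd_iff_even.1 fun h => h14 (pl_of_odd hS h)
        rw [pl_perp hS hR h15 ⟨a, ha⟩, hS.perp_res] at h14
        have h16 : Pl (S.restrict (fixSp g)) := by tauto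
        obtain ⟨k, hk⟩ := h15
        rw [hasTS_num h7]
        simp only [h16, and_true]
        omega
  · obtain ⟨g, hg⟩ := exists_neg hS h2 h4 h5
    exact (neg_ts hS h2 hg (hS.orth_hasTS hm)).1 (h h6 g hg)
  · exact (neg_ts hS h2 hg (hS.orth_hasTS hm)).2 (h (neg_disc hS h2 hg).1 (neg_disc hS h2 hg).2 h4)

end H21.Eo
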