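import Cfsg.Agent.H21.Eo4

/-! Orthogonal elusivity for `r = p`: `nd_char_two` (`p = 2`), `nd_unip`, `nd_123`, `not_elu_odd` (`p` odd). -/

set_option autoImplicit false
namespace H21.Eo
open H11 Module Polynomial H20.El Multiset
open H11.PForm hiding X

universe u
variable {F : Type u} [Field F] {V W Y : Type u} [AddCommGroup V] [Module F V] [AddCommGroup W]
  [Module F W] [AddCommGroup Y] [Module F Y] {S : PForm (orthP F) V} {T : PForm (orthP F) W} {R : PForm (orthP F) Y}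
  [FiniteDimensional F V] [FiniteDimensional F W] [FiniteDimensional F Y]

theorem spl_res {g : S.Isom} {a : T.Isom} {b : R.Isom} (h : Spl g a b) :
    finrank F (res g) = finrank F (res a) + finrank F (res b) := by
  have h1 := (h.sim.aeval (X - 1)).finrank_ker
  rw [aeval_prodMap, finrank_ker_prodMap] at h1
  have h2 : ∀ {V : Type u} [AddCommGroup V] [Module F V] [FiniteDimensional F V] {S : PForm (orthP F) V} (g : S.Isom),
      finrank F (res g) + finrank F (LinearMap.ker (aeval (iE g) (X - 1 : F[X]))) = finrank F V := fun g => by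
    rw [map_sub, aeval_X, map_one]
    exact (iE g - 1).finrank_range_add_finrank_ker
  have := h2 g
  have := h2 a
  have := h2 b
  have := h.finrank_eq
  omega

omit [FiniteDimensional F V] [FiniteDimensional F W] [FiniteDimensional F Y] in
theorem spl_alt {g : S.Isom} {a : T.Isom} {b : R.Isom} (h : Spl g a b) : Alt g ↔ Alt a ∧ Alt b := by
  obtain ⟨e, h1, h2⟩ := h
  have h3 : ∀ x, S.h (e x) (g.1 (e x)) = T.h x.1 (a.1 x.1) + R.h x.2 (b.1 x.2) := fun x => by
    rw [← h2, h1.h_eq]; simp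
  refine ⟨fun h => ⟨fun x => by simpa [h _] using (h3 (x, 0)).symm, fun x => by simpa [h _] using (h3 (0, x)).symm⟩,
    fun h x => ?_⟩
  obtain ⟨x, rfl⟩ := e.surjective x
  rw [h3, h.1, h.2, add_zero]

section Two
variable [CharP F 2]

omit [FiniteDimensional F V] [FiniteDimensional F W] [FiniteDimensional F Y] in
theorem spl_quad {g : S.Isom} {a : T.Isom} {b : R.Isom} (h : Spl g a b) : Quad g ↔ Quad a ∧ Quad b := by
  simp only [quad_iff_mul_self, ← pow_two]
  exact (h.pow 2).eq_one_iff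

omit [FiniteDimensional F V] in
theorem negOne_two : S.negOne = 1 := isom_ext fun x => by
  rw [negOne_apply, isom_one_apply, ← neg_one_smul F, CharTwo.neg_eq, one_smul]

variable [Finite F]

theorem elu_char_two (hS : S.Nondeg) (h4 : S.NotO4) (Φ : Submodule F V → Prop) :
    Elu S 2 Φ ↔ ∀ g : S.Isom, Quad g → Even (finrank F (res g)) → 0 < finrank F (res g) → Fx Φ g := by
  simp only [Elu, negOne_two, or_self, hS.mem_commutator_iff_even h4, quad_iff_mul_self, pow_two,
    Nat.pos_iff_ne_zero, ne_eq, Submodule.finrank_eq_zero, res_eq_bot_iff]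
  exact forall_congr' fun g => by tauto

theorem alt_real (hS : S.Nondeg) (hV : 0 < finrank F V) {t : ℕ} :
    (∃ g : S.Isom, Quad g ∧ Alt g ∧ finrank F (res g) = 2 * t) ↔ t ≤ mx 4 True (finrank F V) (Pl S) := by
  rw [le_mx four_pos hV, show t * 4 = 2 * (2 * t) by ring, true_or, iff_true, ← hasTS_num hS]
  constructor
  · rintro ⟨g, -, h1, h2⟩
    exact ⟨_, alt_iff_ts.1 h1, h2⟩
  · rintro ⟨U, h1, h2⟩
    obtain ⟨g, h3, h4, rfl⟩ := hS.exists_alt h1 ⟨t, by omega⟩
    exact ⟨g, h3, h4, h2⟩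

theorem nd_char_two (hS : S.Nondeg) (h4 : S.NotO4) {W₀ : Submodule F V} (hW : (S.restrict W₀).Nondeg)
    (h1 : 0 < finrank F W₀) (h2 : finrank F W₀ < finrank F V) :
    Elu S 2 (fun U => Eqv (S.restrict U) (S.restrict W₀)) ↔ mx 4 True (finrank F V) (Pl S) ≤
      mx 4 True (finrank F W₀) (Pl (S.restrict W₀)) +
      mx 4 True (finrank F V - finrank F W₀) (Pl (S.restrict (S.perp W₀))) := by
  have h3 := hS.finrank_perp W₀
  have hP := hS.restrict_perp hW
  rw [show finrank F V - finrank F W₀ = finrank F (S.perp W₀) by omega, elu_char_two hS h4]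
  simp only [fx_iff hS hW]
  constructor
  · intro h
    by_contra h5
    obtain ⟨g, h6, h7, h8⟩ := (alt_real hS (by omega)).2 le_rfl
    obtain ⟨a, b, hab⟩ := h g h6 (h7.even hS) (by omega)
    obtain ⟨h9, h10⟩ := (spl_quad hab).1 h6
    obtain ⟨h11, h12⟩ := (spl_alt hab).1 h7
    obtain ⟨s, hs⟩ := h11.even hW
    obtain ⟨t, ht⟩ := h12.even hP
    have := (alt_real hW h1 (t := s)).1 ⟨a, h9, h11, by omega⟩
    have := (alt_real hP (by omega) (t := t)).1 ⟨b, h10, h12, by omega⟩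
    have := spl_res hab
    omega
  · rintro h g h5 ⟨t, ht⟩ h6
    suffices ∃ (a : (S.restrict W₀).Isom) (b : (S.restrict (S.perp W₀)).Isom), Quad a ∧ Quad b ∧
        finrank F (res a) + finrank F (res b) = finrank F (res g) ∧ (Alt a ∧ Alt b ↔ Alt g) by
      obtain ⟨a, b, h7, h8, h9, h10⟩ := this
      obtain ⟨k, hk⟩ := (eqv_prod_perp hW).exists_spl a b
      exact ⟨a, b, Spl.of_isim hk (isim_iff_isConj.2 ((hS.isConj_iff_inv2 ((spl_quad hk).2 ⟨h7, h8⟩) h5).2
        ⟨(spl_res hk).trans h9, (spl_alt hk).trans h10⟩))⟩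
    by_cases h7 : Alt g
    · have h8 := (alt_real hS (by omega) (t := t)).1 ⟨g, h5, h7, by omega⟩
      obtain ⟨a, h9, h10, h11⟩ := (alt_real hW h1).2 (min_le_right t _)
      obtain ⟨b, h12, h13, h14⟩ := (alt_real hP (by omega)
        (t := t - min t (mx 4 True (finrank F W₀) (Pl (S.restrict W₀))))).2 (by omega)
      exact ⟨a, b, h9, h12, by omega, by simp [h7, h10, h13]⟩
    · have h8 := h5.two_mul_le hS
      have h9 : ∀ {V : Type u} [AddCommGroup V] [Module F V] [FiniteDimensional F V] {S : PForm (orthP F) V},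
          S.Nondeg → Even (finrank F V) := fun hS => Nat.not_odd_iff_even.1 fun h =>
        hS.two_ne_zero_of_odd h CharTwo.two_eq_zero
      obtain ⟨k, hk⟩ := h9 hW
      obtain ⟨l, hl⟩ := h9 hP
      obtain ⟨a, h10, h11, h12⟩ := hW.orth_exists_not_alt (k := min (t + t - 1) k - 1) (by omega)
      obtain ⟨b, h13, -, h14⟩ := hP.orth_exists_not_alt (k := t + t - min (t + t - 1) k - 1) (by omega)
      exact ⟨a, b, h10, h13, by omega, by simp [h7, h11]⟩

end Two

theorem fix_sing {g : S.Isom} (h2 : (2 : F) ≠ 0) (hu : Unip (iE g)) (h1 : 1 ∉ JT (iE g)) : S.TS (fixSp g) := by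
  have h3 := hu.finrank_ker 2
  have h4 := hu.card_JT
  rw [map_congr rfl (g := fun _ => 2) fun k hk => min_eq_left (by
    have := JT_pos hk
    have : k ≠ 1 := fun h => h1 (h ▸ hk)
    omega), map_const', sum_replicate, smul_eq_mul] at h3
  let φ := (iE g - 1).domRestrict (LinearMap.ker ((iE g - 1) ^ 2))
  have h5 := φ.finrank_range_add_finrank_ker
  have h6 : finrank F (LinearMap.ker φ) ≤ finrank F (LinearMap.ker (iE g - 1)) := by
    rw [← Submodule.finrank_map_subtype_eq]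
    refine Submodule.finrank_mono ?_
    rintro _ ⟨x, hx, rfl⟩
    exact hx
  have h7 : LinearMap.range φ = LinearMap.ker (iE g - 1) := Submodule.eq_of_le_of_finrank_le (by
    rintro _ ⟨x, rfl⟩
    simpa [φ, pow_two] using x.2) (by omega)
  refine orth_ts_iff.2 fun x hx => ?_
  obtain ⟨y, hy⟩ : x ∈ LinearMap.range φ := h7 ▸ (by simpa [sub_eq_zero, mem_fixSp] using hx)
  have h8 := h_res_of_fix (mem_fixSp.1 hx) (u := x) ⟨y, hy⟩
  rw [orth_h_self] at h8
  exact (mul_eq_zero.1 h8).resolve_left h2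

theorem finrank_fixSp {g : S.Isom} (hu : Unip (iE g)) : finrank F (fixSp g) = (JT (iE g)).card := by
  rw [hu.card_JT, show fixSp g = LinearMap.ker (iE g - 1) by ext x; simp [sub_eq_zero, mem_fixSp]]

theorem pl_of_two {g : S.Isom} (h2 : (2 : F) ≠ 0) (hu : Unip (iE g)) {k : ℕ} (h1 : JT (iE g) = replicate k 2) :
    Pl S := by
  refine ⟨_, fix_sing h2 hu (by simp [h1, mem_replicate]), ?_⟩
  rw [finrank_fixSp hu, ← JT_sum (iE g), h1]
  simp

omit [FiniteDimensional F V] [FiniteDimensional F W] [FiniteDimensional F Y] in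
theorem spl_unip {g : S.Isom} {a : T.Isom} {b : R.Isom} (h : Spl g a b) (hu : Unip (iE g)) :
    Unip (iE a) ∧ Unip (iE b) := by
  obtain ⟨n, hn⟩ := h.sim.unip hu
  have h1 := aeval_prodMap (iE a) (iE b) ((X - 1) ^ n)
  simp only [map_pow, map_sub, aeval_X, map_one, hn] at h1
  exact ⟨⟨n, LinearMap.ext fun x => by simpa using congrArg Prod.fst (LinearMap.congr_fun h1.symm (x, 0))⟩,
    ⟨n, LinearMap.ext fun x => by simpa using congrArg Prod.snd (LinearMap.congr_fun h1.symm (0, x))⟩⟩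

theorem spl_JT {g : S.Isom} {a : T.Isom} {b : R.Isom} (h : Spl g a b) : JT (iE g) = JT (iE a) + JT (iE b) := by
  rw [h.sim.JT_eq, JT_prodMap]

theorem JT_one : JT (iE (1 : S.Isom)) = replicate (finrank F V) 1 := by
  have := (JT_of_sq (f := (1 : End F V)) (by simp) (r := 0) (by simp)).2
  simpa [iE_one] using this

theorem exists_half {μ : Multiset ℕ} (h : ∀ k, Even (μ.count k)) : ∃ ν, μ = ν + ν := by
  obtain ⟨u, v, rfl, h1⟩ := exists_two μ
  refine ⟨u, ?_⟩
  rw [add_eq_left, eq_zero_iff_forall_notMem]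
  intro a ha
  have h2 := h a
  have h3 := nodup_iff_count_le_one.1 h1 a
  have h4 := count_pos.2 ha
  simp only [count_add, Nat.even_iff] at h2
  omega

variable [Finite F]

theorem exists_unip (hS : S.Nondeg) (h2 : (2 : F) ≠ 0) {μ : Multiset ℕ} (h1 : ∀ k ∈ μ, 0 < k)
    (h3 : ∀ k, Even k → Even (μ.count k)) (h4 : μ.sum = finrank F V) (h5 : (∃ k ∈ μ, Odd k) ∨ Pl S) :
    ∃ g : S.Isom, Unip (iE g) ∧ JT (iE g) = μ := by
  by_cases h6 : ∃ k ∈ μ, Odd k
  · obtain ⟨k, h6, h7⟩ := h6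
    obtain ⟨ν, rfl⟩ := exists_cons_of_mem h6
    obtain ⟨W, _, _, _, T, a, h8, h9, rfl⟩ := md_orth (F := F) (μ := ν) (fun j hj => h1 j (by simp [hj])) h2
      fun j hj => by
        have := h3 j hj
        rwa [count_cons_of_ne (by rintro rfl; exact Nat.not_even_iff_odd.2 h7 hj)] at this
    rw [sum_cons, JT_sum] at h4
    obtain ⟨U, h10, h11⟩ := orth_exists_compl hS h8 (by have := h7.pos; omega)
    have h12 := h11.finrank_eq
    rw [finrank_prod] at h12
    obtain rfl : k = finrank F U := by omega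
    obtain ⟨b, hb⟩ := orth_reg h10 (.inl h7)
    obtain ⟨g, hg⟩ := h11.exists_spl a b
    exact ⟨g, hg.sim.symm.unip (h9.prodMap hb.unip), by rw [spl_JT hg, hb.jt, add_comm, singleton_add]⟩
  · obtain ⟨ν, rfl⟩ := exists_half (μ := μ) fun k => by
      by_cases h : k ∈ μ
      · exact h3 k (Nat.not_odd_iff_even.1 fun h' => h6 ⟨k, h, h'⟩)
      · simp [count_eq_zero_of_notMem h]
    obtain ⟨f, h7, h8⟩ := exists_JT (F := F) (V := Fin ν.sum → F) (μ := ν) (fun j hj => h1 j (by simp [hj])) (by simp)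
    obtain ⟨T, h9, h10, k, hk⟩ := (h7.dl (σ := RingHom.id F) fun _ => rfl).exists_dbl (orthP F)
    have h11 : finrank F ((Fin ν.sum → F) × (Fin ν.sum → F)) = 2 * finrank F (Fin ν.sum → F) := by
      rw [finrank_prod, two_mul]
    obtain ⟨g, hg⟩ := (eqv_of_pl h9 hS ⟨_, finrank_prod⟩ (by simp [← h4]) (iff_of_true ((pl_iff h11).2 h10)
      (h5.resolve_left h6))).exists_isim k
    exact ⟨g, hg.sim.unip (hk ▸ h7.prodMap h7), by rw [← hg.sim.JT_eq, hk, JT_prodMap, h8]⟩

theorem disc_of_one (hS : S.Nondeg) (h2 : (2 : F) ≠ 0) {g : S.Isom} (hu : Unip (iE g)) {k : ℕ}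
    (h1 : JT (iE g) = replicate 1 1 + replicate (2 * k) 2) :
    ∃ w, g.1 w = w ∧ S.q w ≠ 0 ∧ hS.disc = sqSign (S.q w) := by
  have h3 := JT_sum (iE g)
  have h4 := finrank_fixSp hu
  rw [h1] at h3 h4
  simp only [Multiset.sum_add, sum_replicate, smul_eq_mul, card_add, card_replicate] at h3 h4
  obtain ⟨w, h5, h6⟩ : ∃ w ∈ fixSp g, S.q w ≠ 0 := by
    by_contra h5
    push Not at h5
    have := (orth_ts_iff.2 h5).two_mul_finrank_le hS
    omega
  have h7 : S.h w w ≠ 0 := by rw [orth_h_self]; exact mul_ne_zero h2 h6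
  have h8 : ∀ x ∈ F ∙ w, g.1 x ∈ F ∙ w := fun x hx => by
    obtain ⟨c, rfl⟩ := Submodule.mem_span_singleton.1 hx
    rwa [map_smul, mem_fixSp.1 h5]
  have h9 := spl_rst g (nondeg_singleton h7) h8
  have h10 := spl_JT h9
  have h11 : rst g _ h8 = 1 := isom_ext fun x => Subtype.ext (by
    obtain ⟨c, hc⟩ := Submodule.mem_span_singleton.1 x.2
    rw [rst_apply, isom_one_apply, ← hc, map_smul, mem_fixSp.1 h5])
  rw [h1, h11, JT_one, finrank_span_singleton (by rintro rfl; simp at h7), add_right_inj] at h10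
  have h12 := finrank_perp_singleton h7
  have h13 := (disc_eq_one (hS.restrict_perp (nondeg_singleton h7)) h2 (k := 2 * k) (by omega)).2
    (iff_of_true (pl_of_two h2 (spl_unip h9 hu).2 h10.symm) (.inr (even_two_mul k)))
  exact ⟨w, h5, h6, by rw [hS.disc_vec h7, h13, mul_one]⟩

/-- the partition with `a` ones, `b` twos, `c` threes -/
def p3 (a b c : ℕ) : Multiset ℕ := replicate a 1 + replicate b 2 + replicate c 3

theorem p3_sum (a b c : ℕ) : (p3 a b c).sum = a + 2 * b + 3 * c := by simp [p3, mul_comm]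

theorem p3_count (a b c k : ℕ) :
    (p3 a b c).count k = if k = 1 then a else if k = 2 then b else if k = 3 then c else 0 := by
  simp only [p3, count_add, count_replicate]
  split_ifs <;> omega

theorem p3_split {a b c : ℕ} {ν ν' : Multiset ℕ} (h : p3 a b c = ν + ν') :
    ν = p3 (ν.count 1) (ν.count 2) (ν.count 3) := by
  ext k
  have := congrArg (count k) h
  rw [count_add, p3_count] at this
  rw [p3_count]
  split_ifs at this ⊢ with h1 h2 h3
  exacts [by rw [h1], by rw [h2], by rw [h3], by omega]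

theorem p3_mem {a b c k : ℕ} (h : k ∈ p3 a b c) : 0 < k ∧ k ≤ 3 := by
  simp only [p3, mem_add, mem_replicate] at h
  omega

variable (p : ℕ) [hp : Fact p.Prime] [CharP F p] (h2 : (2 : F) ≠ 0)
include h2

omit [Finite F] in
theorem p_odd : Odd p := hp.out.odd_of_ne_two (by rintro rfl; exact h2 CharTwo.two_eq_zero)

theorem nd_unip (hS : S.Nondeg) {W₀ : Submodule F V} (hW : (S.restrict W₀).Nondeg)
    (h : Elu S p (fun U => Eqv (S.restrict U) (S.restrict W₀))) {g : S.Isom} (hu : Unip (iE g))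
    (h1 : ∀ k ∈ JT (iE g), k ≤ p) (h3 : ∃ k ∈ JT (iE g), k ≠ 1) :
    ∃ (a : (S.restrict W₀).Isom) (b : (S.restrict (S.perp W₀)).Isom), Spl g a b := by
  rw [elu_odd hS (notO4_of_two_ne h2) (p_odd p h2)] at h
  refine (fx_iff hS hW g).1 (h g ?_ ?_)
  · have := (hu.orderOf_eq p (j := 1)).2 (by simpa using h1)
    rwa [pow_one, orderOf_iE, orderOf_dvd_iff_pow_eq_one] at this
  · rintro rfl
    obtain ⟨k, h4, h5⟩ := h3
    rw [JT_one] at h4
    exact h5 (eq_of_mem_replicate h4)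

theorem nd_part (hS : S.Nondeg) {W₀ : Submodule F V} (hW : (S.restrict W₀).Nondeg)
    (h : Elu S p (fun U => Eqv (S.restrict U) (S.restrict W₀))) {μ : Multiset ℕ} (h1 : ∀ k ∈ μ, 0 < k ∧ k ≤ p)
    (h3 : ∀ k, Even k → Even (μ.count k)) (h4 : μ.sum = finrank F V) (h5 : (∃ k ∈ μ, Odd k) ∨ Pl S) :
    ∃ ν ≤ μ, ν.sum = finrank F W₀ ∧ ∀ k, Even k → Even (ν.count k) := by
  by_cases h6 : ∃ k ∈ μ, k ≠ 1
  · obtain ⟨g, h7, rfl⟩ := exists_unip hS h2 (fun k hk => (h1 k hk).1) h3 h4 h5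
    obtain ⟨a, b, hab⟩ := nd_unip p h2 hS hW h h7 (fun k hk => (h1 k hk).2) h6
    exact ⟨_, spl_JT hab ▸ Multiset.le_add_right _ _, JT_sum _, fun k => orth_par hW h2 (spl_unip hab h7).1⟩
  · push Not at h6
    rw [eq_replicate_card.2 h6] at h4 ⊢
    have := W₀.finrank_le
    refine ⟨replicate (finrank F W₀) 1, (replicate_le_replicate _).2 (by simp at h4; omega), by simp, fun k hk => ?_⟩
    rw [count_replicate, if_neg (by rintro rfl; simp at hk)]
    exact Even.zero

theorem spl_123 {g : S.Isom} {x : T.Isom} {y : R.Isom} (hT : T.Nondeg) (h : Spl g x y) (hu : Unip (iE g)) {a b c : ℕ}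
    (h1 : JT (iE g) = p3 a b c) : ∃ a' ≤ a, ∃ b' ≤ b, ∃ c' ≤ c, JT (iE x) = p3 a' (2 * b') c' ∧
      finrank F W = a' + 4 * b' + 3 * c' ∧ (a' = 0 → c' = 0 → Pl T) ∧ JT (iE y) = p3 (a - a') (b - 2 * b') (c - c') := by
  rw [spl_JT h] at h1
  have h3 := p3_split h1.symm
  have h4 := p3_split (h1.symm.trans (add_comm _ _))
  obtain ⟨b', hb⟩ := orth_par hT h2 (spl_unip h hu).1 even_two
  have h5 := congrArg (count 1) h1
  have h6 := congrArg (count 2) h1
  have h7 := congrArg (count 3) h1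
  simp only [count_add, p3_count] at h5 h6 h7
  simp only [if_true, OfNat.ofNat_ne_one, if_false, Nat.succ_ne_self] at h5 h6 h7
  rw [hb, ← two_mul] at h3
  refine ⟨_, by omega, b', by omega, _, by omega, h3, by
    have := congrArg Multiset.sum h3
    rw [JT_sum, p3_sum] at this
    omega, fun h8 h9 =>
    pl_of_two h2 (spl_unip h hu).1 (k := 2 * b') (by rw [h3, h8, h9]; simp [p3]), ?_⟩
  rw [h4]
  congr 1 <;> omega

theorem nd_123 (hS : S.Nondeg) {W₀ : Submodule F V} (hW : (S.restrict W₀).Nondeg)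
    (h : Elu S p (fun U => Eqv (S.restrict U) (S.restrict W₀))) {a b c : ℕ} (h1 : a + 4 * b + 3 * c = finrank F V)
    (h3 : 0 < b + c) (h5 : 0 < a + c ∨ Pl S) : ∃ a' ≤ a, ∃ b' ≤ b, ∃ c' ≤ c, finrank F W₀ = a' + 4 * b' + 3 * c' ∧
      (a' = 0 → c' = 0 → Pl (S.restrict W₀)) ∧ (a' = a → c' = c → Pl (S.restrict (S.perp W₀))) := by
  have h0 : 3 ≤ p := by have := p_odd p h2; have := hp.out.two_le; rw [Nat.odd_iff] at *; omega
  obtain ⟨g, h6, h7⟩ := exists_unip hS h2 (μ := p3 a (2 * b) c) (fun k hk => (p3_mem hk).1) (fun k hk => by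
      rw [p3_count]
      split_ifs with h6 h7 h8
      exacts [absurd (h6 ▸ hk) (by decide), even_two_mul _, absurd (h8 ▸ hk) (by decide), Even.zero])
    (by rw [p3_sum]; omega) (h5.imp_left fun h5 => by
      rcases Nat.eq_zero_or_pos a with h6 | h6
      · exact ⟨3, count_pos.1 (by simp [p3_count]; omega), by decide⟩
      · exact ⟨1, count_pos.1 (by simpa [p3_count]), by decide⟩)
  obtain ⟨x, y, hxy⟩ := nd_unip p h2 hS hW h h6 (fun k hk => (p3_mem (h7 ▸ hk)).2.trans h0) (by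
    rw [h7]
    rcases Nat.eq_zero_or_pos b with h6 | h6
    · exact ⟨3, count_pos.1 (by simp [p3_count]; omega), by decide⟩
    · exact ⟨2, count_pos.1 (by simpa [p3_count]), by decide⟩)
  obtain ⟨a', h8, b', -, c', h9, -, h10, h11, h12⟩ := spl_123 h2 hW hxy h6 h7
  have h13 := JT_sum (iE y)
  have h14 := hxy.finrank_eq
  rw [h12, p3_sum] at h13
  exact ⟨a', h8, b', by omega, c', h9, h10, h11, fun h15 h16 => pl_of_two h2 (spl_unip hxy h6).2
    (k := 2 * b - 2 * b') (by rw [h12, h15, h16]; simp [p3])⟩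

omit h2 in
theorem spl_fix {g : S.Isom} {x : T.Isom} {y : R.Isom} (h : Spl g x y) {w : W} (hw : x.1 w = w) :
    ∃ v, g.1 v = v ∧ S.q v = T.q w := by
  obtain ⟨e, h1, h3⟩ := h
  exact ⟨e (w, 0), by rw [← h3]; simp [hw], by rw [h1.orth_q]; simp [orth_q_zero]⟩

theorem not_elu_odd (hS : S.Nondeg) {W₀ : Submodule F V} (hW : (S.restrict W₀).Nondeg) (h1 : finrank F V % 4 = 0)
    (h3 : Odd (finrank F W₀)) : ¬ Elu S p (fun U => Eqv (S.restrict U) (S.restrict W₀)) := by
  intro h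
  have h0 : 3 ≤ p := by have := p_odd p h2; have := hp.out.two_le; rw [Nat.odd_iff] at *; omega
  have h4 := hS.finrank_perp W₀
  have hP := hS.restrict_perp hW
  rw [Nat.odd_iff] at h3
  obtain ⟨b, hb⟩ : ∃ b, finrank F V = 4 * b + 4 := ⟨finrank F V / 4 - 1, by omega⟩
  obtain ⟨c, hc0, hc⟩ : ∃ c : F, c ≠ 0 ∧ sqSign c ≠ if finrank F W₀ % 4 = 1 then hW.disc else hP.disc := by
    obtain ⟨c, h5, h6⟩ := exists_not_isSquare h2
    rcases Int.units_eq_one_or (if finrank F W₀ % 4 = 1 then hW.disc else hP.disc) with h7 | h7 <;> rw [h7]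
    · exact ⟨c, h5, by rwa [ne_eq, sqSign_eq_one_iff]⟩
    · exact ⟨1, one_ne_zero, by simp [sqSign_one]⟩
  obtain ⟨v, rfl⟩ := hS.orth_exists_q_eq (by omega) c
  have h5 : S.h v v ≠ 0 := by rw [orth_h_self]; exact mul_ne_zero h2 hc0
  have hv := nondeg_singleton h5
  have h6 := finrank_perp_singleton h5
  obtain ⟨k, h7, h8⟩ := exists_unip (hS.restrict_perp hv) h2 (μ := p3 0 (2 * b) 1) (fun k hk => (p3_mem hk).1)
    (fun k hk => by
      rw [p3_count]
      split_ifs with h6 h7 h8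
      exacts [Even.zero, even_two_mul _, absurd (h8 ▸ hk) (by decide), Even.zero])
    (by rw [p3_sum]; omega) (.inl ⟨3, count_pos.1 (by simp [p3_count]), by decide⟩)
  have h9 := spl_rst (glue hv (1, k)) hv fun x hx => (mem_stab.1 (glue_mem_stab hv _) x).1 hx
  generalize hx : rst (glue hv (1, k)) (F ∙ v) _ = x at h9
  generalize hy : rst (glue hv (1, k)) (S.perp (F ∙ v)) _ = y at h9
  obtain rfl : x = 1 := hx ▸ isom_ext fun x => Subtype.ext (glue_left hv _ x)
  obtain rfl : y = k := hy ▸ isom_ext fun x => Subtype.ext (glue_right hv _ x)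
  have h10 : Unip (iE (glue hv (1, y))) := h9.sim.symm.unip (Unip.prodMap ⟨1, by simp [iE_one]⟩ h7)
  have h11 : JT (iE (glue hv (1, y))) = p3 1 (2 * b) 1 := by
    rw [spl_JT h9, JT_one, h8, finrank_span_singleton (by rintro rfl; simp at h5)]
    simp [p3]
  have h12 : ∀ z, (glue hv (1, y)).1 z = z → S.q z ≠ 0 → sqSign (S.q z) = sqSign (S.q v) := fun z hz h12 => by
    obtain ⟨_, h13, w, h14, rfl⟩ := exists_decomp hv z
    obtain ⟨a, rfl⟩ := Submodule.mem_span_singleton.1 h13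
    rw [_root_.map_add, glue_left hv _ ⟨_, h13⟩, glue_right hv _ ⟨_, h14⟩] at hz
    have h15 : S.q w = 0 := orth_ts_iff.1 (fix_sing h2 h7 (by simp [h8, p3, mem_replicate])) ⟨w, h14⟩
      (Subtype.ext (add_left_cancel hz))
    rw [orth_q_add, h15, h14 _ h13, add_zero, add_zero, orth_q_smul] at h12 ⊢
    rw [sqSign_mul (left_ne_zero_of_mul h12) hc0, sqSign_sq, one_mul]
  obtain ⟨x, z, hxz⟩ := nd_unip p h2 hS hW h h10 (fun k hk => (p3_mem (h11 ▸ hk)).2.trans h0)
    ⟨3, count_pos.1 (by simp [h11, p3_count]), by decide⟩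
  have key : ∀ {W Y : Type u} [AddCommGroup W] [Module F W] [AddCommGroup Y] [Module F Y] [FiniteDimensional F W]
      [FiniteDimensional F Y] {T : PForm (orthP F) W} {R : PForm (orthP F) Y} (hT : T.Nondeg) {x : T.Isom} {z : R.Isom},
      Spl (glue hv (1, y)) x z → finrank F W % 4 = 1 → sqSign (S.q v) = hT.disc := fun hT x z h13 h14 => by
    obtain ⟨a', h15, b', -, c', h16, h17, h18, -⟩ := spl_123 h2 hT h13 h10 h11
    obtain rfl : a' = 1 := by omega
    obtain rfl : c' = 0 := by omega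
    obtain ⟨w, h19, h20, h21⟩ := disc_of_one hT h2 (spl_unip h13 h10).1 (k := b') (by rw [h17]; simp [p3])
    obtain ⟨u, h22, h23⟩ := spl_fix h13 h19
    rw [h21, ← h23, h12 u h22 (h23 ▸ h20)]
  split_ifs at hc with h13
  · exact hc (key hW hxz h13)
  · exact hc (key hP hxz.symm (by omega))

end H21.Eo
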