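import Cfsg.Agent.H21.Eo5

/-! Orthogonal elusivity: numerical forms `nd_num`, `nd_num_two`, `ts_num`, `nd_two'`, `ts_two'`, `exists_W`. -/

set_option autoImplicit false
namespace H21.Eo
open H11 Module Polynomial H20.El
open H11.PForm hiding X

/-- the specification of `mx` -/
def Sp (c : ℕ) (τ : Prop) (n : ℕ) (ε : Prop) (M : ℕ) : Prop :=
  (n % c = 0 ∧ ¬ (ε ↔ τ ∨ n / c % 2 = 0) ∧ M + 1 = n / c) ∨ ((0 < n % c ∨ (ε ↔ τ ∨ n / c % 2 = 0)) ∧ M = n / c)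

theorem sp_mx {c : ℕ} (hc : 0 < c) (τ : Prop) {n : ℕ} (hn : 0 < n) (ε : Prop) : Sp c τ n ε (mx c τ n ε) := by
  simpa only [Sp, Nat.even_iff] using mx_spec hc τ hn ε

/-- division facts -/
def Dv (c n m : ℕ) : Prop :=
  ((m % c ≤ n % c ∧ (n - m) % c + m % c = n % c ∧ (n - m) / c + m / c = n / c) ∨
    (n % c < m % c ∧ (n - m) % c + m % c = c + n % c ∧ (n - m) / c + m / c + 1 = n / c)) ∧
  n % c % 2 = n % 2 ∧ m % c % 2 = m % 2 ∧ c % 2 = 0 ∧ n % c < c ∧ m % c < c ∧ (c ≤ m ↔ 0 < m / c) ∧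
  (n % c = m % c → (n + m - 2 * (n % c)) / c = n / c + m / c)

theorem dv {c n m : ℕ} (hc : 0 < c) (h2 : 2 ∣ c) (h : m ≤ n) : Dv c n m := by
  have h1 := Nat.add_div (a := n - m) (b := m) hc
  have h3 := Nat.add_mod_add_ite (n - m) m c
  have h4 := Nat.mod_lt (n - m) hc
  have h5 := Nat.mod_lt m hc
  have h6 := Nat.mod_lt n hc
  rw [Nat.sub_add_cancel h] at h1 h3
  refine ⟨by split_ifs at h1 h3 <;> omega, Nat.mod_mod_of_dvd _ h2, Nat.mod_mod_of_dvd _ h2, by omega, h6, h5,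
    by simp [Nat.div_pos_iff, hc], fun h7 => ?_⟩
  have h8 := Nat.div_add_mod n c
  have h9 := Nat.div_add_mod m c
  rw [show n + m - 2 * (n % c) = c * (n / c + m / c) by rw [mul_add]; omega, Nat.mul_div_cancel_left _ hc]

theorem dv_two {i m : ℕ} (hi : 0 < i) : ((2 * (m % i) < i ∧ 2 * m / i = 2 * (m / i) ∧ 2 * m % i = 2 * (m % i)) ∨
    (i ≤ 2 * (m % i) ∧ 2 * m / i = 2 * (m / i) + 1 ∧ 2 * m % i + i = 2 * (m % i))) ∧ (i ≤ m ↔ 0 < m / i) ∧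
    2 * m / (2 * i) = m / i ∧ 2 * m % (2 * i) = 2 * (m % i) := by
  have h1 := Nat.add_div (a := m) (b := m) hi
  have h3 := Nat.add_mod_add_ite m m i
  rw [← two_mul] at h1 h3
  exact ⟨by split_ifs at h1 h3 <;> omega, by simp [Nat.div_pos_iff, hi], Nat.mul_div_mul_left _ _ two_pos,
    Nat.mul_mod_mul_left _ _ _⟩

universe u
variable {F : Type u} [Field F] {V : Type u} [AddCommGroup V] [Module F V]
  {S : PForm (orthP F) V} [FiniteDimensional F V] [Fintype F] {q : ℕ} (hq : Fintype.card F = q)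

theorem exists_W {ι : Type} [Fintype ι] [DecidableEq ι] (Q : QuadraticForm F (ι → F)) (hS : (orthS Q).Nondeg) {m : ℕ}
    (h1 : Even m) (h2 : 0 < m) (h3 : m < finrank F (ι → F)) (ε : Prop) :
    ∃ W₀ : Submodule F (ι → F), ((orthS Q).restrict W₀).Nondeg ∧ finrank F W₀ = m ∧
      (Pl ((orthS Q).restrict W₀) ↔ ε) ∧ ∀ U : Submodule F (ι → F), (finrank F U = m ∧
        Cfsg.Geo.IsNondegenerateOn (QuadraticMap.polar ⇑Q) U ∧ (Cfsg.Geo.IsPlusTypeOn ⇑Q U ↔ ε)) ↔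
        Eqv ((orthS Q).restrict U) ((orthS Q).restrict W₀) := by
  obtain ⟨k, rfl⟩ := h1.two_dvd
  obtain ⟨W₀, h4, h5, h6⟩ := exists_pl hS (by omega) h3 ε
  refine ⟨W₀, h4, h5, h6, fun U => ?_⟩
  rw [eqv_iff_pl h4 (h5 ▸ h1), h5, h6, nd_iff]
  exact and_congr_right fun h => by rw [plus_iff Q h, pl_iff h]

theorem isom_W {ι : Type} [Fintype ι] [DecidableEq ι] (Q : QuadraticForm F (ι → F)) {m : ℕ} {W₀ : Submodule F (ι → F)}
    (h : finrank F W₀ = m ∧ Cfsg.Geo.IsNondegenerateOn (QuadraticMap.polar ⇑Q) W₀) (U : Submodule F (ι → F)) :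
    (finrank F U = m ∧ Cfsg.Geo.IsNondegenerateOn (QuadraticMap.polar ⇑Q) U ∧ Cfsg.Geo.AreIsometricFor ⇑Q U W₀) ↔
      Eqv ((orthS Q).restrict U) ((orthS Q).restrict W₀) := by
  rw [isom_iff, nd_iff]
  exact ⟨fun h => h.2.2, fun h' => ⟨h'.finrank_eq.trans h.1, h'.symm.nondeg ((nd_iff Q _).1 h.2), h'⟩⟩

omit [Fintype F] in
theorem two_ne (p : ℕ) [hp : Fact p.Prime] [CharP F p] : (2 : F) ≠ 0 ↔ p ≠ 2 := by
  rw [ne_eq, show (2 : F) = (2 : ℕ) by simp, CharP.cast_eq_zero_iff F p, Nat.prime_dvd_prime_iff_eq hp.out Nat.prime_two]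

theorem nd_num_two [CharP F 2] (hS : S.Nondeg) {n m : ℕ} (hn : finrank F V = n) (h4 : n ≠ 4) {W₀ : Submodule F V}
    (hW : (S.restrict W₀).Nondeg) (hm : finrank F W₀ = m) (h1 : 0 < m) (h2 : m < n) :
    ∃ M A B, (Elu S 2 (fun U => Eqv (S.restrict U) (S.restrict W₀)) ↔ M ≤ A + B) ∧ Sp 4 True n (Pl S) M ∧
      Sp 4 True m (Pl (S.restrict W₀)) A ∧ Sp 4 True (n - m) (Pl (S.restrict (S.perp W₀))) B := by
  subst hn hm
  exact ⟨_, _, _, nd_char_two hS (.inr (.inl h4)) hW h1 h2, sp_mx four_pos _ (by omega) _, sp_mx four_pos _ h1 _,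
    sp_mx four_pos _ (by omega) _⟩

include hq

theorem odd_q (p : ℕ) [Fact p.Prime] [CharP F p] : q % 2 = 1 ↔ p ≠ 2 := by
  rw [← two_ne (F := F) p, two_ne_zero_iff_odd, hq, Nat.odd_iff]

theorem two_ne' (h : Odd q) : (2 : F) ≠ 0 := two_ne_zero_iff_odd.2 (hq ▸ h)

theorem neg_cond (hS : S.Nondeg) (h : Odd q) {n : ℕ} (hn : finrank F V = n) {P : Prop} :
    (Even (finrank F V) → hS.disc = 1 → sqSign (2 : F) ^ (finrank F V / 2) = 1 → P) ↔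
    (n % 2 = 0 → (Pl S ↔ q % 4 = 1 ∨ n % 4 = 0) → (q % 8 = 1 ∨ q % 8 = 7 ∨ n % 4 = 0) → P) := by
  rw [hn, Nat.even_iff]
  refine imp_congr_right fun h1 => ?_
  rw [disc_eq_one hS (two_ne' hq h) (k := n / 2) (by omega), units_pow_eq_one, sqSign_eq_one_iff,
    FiniteField.isSquare_neg_one_iff, FiniteField.isSquare_two_iff, hq, Nat.even_iff]
  rw [Nat.odd_iff] at h
  exact imp_congr (iff_congr Iff.rfl (by omega)) (imp_congr_left (by omega))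

theorem nd_two' (hS : S.Nondeg) (h : Odd q) {n m : ℕ} (hn : finrank F V = n) {W₀ : Submodule F V}
    (hW : (S.restrict W₀).Nondeg) (hm : finrank F W₀ = m) (h1 : 0 < m) (h2 : m < n) :
    Elu S 2 (fun U => Eqv (S.restrict U) (S.restrict W₀)) ↔
      (n % 2 = 0 → (Pl S ↔ q % 4 = 1 ∨ n % 4 = 0) → (q % 8 = 1 ∨ q % 8 = 7 ∨ n % 4 = 0) →
        m % 2 = 0 ∧ (Pl (S.restrict W₀) ↔ q % 4 = 1 ∨ m % 4 = 0)) := by
  rw [nd_two hS (two_ne' hq h) hW (by omega) (by omega), neg_cond hq hS h hn, hm, Nat.even_iff]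
  refine imp_congr_right fun _ => imp_congr_right fun _ => imp_congr_right fun _ => and_congr_right fun h3 => ?_
  rw [disc_eq_one hW (two_ne' hq h) (k := m / 2) (by omega), FiniteField.isSquare_neg_one_iff, hq, Nat.even_iff]
  rw [Nat.odd_iff] at h
  exact iff_congr Iff.rfl (by omega)

theorem ts_two' (hS : S.Nondeg) (h : Odd q) {n m : ℕ} (hn : finrank F V = n) (h1 : 2 * m < n) (h2 : 2 < n) :
    Elu S 2 (fun U => finrank F U = m ∧ S.TS U) ↔ (q % 4 = 3 → Pl S → 2 * m + 3 ≤ n) ∧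
      (n % 2 = 0 → (Pl S ↔ q % 4 = 1 ∨ n % 4 = 0) → (q % 8 = 1 ∨ q % 8 = 7 ∨ n % 4 = 0) → q % 4 = 1 ∨ m % 2 = 0) := by
  rw [ts_two hS (two_ne' hq h) (by omega) (by omega), neg_cond hq hS h hn, hn, FiniteField.isSquare_neg_one_iff, hq,
    Nat.even_iff, not_not]
  rw [Nat.odd_iff] at h
  rw [show q % 4 ≠ 3 ↔ q % 4 = 1 by omega]

variable (p : ℕ) [Fact p.Prime] [CharP F p] {r i c : ℕ} (hr : r.Prime)

theorem ts_ne (hS : S.Nondeg) {m : ℕ} (hm : 2 * m < finrank F V)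
    (h : r ∣ Nat.card {U : Submodule F V // finrank F U = m ∧ S.TS U}) : r ≠ p := by
  rintro rfl
  exact ts_not_dvd hS hm Fact.out ((dvd_card_iff r Fact.out).2 rfl) h

variable (hr2 : r ≠ 2) (hrp : r ≠ p) (hi : i = orderOf (q : ZMod r)) (hc : c = if Even i then i else 2 * i)
include hr hr2 hrp hi hc

theorem nd_num (hS : S.Nondeg) {n m : ℕ} (hn : finrank F V = n) (h4 : n ≠ 4) {W₀ : Submodule F V}
    (hW : (S.restrict W₀).Nondeg) (hm : finrank F W₀ = m) (h1 : 0 < m) (h2 : m < n)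
    (h : r ∣ Nat.card {U : Submodule F V // Eqv (S.restrict U) (S.restrict W₀)}) :
    ∃ M A B, (Elu S r (fun U => Eqv (S.restrict U) (S.restrict W₀)) ↔ M ≤ A + B) ∧ A < M ∧ B < M ∧ 2 < r ∧
      Sp c (Odd i) n (Pl S) M ∧ Sp c (Odd i) m (Pl (S.restrict W₀)) A ∧
      Sp c (Odd i) (n - m) (Pl (S.restrict (S.perp W₀))) B ∧ Dv c n m ∧
      ((Odd i ∧ ¬ Even i) ∨ (Even i ∧ ¬ Odd i ∧ c = i)) := by
  subst hn hm
  rw [← hq, ← Nat.card_eq_fintype_card] at hi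
  have h0 := natCast_ne_zero_of_prime (F := F) p hr hrp
  have h3 := c_pos hr h0 hi hc
  obtain ⟨h5, h6⟩ := nd_lt hr hr2 h0 hi hc hS hW h1 h2 h
  obtain ⟨k, -, hk, h7⟩ := c_spec hc (i_ne hr h0 hi)
  exact ⟨_, _, _, nd_odd hr hr2 h0 hi hc hS (.inr (.inl h4)) hW h1 h2, h5, h6, lt_of_le_of_ne hr.two_le hr2.symm,
    sp_mx h3 _ (by omega) _, sp_mx h3 _ h1 _, sp_mx h3 _ (by omega) _, dv h3 ⟨k, hk⟩ h2.le,
    h7.imp (fun h => ⟨h.1, Nat.not_even_iff_odd.2 h.1⟩) fun h => ⟨h.1, Nat.not_odd_iff_even.2 h.1, by omega⟩⟩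

theorem ts_num (hS : S.Nondeg) {n m : ℕ} (hn : finrank F V = n) (h4 : n ≠ 4) (h2 : 2 * m < n)
    (h : r ∣ Nat.card {U : Submodule F V // finrank F U = m ∧ S.TS U}) :
    ∃ M A, (Elu S r (fun U => finrank F U = m ∧ S.TS U) ↔
      (Odd i ∧ M ≤ m / i + A) ∨ (Even i ∧ M ≤ 2 * (m / i) + A ∧ (r - 1) / i ≤ A)) ∧ A < M ∧ 2 < r ∧
      Sp c (Odd i) n (Pl S) M ∧ Sp c (Odd i) (n - 2 * m) (Pl S) A ∧ Dv c n (2 * m) ∧ 0 < i ∧
      ((Odd i ∧ ¬ Even i ∧ c = 2 * i) ∨ (Even i ∧ ¬ Odd i ∧ c = i)) := by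
  subst hn
  rw [← hq, ← Nat.card_eq_fintype_card] at hi
  have h0 := natCast_ne_zero_of_prime (F := F) p hr hrp
  have h3 := c_pos hr h0 hi hc
  have h5 := ts_lt hr hr2 h0 hi hc hS h2 h
  obtain ⟨k, -, hk, h7⟩ := c_spec hc (i_ne hr h0 hi)
  exact ⟨_, _, ts_odd hr hr2 h0 hi hc hS (.inr (.inl h4)) h2 h5, h5, lt_of_le_of_ne hr.two_le hr2.symm,
    sp_mx h3 _ (by omega) _, sp_mx h3 _ (by omega) _, dv h3 ⟨k, hk⟩ h2.le, Nat.pos_of_ne_zero (i_ne hr h0 hi),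
    h7.imp (fun h => ⟨h.1, Nat.not_even_iff_odd.2 h.1, by omega⟩) fun h => ⟨h.1, Nat.not_odd_iff_even.2 h.1, by omega⟩⟩

end H21.Eo
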