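import Cfsg.Agent.H21.Eo6

/-! Orthogonal elusivity on non-singular points in characteristic two: `ns_iff`. -/

set_option autoImplicit false
namespace H21.Eo
open H11 Module Polynomial H20.El
open H11.PForm hiding X

universe u
variable {F : Type u} [Field F] {V : Type u} [AddCommGroup V] [Module F V]
  {S : PForm (orthP F) V} [CharP F 2]

theorem eq_one_of_sq {c : F} (h : c ^ 2 = 1) : c = 1 := by
  rcases mul_self_eq_one_iff.1 (by rw [← pow_two, h] : c * c = 1) with h | h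
  · exact h
  · rw [h, CharTwo.neg_eq]

theorem ns_fx {g : S.Isom} : Fx (fun W => finrank F W = 1 ∧ ∃ v ∈ W, S.q v ≠ 0) g ↔ ∃ v, g.1 v = v ∧ S.q v ≠ 0 := by
  constructor
  · rintro ⟨W, ⟨h1, v, h2, h3⟩, h4⟩
    have h5 : (⟨v, h2⟩ : W) ≠ 0 := fun h => h3 (by rw [show v = 0 from congrArg Subtype.val h, orth_q_zero])
    obtain ⟨c, hc⟩ := (finrank_eq_one_iff_of_nonzero' _ h5).1 h1 ⟨_, h4 v h2⟩
    have h6 : c • v = g.1 v := congrArg Subtype.val hc
    have h7 := orth_isom_q g v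
    rw [← h6, orth_q_smul] at h7
    exact ⟨v, by rw [← h6, eq_one_of_sq (mul_right_cancel₀ h3 (h7.trans (one_mul _).symm)), one_smul], h3⟩
  · rintro ⟨v, h1, h2⟩
    refine ⟨F ∙ v, ⟨finrank_span_singleton (by rintro rfl; exact h2 S.orth_q_zero), v,
      Submodule.mem_span_singleton_self v, h2⟩, fun x hx => ?_⟩
    obtain ⟨c, rfl⟩ := Submodule.mem_span_singleton.1 hx
    rwa [map_smul, h1]

variable [FiniteDimensional F V] [Finite F]

theorem ns_card : Nat.card {W : Submodule F V // finrank F W = 1 ∧ ∃ v ∈ W, S.q v ≠ 0} = S.cnt 1 := by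
  rw [orth_cnt_def]
  refine (Nat.card_congr (Equiv.ofBijective (fun x : {x // S.q x = 1} => (⟨F ∙ x.1, finrank_span_singleton
    (fun h => by simpa [h, orth_q_zero] using x.2), x.1, Submodule.mem_span_singleton_self _, by simp [x.2]⟩ :
      {W : Submodule F V // finrank F W = 1 ∧ ∃ v ∈ W, S.q v ≠ 0})) ⟨fun x y h => ?_, ?_⟩)).symm
  · obtain ⟨c, hc⟩ := Submodule.mem_span_singleton.1 ((show (F ∙ x.1) = F ∙ y.1 from congrArg Subtype.val h) ▸
      Submodule.mem_span_singleton_self x.1 : x.1 ∈ F ∙ y.1)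
    have h1 := x.2
    rw [← hc, orth_q_smul, y.2, mul_one] at h1
    exact Subtype.ext (by rw [← hc, eq_one_of_sq h1, one_smul])
  · rintro ⟨W, h1, v, h2, h3⟩
    obtain ⟨c, hc⟩ := isSquare_of_two_eq_zero CharTwo.two_eq_zero (S.q v)
    have h4 : c ≠ 0 := by rintro rfl; exact h3 (by simpa using hc)
    refine ⟨⟨c⁻¹ • v, by rw [orth_q_smul, hc]; field_simp⟩, Subtype.ext (Submodule.eq_of_le_of_finrank_eq
      ((Submodule.span_singleton_le_iff_mem _ _).2 (W.smul_mem _ h2)) ?_)⟩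
    rw [h1]
    exact finrank_span_singleton (smul_ne_zero (inv_ne_zero h4) (by rintro rfl; exact h3 S.orth_q_zero))

theorem ns_iff (hS : S.Nondeg) {d : ℕ} (hV : finrank F V = 2 * d) (hd : 2 < d) {r : ℕ} (hr : r.Prime)
    (h : r ∣ Nat.card {W : Submodule F V // finrank F W = 1 ∧ ∃ v ∈ W, S.q v ≠ 0}) :
    Elu S r (fun W => finrank F W = 1 ∧ ∃ v ∈ W, S.q v ≠ 0) ↔ r = 2 ∧ (Pl S → Odd d) := by
  have h4 : S.NotO4 := .inr (.inl (by omega))
  by_cases hr2 : r = 2
  · subst hr2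
    simp only [elu_char_two hS h4, ns_fx, true_and]
    constructor
    · intro h1 h2
      by_contra h3
      obtain ⟨U, h5, h6⟩ := (pl_iff hV).1 h2
      obtain ⟨g, h7, -, rfl⟩ := hS.exists_alt h5 (h6 ▸ Nat.not_odd_iff_even.1 h3)
      obtain ⟨v, h8, h9⟩ := h1 g h7 (h6 ▸ Nat.not_odd_iff_even.1 h3) (by omega)
      have h10 := finrank_fix hS g
      have h11 : res g = fixSp g := Submodule.eq_of_le_of_finrank_eq h7 (by omega)
      exact h9 (orth_ts_iff.1 h5 v (h11 ▸ h8))
    · intro h1 g h2 h3 _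
      by_contra h5
      push Not at h5
      have h6 : S.TS (fixSp g) := orth_ts_iff.2 h5
      have h7 := h6.two_mul_finrank_le hS
      have h8 := h2.two_mul_le hS
      have h9 := finrank_fix hS g
      have h10 := h1 ((pl_iff hV).2 ⟨_, h6, by omega⟩)
      rw [show finrank F (res g) = d by omega] at h3
      exact Nat.not_even_iff_odd.2 h10 h3
  · refine iff_of_false (fun h1 => ?_) (by simp [hr2])
    have := Fact.mk hr
    have h0 := natCast_ne_zero_of_prime (F := F) 2 hr hr2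
    have h2 := congrArg (Int.cast : ℤ → ZMod r) (orth_cnt_even 1 d hS hV)
    have h3 : (Nat.card F : ZMod r) ≠ 0 := by
      rw [ne_eq, ZMod.natCast_eq_zero_iff]
      exact not_dvd_card hr h0 rfl
    rw [ns_card, ← ZMod.natCast_eq_zero_iff] at h
    obtain ⟨g, h5, h6, h7⟩ := exists_fpf hr hr2 h0 hS hV (by omega) (by
      rw [← pl_iff hV] at h2
      refine mul_left_cancel₀ (pow_ne_zero d h3) ?_
      push_cast at h2
      rw [h, if_neg one_ne_zero, two_mul, pow_add] at h2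
      split_ifs at h2 ⊢ <;> linear_combination -h2)
    obtain ⟨v, h8, h9⟩ := ns_fx.1 ((elu_odd hS h4 (hr.odd_of_ne_two hr2) _).1 h1 g h5 h6)
    exact h9 (h7 v h8 ▸ S.orth_q_zero)

end H21.Eo
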