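import Cfsg.Agent.H11.Om
import Cfsg.Agent.H11.Shp4
import Mathlib.Algebra.QuadraticAlgebra.Basic

/-! Centralizers in orthogonal and conformal orthogonal groups: `symp_sim_det`, `skew_det`, `cent_spin`
(an isometry of Dickson invariant `1` and spinor norm `-1` commuting with a semisimple element of odd order),
`cent_sim` (a commuting similarity with given multiplier), `line` (invariant planes of a self-adjoint square
root of a non-square). -/

set_option autoImplicit false
namespace H21.Og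
open H11 Module Polynomial
open H11.PForm hiding X

universe u
variable {F : Type u} [Field F] {V : Type u} [AddCommGroup V] [Module F V] [FiniteDimensional F V]

theorem symp_sim_det {T : PForm (sympP F) V} (hT : T.Nondeg) {m : ℕ} (hm : finrank F V = 2 * m) {μ : F}
    (hμ : μ ≠ 0) (J : V →ₗ[F] V) (hJ : ∀ x y, T.h (J x) (J y) = μ * T.h x y) : LinearMap.det J = μ ^ m := by
  obtain ⟨e, he⟩ := symp_eqv _ hT (stdSymp_nondeg (F := F) m) hm (finrank_sum_fun m)
  let d : (Fin m ⊕ Fin m → F) →ₗ[F] (Fin m ⊕ Fin m → F) :=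
    Matrix.toLin' (Matrix.diagonal (Sum.elim (fun _ => μ⁻¹) fun _ => 1))
  have hd : ∀ x y, (stdSymp m F).h (d x) (d y) = μ⁻¹ * (stdSymp m F).h x y := fun x y => by
    simp only [stdSymp_h, sympForm_eq, d, Matrix.toLin'_apply, Matrix.mulVec_diagonal, Finset.mul_sum]
    exact Finset.sum_congr rfl fun i _ => by simp; ring
  let D : V →ₗ[F] V := e.symm.toLinearMap ∘ₗ d ∘ₗ e.toLinearMap
  have hD : ∀ x y, T.h (D x) (D y) = μ⁻¹ * T.h x y := fun x y => by
    rw [← he.h_eq, ← he.h_eq x]; simp [D, hd]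
  have h1 : LinearMap.det D = μ⁻¹ ^ m := by
    have := LinearMap.det_conj d e.symm
    simp only [LinearEquiv.symm_symm] at this
    rw [this]; simp [d]
  have h2 : IsIsom T T (J ∘ₗ D) := symp_isIsom fun x y => by
    simp only [LinearMap.comp_apply, hJ, hD]; field_simp
  have h3 : T.detHom (mkIsom hT _ h2) = 1 := E_le_SIsom (hT.symp_E_eq_top ▸ Subgroup.mem_top _)
  have h4 := det_iE (mkIsom hT _ h2)
  rw [h3, show iE (mkIsom hT _ h2) = J ∘ₗ D from LinearMap.ext fun x => by simp, LinearMap.det_comp, h1] at h4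
  rw [inv_pow, Units.val_one] at h4
  exact (mul_inv_eq_one₀ (pow_ne_zero _ hμ)).1 h4

variable {S : PForm (orthP F) V}

theorem skew_det (hS : S.Nondeg) (h2 : (2 : F) ≠ 0) {t : V →ₗ[F] V} (ht : Function.Injective t)
    (hs : ∀ x y, S.h (t x) y = -S.h x (t y)) {m : ℕ} (hm : finrank F V = 2 * m) {μ : F}
    (hμ : μ ≠ 0) (J : V →ₗ[F] V) (hc : ∀ x, J (t x) = t (J x)) (hJ : ∀ x y, S.h (J x) (J y) = μ * S.h x y) :
    LinearMap.det J = μ ^ m := by
  let B : LinearMap.BilinForm F V := (S.h : V →ₗ[F] V →ₗ[F] F) ∘ₗ t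
  have hB : B.IsAlt := fun x => by
    have := hs x x
    rw [orth_symm S (t x) x] at this
    exact (mul_eq_zero.1 (show 2 * S.h (t x) x = 0 by linear_combination this)).resolve_left h2
  refine symp_sim_det (T := sympS B hB) (fun x hx => ht ((hS _ hx).trans (map_zero t).symm)) hm hμ J fun x y => ?_
  show S.h (t (J x)) (J y) = μ * S.h (t x) y
  rw [← hc, hJ]

variable [Finite F]

theorem cent_spin (hS : S.Nondeg) (h2 : (2 : F) ≠ 0) (hn : 2 ≤ finrank F V) {k : S.Isom} {r : ℕ} (hr : Odd r)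
    (h0 : (r : F) ≠ 0) (hk : k ^ r = 1) : ∃ z, z * k = k * z ∧ hS.dick z = 1 ∧ hS.spin z = -1 := by
  classical
  have key : ∀ θ, ∃ c, c * k = k * c ∧ hS.sg θ c = -1 := fun θ => by
    by_contra h
    push Not at h
    have hQ := qt_cls hS (θ := θ) (g := k) fun c hc => (Int.units_eq_one_or _).resolve_right (h c hc)
    obtain ⟨p, _⟩ := CharP.exists F
    have hp := Fact.mk (CharP.char_is_prime F p)
    have h3 := (pow_eq_one_iff_JD p (f := iE k) hr.pos.ne').1 (by rw [← iE_pow, hk, iE_one])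
    have h4 : ordProj[p] r = 1 := by
      rw [Nat.factorization_eq_zero_of_not_dvd (mt (CharP.cast_eq_zero_iff F p r).2 h0), pow_zero]
    have h5 : ∀ x ∈ JD (iE k), x = (1, 1) := fun x hx => by
      have h6 : x.2 = 1 := le_antisymm (h4 ▸ (h3 x hx).2) (JD_pos hx)
      have h7 := hQ.sq h2 (z := x.1) (h6 ▸ hx)
      obtain ⟨j, rfl⟩ := hr
      have h8 := (h3 x hx).1
      rw [pow_succ, pow_mul, h7, one_pow, one_mul] at h8
      exact Prod.ext h8 h6
    have h6 := (hQ.count h2 (i := 0 + 1) ((gd_orth h2).2 Even.zero)).1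
    have h7 := dm_JD (iE k)
    change (JD (iE k)).count _ ≤ 1 at h6
    rw [Multiset.eq_replicate_card.2 h5] at h6 h7
    simp at h6 h7
    omega
  obtain ⟨a, ha, ha'⟩ := key 1
  obtain ⟨b, hb, hb'⟩ := key (-1)
  rcases Int.units_eq_one_or (hS.dick a) with e | e
  · exact ⟨a, ha, e, by rwa [hS.sg_one e] at ha'⟩
  rcases Int.units_eq_one_or (hS.dick b) with e' | e'
  · exact ⟨b, hb, e', by rwa [hS.sg_one e'] at hb'⟩
  rw [hS.sg_neg e, mul_one] at ha'
  rw [hS.sg_neg e', mul_neg, mul_one, neg_inj] at hb'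
  exact ⟨a * b, by rw [mul_assoc, hb, ← mul_assoc, ha, mul_assoc], by simp [e, e'], by simp [ha', hb']⟩

/-- an isometry as an isometry of the scaled form -/
def scI {c : F} (g : S.Isom) : (S.scale c).Isom :=
  ⟨g.1, orth_isIsom (f := g.1.toLinearMap) fun x => by simp⟩

theorem cent_sim (hS : S.Nondeg) (h2 : (2 : F) ≠ 0) {m : ℕ} (hm : finrank F V = 2 * m) {k : S.Isom} {r : ℕ}
    (hr : Odd r) (h0 : (r : F) ≠ 0) (hk : k ^ r = 1) {μ : F} (hμ : μ ≠ 0) : ∃ J : V ≃ₗ[F] V,
      (∀ x, J (k.1 x) = k.1 (J x)) ∧ (∀ x, S.q (J x) = μ * S.q x) ∧ LinearMap.det J.toLinearMap = μ ^ m := by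
  have hk' : iE k ^ r = 1 := by rw [← iE_pow, hk, iE_one]
  have hU := hS.nondeg_res (g := k) (ss_of_pow_eq_one h0 hk')
  have hW := hS.restrict_perp hU
  have hi : ∀ x ∈ res k, k.1 x ∈ res k := by simpa using res_pow_inv k 1
  have hf : ∀ x ∈ S.perp (res k), k.1 x = x := fun x hx => by rwa [hS.perp_res] at hx
  have h3 : iE (rst k _ hi) ^ r = 1 := by
    rw [← iE_pow, show rst k _ hi ^ r = 1 from isom_ext fun x => Subtype.ext (by rw [rst_pow, hk]; rfl), iE_one]
  have h4 : IsUnit (iE (rst k _ hi) - 1) := isUnit_sub_one_iff_fix.2 fun x hx => Subtype.ext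
    (Submodule.disjoint_def.1 ((restrict_nondeg_iff _ _).1 hU) _ x.2 (by
      rw [hS.perp_res]; exact congrArg Subtype.val hx))
  have h5 := isUnit_sq_sub_one hr h3 h4
  obtain ⟨a, ha, ha'⟩ := isim_of_isUnit (hU.scale hμ) hU (g := scI (rst k _ hi)) (k := rst k _ hi) (Sim.refl _) h5
  let t : res k →ₗ[F] res k := iE (rst k _ hi) - iE (rst k _ hi)⁻¹
  have ht : Function.Injective t := by
    have : IsUnit t := by
      have e : t = iE (rst k _ hi)⁻¹ * (iE (rst k _ hi) * iE (rst k _ hi) - 1) := by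
        rw [mul_sub, ← mul_assoc, ← iE_mul, inv_mul_cancel, iE_one, one_mul, mul_one]
      exact e ▸ (isUnit_iE _).mul h5
    exact ((Module.End.isUnit_iff _).1 this).1
  have hs : ∀ x y, (S.restrict (res k)).h (t x) y = -(S.restrict (res k)).h x (t y) := fun x y => by
    simp only [t, LinearMap.sub_apply, map_sub, LinearEquiv.coe_coe, neg_sub]
    rw [isom_h_left (rst k _ hi) x y, isom_h_right (rst k _ hi) x y]
  have h6 : Even (finrank F (res k)) := by
    let B : LinearMap.BilinForm F (res k) := ((S.restrict (res k)).h : _ →ₗ[F] _ →ₗ[F] F) ∘ₗ t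
    have hB : B.IsAlt := fun x => by
      have := hs x x
      rw [orth_symm _ (t x) x] at this
      exact (mul_eq_zero.1 (show 2 * (S.restrict (res k)).h (t x) x = 0 by
        linear_combination this)).resolve_left h2
    exact symp_even _ (S := sympS B hB) (fun x hx => ht ((hU _ hx).trans (map_zero t).symm)) rfl
  obtain ⟨i, hi'⟩ := h6
  have h7 := hS.finrank_perp (res k)
  obtain ⟨j, rfl⟩ : ∃ j, m = i + j := ⟨m - i, by omega⟩
  have h8 : LinearMap.det a.toLinearMap = μ ^ i := by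
    refine skew_det hU h2 ht hs (by omega) hμ _ (fun x => ?_) fun x y => ha.h_eq x y
    have e : ∀ x, a ((rst k _ hi).1 x) = (rst k _ hi).1 (a x) := ha'
    have e' : ∀ x, a ((rst k _ hi)⁻¹.1 x) = (rst k _ hi)⁻¹.1 (a x) := fun x =>
      (rst k _ hi).1.injective (by rw [← e]; simp)
    simp only [t, LinearMap.sub_apply, map_sub, LinearEquiv.coe_coe, e, e']
  obtain ⟨b, hb, h9⟩ : ∃ b : S.perp (res k) ≃ₗ[F] S.perp (res k),
      (∀ x, S.q (b x) = μ * S.q x) ∧ LinearMap.det b.toLinearMap = μ ^ j := by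
    obtain ⟨b, hb⟩ := (hW.eqv_scale ⟨j, by omega⟩ hμ).symm
    have h10 : LinearMap.det b.toLinearMap ^ 2 = (μ ^ j) ^ 2 := by
      let c := Module.finBasis F (S.perp (res k))
      let G := Matrix.of fun i j => (S.restrict (S.perp (res k))).h (c i) (c j)
      have hG := (hW.sqSign_det_gram h2 c).1
      have e : (LinearMap.toMatrix c c b.toLinearMap).transpose * G * LinearMap.toMatrix c c b.toLinearMap =
          μ • G := by
        ext x y
        have := hb.h_eq (c x) (c y)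
        rw [← c.sum_repr (b (c x)), ← c.sum_repr (b (c y))] at this
        simp only [map_sum, map_smul, LinearMap.sum_apply, LinearMap.smul_apply, smul_eq_mul, scale_h,
          map_smulₛₗ, RingHom.id_apply] at this
        simp only [Matrix.mul_apply, Matrix.transpose_apply, LinearMap.toMatrix_apply, G, Matrix.of_apply,
          Matrix.smul_apply, smul_eq_mul, ← this, LinearEquiv.coe_coe, Finset.sum_mul, Finset.mul_sum]
        exact Finset.sum_congr rfl fun _ _ => Finset.sum_congr rfl fun _ _ => by ring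
      have e2 := congrArg Matrix.det e
      rw [Matrix.det_mul, Matrix.det_mul, Matrix.det_transpose, LinearMap.det_toMatrix, Matrix.det_smul,
        Fintype.card_fin] at e2
      rw [← pow_mul, show j * 2 = finrank F (S.perp (res k)) by omega]
      exact mul_right_cancel₀ hG (by rw [← e2]; ring)
    rcases sq_eq_sq_iff_eq_or_eq_neg.1 h10 with e | e
    · exact ⟨b, hb.orth_q, e⟩
    rcases Nat.eq_zero_or_pos j with rfl | hj
    · refine ⟨b, hb.orth_q, ?_⟩
      haveI : Subsingleton (S.perp (res k)) := Module.finrank_zero_iff.1 (show finrank F _ = 0 by omega)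
      rw [show b.toLinearMap = LinearMap.id from Subsingleton.elim _ _, LinearMap.det_id, pow_zero]
    obtain ⟨v, hv⟩ := hW.orth_exists_q_eq (by omega) 1
    refine ⟨((S.restrict _).refl v).1.trans b, fun x => (hb.orth_q _).trans
      (congrArg (μ * ·) (orth_isom_q ((S.restrict _).refl v) x)), ?_⟩
    rw [LinearEquiv.coe_trans, LinearMap.det_comp, e, show LinearMap.det _ = _ from det_iE _,
      det_refl (hv ▸ one_ne_zero)]
    simp
  refine ⟨glueEquiv hU a b, fun x => ?_, fun x => ?_, ?_⟩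
  · obtain ⟨y, hy, w, hw, rfl⟩ := exists_decomp hU x
    rw [map_add, map_add, map_add, map_add, hf w hw, glueEquiv_right hU _ _ ⟨w, hw⟩, hf _ (b _).2,
      glueEquiv_left hU _ _ ⟨y, hy⟩, glueEquiv_left hU _ _ ⟨_, hi y hy⟩]
    exact congrArg (· + _) (congrArg Subtype.val (ha' ⟨y, hy⟩))
  · obtain ⟨y, hy, w, hw, rfl⟩ := exists_decomp hU x
    rw [map_add, glueEquiv_right hU _ _ ⟨w, hw⟩, glueEquiv_left hU _ _ ⟨y, hy⟩, orth_q_add, orth_q_add, hb,
      (b _).2 _ (a _).2, hw y hy, show S.q (a ⟨y, hy⟩) = μ * S.q y from ha.orth_q ⟨y, hy⟩]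
    ring
  · rw [← LinearEquiv.coe_det, det_glueEquiv, Units.val_mul, LinearEquiv.coe_det, LinearEquiv.coe_det, h8, h9,
      pow_add]

section Line
variable {J : V →ₗ[F] V} {δ : F}

variable (S J δ) in
/-- a self-adjoint square root of a non-square -/
structure SR : Prop where
  ns : ¬ IsSquare δ
  sq : ∀ x, J (J x) = δ • x
  sa : ∀ x y, S.h (J x) y = S.h x (J y)

/-- the plane spanned by `v` and `J v` -/
def pln (J : V →ₗ[F] V) (v : V) : Submodule F V := Submodule.span F (Set.range ![v, J v])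

omit [FiniteDimensional F V] [Finite F] in
theorem mem_pln {v x : V} : x ∈ pln J v ↔ ∃ a b : F, a • v + b • J v = x := by
  rw [pln, Matrix.range_cons_cons_empty, Submodule.mem_span_pair]

namespace SR
variable (h : SR S J δ)
include h
omit [FiniteDimensional F V]

omit [Finite F] in
theorem ne : δ ≠ 0 := fun e => h.ns (by simp [e])

theorem two : (2 : F) ≠ 0 := fun e => h.ns (isSquare_of_two_eq_zero e _)

omit [Finite F] in
theorem q_J (h2 : (2 : F) ≠ 0) (x : V) : S.q (J x) = δ * S.q x := mul_left_cancel₀ h2 (by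
  rw [← orth_h_self, h.sa, h.sq, map_smul, orth_h_self, smul_eq_mul]; ring)

omit [Finite F] in
theorem inv_pln (v : V) : ∀ x ∈ pln J v, J x ∈ pln J v := fun x hx => by
  obtain ⟨a, b, rfl⟩ := mem_pln.1 hx
  exact mem_pln.2 ⟨b * δ, a, by simp [h.sq, smul_smul, add_comm]⟩

omit [Finite F] in
theorem inv_perp {U : Submodule F V} (hU : ∀ x ∈ U, J x ∈ U) : ∀ x ∈ S.perp U, J x ∈ S.perp U :=
  fun x hx y hy => by rw [← h.sa]; exact hx _ (hU y hy)

omit [Finite F] in
theorem rst {U : Submodule F V} (hU : ∀ x ∈ U, J x ∈ U) : SR (S.restrict U) (J.restrict hU) δ :=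
  ⟨h.ns, fun x => Subtype.ext (h.sq x), fun x y => h.sa x y⟩

omit [Finite F] in
theorem nrm_ne {a b : F} (hab : a ≠ 0 ∨ b ≠ 0) : δ * a ^ 2 - b ^ 2 ≠ 0 := fun e => by
  by_cases ha : a = 0
  · simp_all
  · exact h.ns ⟨b / a, by field_simp; linear_combination e⟩

omit [Finite F] in
theorem indep {v : V} (hv : v ≠ 0) : LinearIndependent F ![v, J v] := by
  rw [LinearIndependent.pair_iff]
  intro a b e
  have e' : (δ * b ^ 2 - a ^ 2) • v = 0 := by
    have := congrArg J e
    rw [map_add, map_smul, map_smul, h.sq, map_zero] at this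
    have e1 : (δ * b ^ 2 - a ^ 2) • v = b • (a • J v + b • δ • v) - a • (a • v + b • J v) := by module
    rw [e1, this, e]; simp
  by_contra hc
  exact h.nrm_ne (a := b) (b := a) (by tauto) ((smul_eq_zero.1 e').resolve_right hv)

omit [Finite F] in
theorem finrank_pln {v : V} (hv : v ≠ 0) : finrank F (pln J v) = 2 := by
  exact (finrank_span_eq_card (h.indep hv)).trans (Fintype.card_fin 2)

theorem pln_nd [FiniteDimensional F V] {v : V} (hv : 2 * S.q v ≠ 0 ∨ S.h v (J v) ≠ 0) :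
    ∃ hU : (S.restrict (pln J v)).Nondeg, finrank F (pln J v) = 2 ∧
      hU.disc = sqSign (δ * (2 * S.q v) ^ 2 - S.h v (J v) ^ 2) := by
  have h0 : v ≠ 0 := by rintro rfl; simp [orth_q_zero] at hv
  have h1 := h.nrm_ne hv
  have h3 : S.h (J v) (J v) = δ * (2 * S.q v) := by rw [orth_h_self, h.q_J h.two]; ring
  have hU : (S.restrict (pln J v)).Nondeg := (restrict_nondeg_iff' _ _).2 fun x hx hy => by
    obtain ⟨a, b, rfl⟩ := mem_pln.1 hx
    have e1 := hy v (mem_pln.2 ⟨1, 0, by simp⟩)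
    have e2 := hy (J v) (mem_pln.2 ⟨0, 1, by simp⟩)
    simp only [map_add, map_smulₛₗ, LinearMap.add_apply, LinearMap.smul_apply, RingHom.id_apply, smul_eq_mul, h3,
      orth_h_self, orth_symm S v (J v)] at e1 e2
    have ha : a = 0 := (mul_eq_zero.1 (show a * (δ * (2 * S.q v) ^ 2 - S.h v (J v) ^ 2) = 0 by
      linear_combination δ * (2 * S.q v) * e1 - S.h v (J v) * e2)).resolve_right h1
    have hb : b = 0 := (mul_eq_zero.1 (show b * (δ * (2 * S.q v) ^ 2 - S.h v (J v) ^ 2) = 0 by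
      linear_combination (2 * S.q v) * e2 - S.h v (J v) * e1)).resolve_right h1
    simp [ha, hb]
  refine ⟨hU, h.finrank_pln h0, ?_⟩
  obtain ⟨b, b0, b1⟩ : ∃ b : Basis (Fin 2) F (pln J v), (b 0 : V) = v ∧ (b 1 : V) = J v :=
    ⟨Basis.span (h.indep h0), congrArg Subtype.val (Basis.span_apply (h.indep h0) 0),
      congrArg Subtype.val (Basis.span_apply (h.indep h0) 1)⟩
  have := (hU.sqSign_det_gram h.two b).2
  rw [h.finrank_pln h0, Int.units_sq, one_mul, Matrix.det_fin_two] at this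
  rw [← this]
  simp only [Matrix.of_apply, restrict_h, b0, b1, h3, orth_h_self S v, orth_symm S v (J v)]
  congr 1; ring

theorem exists_v [FiniteDimensional F V] (hS : S.Nondeg) (h0 : 0 < finrank F V) : ∃ v, 2 * S.q v ≠ 0 ∨ S.h v (J v) ≠ 0 := by
  by_contra hc
  push Not at hc
  obtain ⟨x, hx⟩ := finrank_pos_iff_exists_ne_zero.1 h0
  refine hx (hS x fun y => ?_)
  have := (hc (x + y)).1
  rw [orth_q_add, mul_add, mul_add, (hc x).1, (hc y).1] at this
  simpa [h.two] using this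

variable [FiniteDimensional F V]

theorem line (hS : S.Nondeg) (h3 : 3 ≤ finrank F V) (ε : ℤˣ) : ∃ (v : V) (hU : (S.restrict (pln J v)).Nondeg),
    finrank F (pln J v) = 2 ∧ hU.disc = ε := by
  have h2 := h.two
  obtain ⟨v, hv⟩ := h.exists_v hS (by omega)
  obtain ⟨hU, h4, -⟩ := h.pln_nd hv
  have h5 := hS.finrank_perp (pln J v)
  obtain ⟨⟨w, hw0⟩, hw⟩ := (h.rst (h.inv_perp (h.inv_pln v))).exists_v (hS.restrict_perp hU) (by omega)
  change 2 * S.q w ≠ 0 ∨ S.h w (J w) ≠ 0 at hw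
  obtain ⟨c, c0, hc⟩ : ∃ c : F, c ≠ 0 ∧ sqSign c = ε := by
    rcases Int.units_eq_one_or ε with rfl | rfl
    · exact ⟨1, one_ne_zero, sqSign_one⟩
    · exact ⟨δ, h.ne, sqSign_eq_neg_one_iff.2 h.ns⟩
  obtain ⟨s, t, hst⟩ := exists_quad_eq h.ne (neg_ne_zero.2 one_ne_zero) c
  haveI : Fact (∀ r : F, r ^ 2 ≠ δ + 0 * r) := ⟨fun r e => h.ns ⟨r, by rw [← pow_two, e]; simp⟩⟩
  haveI : Finite (QuadraticAlgebra F δ 0) := Finite.of_equiv _ (QuadraticAlgebra.equivProd δ 0).symm
  obtain ⟨x, y, e⟩ := exists_quad_eq (F := QuadraticAlgebra F δ 0) (a := ⟨S.h v (J v), 2 * S.q v⟩)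
    (b := ⟨S.h w (J w), 2 * S.q w⟩) (fun e => hv.elim (· (congrArg QuadraticAlgebra.im e))
      (· (congrArg QuadraticAlgebra.re e)))
    (fun e => hw.elim (· (congrArg QuadraticAlgebra.im e)) (· (congrArg QuadraticAlgebra.re e))) ⟨t, s⟩
  have e1 := congrArg QuadraticAlgebra.re e
  have e2 := congrArg QuadraticAlgebra.im e
  simp [pow_two] at e1 e2
  have o1 : S.h v w = 0 := hw0 v (mem_pln.2 ⟨1, 0, by simp⟩)
  have o2 : S.h (J v) w = 0 := hw0 _ (mem_pln.2 ⟨0, 1, by simp⟩)
  have o3 : S.h v (J w) = 0 := by rw [← h.sa, o2]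
  have o4 : S.h (J v) (J w) = 0 := by rw [← h.sa, h.sq]; simp [o1]
  have s1 := orth_symm S v w
  have s2 := orth_symm S (J v) w
  have s3 := orth_symm S v (J w)
  have s4 := orth_symm S (J v) (J w)
  have s5 := orth_symm S v (J v)
  have s6 := orth_symm S w (J w)
  let u := x.re • v + x.im • J v + (y.re • w + y.im • J w)
  have q1 : 2 * S.q u = s := by
    simp only [u, ← orth_h_self, map_add, map_smulₛₗ, LinearMap.add_apply, LinearMap.smul_apply, RingHom.id_apply,
      smul_eq_mul, map_smul, o1, o2, o3, o4, s1, s2, s3, s4, s5, s6]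
    simp only [orth_h_self, h.q_J h2]
    linear_combination e2
  have q2 : S.h u (J u) = t := by
    simp only [u, h.sq, map_add, map_smulₛₗ, LinearMap.add_apply, LinearMap.smul_apply, RingHom.id_apply,
      smul_eq_mul, map_smul, o1, o2, o3, o4, s1, s2, s3, s4, s5, s6]
    simp only [orth_h_self, h.q_J h2]
    linear_combination e1
  obtain ⟨hu, h6, h7⟩ := h.pln_nd (v := u) (by
    rw [q1, q2]; by_contra hc'; push Not at hc'; simp [hc'.1, hc'.2] at hst; exact c0 hst.symm)
  exact ⟨u, hu, h6, h7.trans (by rw [q1, q2, ← hc, ← hst]; congr 1; ring)⟩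

theorem cent_spin (hS : S.Nondeg) (h3 : 3 ≤ finrank F V) :
    ∃ z : S.Isom, (∀ x, z.1 (J x) = J (z.1 x)) ∧ hS.dick z = 1 ∧ hS.spin z = -1 := by
  obtain ⟨v, hU, h4, h5⟩ := h.line hS h3 (-1)
  refine ⟨ext1 hU (negOne _), fun x => ?_, ?_, ?_⟩
  · obtain ⟨y, hy, w, hw, rfl⟩ := exists_decomp hU x
    rw [map_add, map_add, map_add, map_add, ext1_right _ _ hw, ext1_right _ _ (h.inv_perp (h.inv_pln v) w hw),
      ext1_left hU _ ⟨y, hy⟩, ext1_left hU _ ⟨_, h.inv_pln v y hy⟩]
    simp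
  · rw [hS.dick_ext1, hU.dick_negOne h.two, h4]; simp
  · rw [hS.spin_ext1]; exact h5

end SR
end Line

end H21.Og
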