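import Cfsg.Agent.H21.Eo6
import Cfsg.Agent.H21.Og1
import Cfsg.Agent.H20.El9

/-! Orthogonal groups and quadratic field extension subgroups of orthogonal type: projective involutions
(`sr_two`), elements of odd prime order (`sr_p`, `fld_odd`), and the matrix statement `fld_main`. -/

set_option autoImplicit false
namespace H21.Eo
open H11 Module Polynomial H20.El H21.Og
open H11.PForm hiding X

universe u
variable {F : Type u} [Field F] {V : Type u} [AddCommGroup V] [Module F V] {S : PForm (orthP F) V}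
  {J : V →ₗ[F] V} {δ : F}

/-- `g` commutes with `J` up to the factor `ε` -/
def Cm (J : V →ₗ[F] V) (ε : F) (g : S.Isom) : Prop := ∀ x, g.1 (J x) = ε • J (g.1 x)

theorem Cm.mul {a b : F} {g k : S.Isom} (h : Cm J a g) (h' : Cm J b k) : Cm J (b * a) (g * k) := fun x => by
  rw [isom_mul_apply, h', map_smul, h, smul_smul]; rfl

theorem Cm.inv {g : S.Isom} (h : Cm J 1 g) : Cm J 1 g⁻¹ := fun x => g.1.injective (by
  rw [one_smul, h, one_smul, isom_apply_inv_self, isom_apply_inv_self])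

theorem Cm.pow {a : F} {g : S.Isom} (h : Cm J a g) (n : ℕ) : Cm J (a ^ n) (g ^ n) := by
  induction n with
  | zero => exact fun x => by simp
  | succ n ih => rw [pow_succ g, pow_succ']; exact ih.mul h

theorem Cm.odd (h : SR S J δ) (h2 : (2 : F) ≠ 0) [Nontrivial V] {g : S.Isom} {r : ℕ} (hr : Odd r) (h1 : g ^ r = 1) :
    ¬ Cm J (-1) g := fun h3 => by
  obtain ⟨v, hv⟩ := exists_ne (0 : V)
  have h4 := h3.pow r (J v)
  rw [h1, hr.neg_one_pow, h.sq, isom_one_apply, isom_one_apply, h.sq, neg_one_smul, eq_neg_iff_add_eq_zero,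
    ← two_smul F, smul_smul, smul_eq_zero] at h4
  exact h4.elim (mul_ne_zero h2 h.ne) hv

variable [FiniteDimensional F V]

theorem cm_glue (h : SR S J δ) {U : Submodule F V} (hU : (S.restrict U).Nondeg) (hJ : ∀ x ∈ U, J x ∈ U) {ε : F}
    {a : (S.restrict U).Isom} {b : (S.restrict (S.perp U)).Isom} (ha : Cm (J.restrict hJ) ε a)
    (hb : Cm (J.restrict (h.inv_perp hJ)) ε b) : Cm J ε (glue hU (a, b)) := fun x => by
  obtain ⟨y, hy, w, hw, rfl⟩ := exists_decomp hU x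
  have h1 := congrArg Subtype.val (ha ⟨y, hy⟩)
  have h2 := congrArg Subtype.val (hb ⟨w, hw⟩)
  rw [map_add, map_add, map_add, map_add, smul_add, glue_left hU _ ⟨y, hy⟩, glue_right hU _ ⟨w, hw⟩,
    glue_left hU _ ⟨_, hJ y hy⟩, glue_right hU _ ⟨_, h.inv_perp hJ w hw⟩]
  exact congrArg₂ _ h1 h2

theorem sr_plane (h : SR S J δ) (hS : S.Nondeg) (h2 : (2 : F) ≠ 0) (hV : finrank F V = 2) {y : S.Isom}
    (hy : y * y = S.negOne) : Cm J (-1) y := fun x => by
  by_cases hx : x = 0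
  · simp [hx]
  have h1 : ∀ a z, S.h (y.1 a) z = -S.h a (y.1 z) := fun a z => by
    rw [← isom_h y, neg_apply hy]; simp
  rw [neg_one_smul, eq_neg_iff_add_eq_zero]
  refine hS _ fun z => ?_
  obtain ⟨a, b, rfl⟩ := mem_pln.1 (Submodule.eq_top_of_finrank_eq ((h.finrank_pln hx).trans hV.symm) ▸
    Submodule.mem_top : z ∈ pln J x)
  have h3 : S.h (y.1 (J x) + J (y.1 x)) x = 0 := by
    rw [map_add, LinearMap.add_apply, h1, h.sa (y.1 x), orth_symm S (J x)]; simp
  have h4 : S.h (y.1 (J x) + J (y.1 x)) (J x) = 0 := by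
    rw [map_add, LinearMap.add_apply, h1, neg_h h2 hy, h.sa, h.sq, map_smul, h1, neg_h h2 hy]; simp
  rw [map_add, map_smul, map_smul, h3, h4]; simp

variable [Finite F]

theorem sr_sub {k : ℕ} (hk : 0 < k) (ε : ℤˣ) (j : ℕ) : ∀ {V : Type u} [AddCommGroup V] [Module F V]
    [FiniteDimensional F V] {S : PForm (orthP F) V} {J : V →ₗ[F] V}, SR S J δ → S.Nondeg →
    finrank F V = 2 * k + 2 * (j + 1) → ∃ (U : Submodule F V) (hU : (S.restrict U).Nondeg),
      finrank F U = 2 * k ∧ hU.disc = ε ∧ ∀ x ∈ U, J x ∈ U := by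
  induction j with
  | zero =>
    intro V _ _ _ S J h hS hV
    obtain ⟨v, hU, h1, h2⟩ := h.line hS (by omega) (hS.disc * ε)
    have h3 := hS.finrank_perp (pln J v)
    have h4 := hS.disc_eq_mul hU
    rw [h2, mul_assoc, left_eq_mul, mul_eq_one_iff_eq_inv', Int.units_inv_eq_self] at h4
    exact ⟨_, hS.restrict_perp hU, by omega, h4, h.inv_perp (h.inv_pln v)⟩
  | succ j ih =>
    intro V _ _ _ S J h hS hV
    obtain ⟨v, hU, h1, -⟩ := h.line hS (by omega) 1
    have h3 := hS.finrank_perp (pln J v)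
    obtain ⟨U, h4, h5, h6, h7⟩ := ih (h.rst (h.inv_perp (h.inv_pln v))) (hS.restrict_perp hU) (by omega)
    have h8 := eqv_map_subtype (S := S) _ U
    refine ⟨_, h8.nondeg h4, h8.finrank_eq.symm.trans h5, (h8.disc_eq h4 _).symm.trans h6, ?_⟩
    rintro _ ⟨x, hx, rfl⟩
    exact ⟨_, h7 x hx, rfl⟩

theorem sr_anti (m : ℕ) : ∀ {V : Type u} [AddCommGroup V] [Module F V]
    [FiniteDimensional F V] {S : PForm (orthP F) V} {J : V →ₗ[F] V}, SR S J δ → ∀ hS : S.Nondeg,
    finrank F V = 2 * (m + 1) → hS.disc = 1 → ∃ y ρ : S.Isom, y * y = S.negOne ∧ Cm J (-1) y ∧ hS.dick ρ = -1 ∧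
      Cm J (-1) (ρ⁻¹ * y * ρ) := by
  induction m with
  | zero =>
    intro V _ _ _ S J h hS hV h1
    obtain ⟨y, hy⟩ := exists_neg hS h.two ⟨1, hV⟩ h1
    have := nontrivial_of_finrank_pos (show 0 < finrank F V by omega)
    obtain ⟨w, hw⟩ := hS.orth_exists_q_ne
    refine ⟨y, S.refl w, hy, sr_plane h hS h.two hV hy, hS.dick_refl hw, sr_plane h hS h.two hV ?_⟩
    rw [show ∀ a : S.Isom, a⁻¹ * y * a * (a⁻¹ * y * a) = a⁻¹ * (y * y) * a from fun a => by group, hy, mul_assoc,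
      (negOne_comm _).eq, inv_mul_cancel_left]
  | succ m ih =>
    intro V _ _ _ S J h hS hV h1
    obtain ⟨v, hU, h2, h3⟩ := h.line hS (by omega) 1
    have h4 := hS.finrank_perp (pln J v)
    have h5 := hS.disc_eq_mul hU
    rw [h1, h3, one_mul] at h5
    obtain ⟨a, ha⟩ := exists_neg hU h.two ⟨1, h2⟩ h3
    have h6 := sr_plane (h.rst (h.inv_pln v)) hU h.two h2 ha
    obtain ⟨b, ρ, h7, h8, h9, h10⟩ := ih (h.rst (h.inv_perp (h.inv_pln v))) (hS.restrict_perp hU) (by omega) h5.symm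
    refine ⟨glue hU (a, b), glue hU (1, ρ), by rw [← map_mul, Prod.mk_mul_mk, ha, h7, glue_negOne],
      cm_glue h hU _ h6 h8, by rw [hS.dick_glue, map_one, one_mul, h9], ?_⟩
    rw [← map_inv, ← map_mul, ← map_mul, Prod.inv_mk, Prod.mk_mul_mk, Prod.mk_mul_mk, inv_one, one_mul, mul_one]
    exact cm_glue h hU _ h6 h10

theorem neg_conj (hS : S.Nondeg) (h2 : (2 : F) ≠ 0) {x y : S.Isom} (hx : x * x = S.negOne) (hy : y * y = S.negOne) :
    IsConj x y := by
  have h1 : ∀ {x : S.Isom}, x * x = S.negOne → iE x ^ 2 = (-1 : F) • 1 := fun {x} hx => by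
    rw [← iE_pow, pow_two, hx]; ext; simp
  have h := h1 hx
  have h5 := h1 hy
  refine isim_iff_isConj.1 (isim_of_isUnit hS hS (sim_iff_ED.2 ?_) ?_)
  · by_cases h6 : ∃ μ : F, μ ^ 2 = -1
    · obtain ⟨μ, h6⟩ := h6
      obtain ⟨k, h7, h8⟩ := ED_eig hS (h6 ▸ h) h2 ((sq μ).symm.trans h6)
      obtain ⟨l, h9, h10⟩ := ED_eig hS (h6 ▸ h5) h2 ((sq μ).symm.trans h6)
      rw [h8, h10, show k = l by omega]
    · have h7 := (X_pow_sub_C_irreducible_iff_of_prime Nat.prime_two).2 (not_exists.1 h6)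
      obtain ⟨-, k, h8, h9, -⟩ := irr_spec two_ne_zero h7 h
      obtain ⟨-, l, h10, h11, -⟩ := irr_spec two_ne_zero h7 h5
      rw [h8, h10, show k = l by omega]
  · rw [← pow_two, h, show (-1 : F) • (1 : End F V) - 1 = algebraMap F _ (-2) by
      rw [Algebra.algebraMap_eq_smul_one]; module]
    exact (Ne.isUnit (neg_ne_zero.2 h2)).map _

theorem sr_two (h : SR S J δ) (hS : S.Nondeg) {d : ℕ} (hV : finrank F V = 2 * d) (hd : 2 ≤ d) {g : S.Isom}
    (hg : g ∈ commutator S.Isom) (h1 : g ^ 2 = 1 ∨ g ^ 2 = S.negOne) (h3 : g ≠ 1) (h4 : g ≠ S.negOne) :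
    ∃ c ∈ commutator S.Isom, Cm J 1 (c⁻¹ * g * c) ∨ Cm J (-1) (c⁻¹ * g * c) := by
  have h2 := h.two
  suffices ∃ c, hS.dick c = 1 ∧ ∃ ε, (ε = 1 ∨ ε = -1) ∧ Cm J ε (c⁻¹ * g * c) by
    obtain ⟨c, h5, ε, h6, h7⟩ := this
    suffices ∃ c ∈ commutator S.Isom, Cm J ε (c⁻¹ * g * c) by
      obtain ⟨c, h8, h9⟩ := this
      exact ⟨c, h8, h6.imp (fun e => by rwa [← e]) fun e => by rwa [← e]⟩
    rcases Int.units_eq_one_or (hS.spin c) with h8 | h8
    · exact ⟨c, (hS.mem_commutator_iff (notO4_of_two_ne h2) c).2 ⟨h5, h8⟩, h7⟩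
    · obtain ⟨z, h9, h10, h11⟩ := h.cent_spin hS (by omega)
      have h12 : Cm J 1 z := fun x => by rw [h9, one_smul]
      refine ⟨c * z, (hS.mem_commutator_iff (notO4_of_two_ne h2) _).2 ⟨by simp [h5, h10], by simp [h8, h11]⟩, ?_⟩
      have := (h12.inv.mul h7).mul h12
      rwa [one_mul, mul_one, show z⁻¹ * (c⁻¹ * g * c) * z = (c * z)⁻¹ * g * (c * z) by group] at this
  rcases h1 with h1 | h1
  · obtain ⟨hR, -, ⟨k, h5⟩, h6, h7⟩ := inv_spec hS h2 h1 hg h3
    have h8 : finrank F (res g) < finrank F V := lt_of_le_of_ne (res g).finrank_le fun e => h4 (isom_ext fun x => by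
      rw [inv_res h1 (Submodule.eq_top_of_finrank_eq e ▸ Submodule.mem_top), negOne_apply])
    obtain ⟨U, hU, h9, h10, h11⟩ := sr_sub (k := k) (by omega) 1 (d - k - 1) h hS (by omega)
    obtain ⟨e, he⟩ := orth_eqv_of_disc h2 _ hU hR rfl (by omega) (h10.trans h7.symm)
    obtain ⟨c, hc⟩ := hS.witt_subspace U ((res g).subtype ∘ₗ e.toLinearMap)
      ((res g).injective_subtype.comp e.injective) (orth_isIsom fun x => he.orth_q x)
    have h12 : c⁻¹ * g * c = glue hU (negOne _, 1) := isom_ext_perp hU (fun x hx => by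
      rw [glue_left hU _ ⟨x, hx⟩, isom_mul_apply, isom_mul_apply, inv_res h1 (hc ⟨x, hx⟩ ▸ (e ⟨x, hx⟩).2), map_neg,
        isom_inv_apply_self]; simp) fun x hx => by
      have : c.1 x ∈ S.perp (res g) := fun y hy => by
        obtain ⟨y, rfl⟩ : ∃ z : U, c.1 z = y := ⟨e.symm ⟨y, hy⟩, by rw [hc]; simp⟩
        rw [isom_h]; exact hx _ y.2
      rw [glue_right hU _ ⟨x, hx⟩, isom_mul_apply, isom_mul_apply, (mem_fixSp (g := g)).1 (hS.perp_res g ▸ this),
        isom_inv_apply_self]; simp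
    have h13 : Cm J 1 (c⁻¹ * g * c) := h12 ▸ cm_glue h hU h11 (fun x => by simp) fun x => by simp
    rcases Int.units_eq_one_or (hS.dick c) with h14 | h14
    · exact ⟨c, h14, 1, .inl rfl, h13⟩
    · obtain ⟨w, hw, h15⟩ := orth_exists_q_ne_mem hR (by omega)
      have h16 : g * S.refl w = S.refl w * g := isom_ext fun x => by
        have := isom_h g w x
        rw [inv_res h1 hw, map_neg, LinearMap.neg_apply] at this
        rw [isom_mul_apply, isom_mul_apply, refl_apply, refl_apply, map_sub, map_smul, inv_res h1 hw, ← this]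
        module
      refine ⟨S.refl w * c, by simp [h14, hS.dick_refl h15], 1, .inl rfl, ?_⟩
      rwa [show (S.refl w * c)⁻¹ * g * (S.refl w * c) = c⁻¹ * ((S.refl w)⁻¹ * (g * S.refl w)) * c by group, h16,
        inv_mul_cancel_left]
  · rw [pow_two] at h1
    obtain ⟨y, ρ, h5, h6, h7, h8⟩ := sr_anti (d - 1) h hS (by omega) (neg_disc hS h2 h1).2
    obtain ⟨c, rfl⟩ := isConj_iff.1 (neg_conj hS h2 h5 h1)
    rcases Int.units_eq_one_or (hS.dick c) with h9 | h9
    · exact ⟨c, h9, -1, .inr rfl, by simpa [mul_assoc] using h6⟩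
    · exact ⟨c * ρ, by simp [h9, h7], -1, .inr rfl, by simpa [mul_assoc] using h8⟩

theorem sr_p (h : SR S J δ) (hS : S.Nondeg) (h3 : 3 ≤ finrank F V) (p : ℕ) [CharP F p] :
    ∃ x : S.Isom, x ^ p = 1 ∧ x ≠ 1 ∧ ∀ c, ¬ Cm J 1 (c⁻¹ * x * c) := by
  obtain ⟨u, hu, h1⟩ := orth_exists_sing S h3
  obtain ⟨w, hw, h4⟩ : ∃ w ∈ S.perp (F ∙ u), S.q w ≠ 0 := by
    by_contra hc
    push Not at hc
    have := (orth_ts_iff.2 hc).two_mul_finrank_le hS
    have := hS.finrank_perp (F ∙ u)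
    rw [finrank_span_singleton hu] at this
    omega
  rw [mem_perp_singleton] at hw
  have h5 : ∀ n : ℕ, S.eich u w (S.q w) ^ n = S.eich u ((n : F) • w) (S.q ((n : F) • w)) := fun n => by
    induction n with
    | zero => simp [orth_q_zero, eich_zero]
    | succ n ih => rw [pow_succ, ih, Nat.cast_succ, add_smul, one_smul, orth_eich_add h1 (by simp [hw]) hw]
  have h6 := eich_apply (ECond.of_q ((orth_sing S u).2 h1) hw)
  have h7 : S.h u u = 0 := by rw [orth_h_self, h1, mul_zero]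
  have h8 : S.h w u = 0 := by rw [orth_symm, hw]
  have h9 : ∀ z, (S.eich u w (S.q w)).1 ((S.eich u w (S.q w)).1 z - z) - ((S.eich u w (S.q w)).1 z - z) =
      (-(2 * S.q w) * S.h u z) • u := fun z => by
    rw [h6 (_ - z), h6 z]
    simp only [add_sub_cancel_left, sub_sub_cancel_left, map_sub, map_add, map_smul, hw, h7, h8, orth_h_self, smul_eq_mul, orthP]
    module
  obtain ⟨z, hz⟩ := hS.exists_h_eq_one hu
  have h10 : -(2 * S.q w) ≠ 0 := neg_ne_zero.2 (mul_ne_zero h.two h4)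
  refine ⟨S.eich u w (S.q w), by rw [h5]; simp [orth_q_zero, eich_zero], fun e => ?_, fun c hc => ?_⟩
  · have := h9 z
    rw [e, hz, mul_one] at this
    exact smul_ne_zero h10 hu (by simpa using this.symm)
  · set y := c⁻¹ * S.eich u w (S.q w) * c
    have h11 : ∀ z, y.1 (y.1 z - z) - (y.1 z - z) = (-(2 * S.q w) * S.h u (c.1 z)) • (c⁻¹).1 u := fun z => by
      rw [← map_smul, ← h9]
      simp [y]
    have h12 := h11 (J ((c⁻¹).1 z))
    have h13 := congrArg J (h11 ((c⁻¹).1 z))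
    simp only [map_sub, hc _, one_smul] at h12 h13
    rw [h12, isom_apply_inv_self, hz, mul_one, map_smul, mul_smul] at h13
    have h14 := smul_right_injective V h10 h13
    have h15 := (LinearIndependent.pair_iff.1 (h.indep (v := (c⁻¹).1 u) (by simpa using hu))
      (S.h u (c.1 (J ((c⁻¹).1 z)))) (-1) (by rw [neg_one_smul, ← sub_eq_add_neg, sub_eq_zero]; exact h14)).2
    exact one_ne_zero (neg_eq_zero.1 h15)

theorem relIndex_dvd {G : Type*} [Group G] [Finite G] (C N : Subgroup G) [N.Normal] : C.relIndex N ∣ C.index := by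
  obtain ⟨w, hw⟩ := Subgroup.relIndex_dvd_index_of_normal N C
  have h1 := Subgroup.relIndex_mul_index (inf_le_right : C ⊓ N ≤ N)
  have h2 := Subgroup.relIndex_mul_index (inf_le_left : C ⊓ N ≤ C)
  rw [Subgroup.inf_relIndex_right, hw] at h1
  rw [Subgroup.inf_relIndex_left, ← h1, mul_left_comm] at h2
  exact ⟨w, Nat.eq_of_mul_eq_mul_left (Nat.pos_of_ne_zero Subgroup.index_ne_zero_of_finite) h2⟩

section Ext
variable {K : Type u} [Field K] [Algebra F K] [Module K V] [IsScalarTower F K V] [Finite K]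

theorem fld_odd (hK : finrank F K = 2) (hS : S.Nondeg) (hsa : ∀ (k : K) x y, S.h (k • x) y = S.h x (k • y))
    (h2 : (2 : F) ≠ 0) (hV : 0 < finrank F V) {r : ℕ} (hr : r.Prime) (hr2 : r ≠ 2) (h0 : (r : F) ≠ 0)
    {N : Subgroup S.Isom} (hN : ∀ g : S.Isom, (∀ (k : K) x, g.1 (k • x) = k • g.1 x) → g ∈ N)
    (hΩ : r ∣ N.relIndex (commutator S.Isom)) : ∃ x : S.Isom, x ^ r = 1 ∧ x ≠ 1 ∧
      ∀ c : S.Isom, ¬ ∀ (k : K) v, (c⁻¹ * x * c).1 (k • v) = k • (c⁻¹ * x * c).1 v := by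
  have : FiniteDimensional K V := .of_restrictScalars_finite F K V
  have : Finite V := Module.finite_of_finite F
  have ht := Algebra.trace_ne_zero F K
  have k2 : (2 : K) ≠ 0 := by rw [← map_ofNat (algebraMap F K) 2]; exact (_root_.map_ne_zero _).2 h2
  have k0 : (r : K) ≠ 0 := by rw [← map_natCast (algebraMap F K) r]; exact (_root_.map_ne_zero _).2 h0
  obtain ⟨B, hB⟩ := H29.exists_lift_form ht S.h (RingHom.id K) hsa
  have hs : ∀ x y, B y x = B x y := fun x y => H29.eq_of_dual ht fun k => by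
    rw [← smul_eq_mul, ← smul_eq_mul, ← map_smul, ← map_smul, hB, hB, orth_symm, hsa]
  let U : PForm (orthP K) V :=
    { h := B, q := fun x => 2⁻¹ * B x x
      symm := fun x y => by simp [orthP, hs x y]
      q_add := fun x y => by
        simp only [orthP, AddSubgroup.mem_bot, map_add, LinearMap.add_apply, hs x y]; field_simp; ring
      q_smul := fun a x => by simp [orthP]; ring
      h_self := fun x => by simp only [orthP, RingHom.id_apply]; field_simp; ring }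
  have h1 : U.Nondeg := fun x h => hS x fun y => by rw [← hB, show B x y = 0 from h y, map_zero]
  have h3 : ∀ g : U.Isom, IsIsom S S g.1 := fun g => orth_isIsom (f := g.1.toLinearMap.restrictScalars F) fun x =>
    mul_left_cancel₀ h2 (by rw [← orth_h_self, ← orth_h_self, ← hB, ← hB]; exact congrArg _ (isom_h g x x))
  have h4 : ∀ f : V →ₗ[K] V, IsIsom S S f → IsIsom U U f := fun f h => orth_isIsom fun x =>
    congrArg (2⁻¹ * ·) (H29.eq_of_dual ht fun k => by
      rw [← smul_eq_mul, ← smul_eq_mul, ← map_smul, ← map_smul, ← map_smul, hB, hB, h.h_eq])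
  have h5 := finrank_mul_finrank F K V
  rw [hK] at h5
  have h6 : Nat.card K = Nat.card F ^ 2 := by rw [Module.natCard_eq_pow_finrank (K := F), hK]
  obtain ⟨i, hi⟩ : ∃ i, i = orderOf (Nat.card F : ZMod r) := ⟨_, rfl⟩
  obtain ⟨c, hc⟩ : ∃ c, c = if Even i then i else 2 * i := ⟨_, rfl⟩
  obtain ⟨i', hi'⟩ : ∃ i, i = orderOf (Nat.card K : ZMod r) := ⟨_, rfl⟩
  obtain ⟨c', hc'⟩ : ∃ c, c = if Even i' then i' else 2 * i' := ⟨_, rfl⟩
  have h7 : c' = c ∨ 2 * c' = c := by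
    rw [h6, Nat.cast_pow, orderOf_pow' _ two_ne_zero, ← hi] at hi'
    rcases Nat.even_or_odd' i with ⟨j, rfl | rfl⟩
    · rw [Nat.gcd_eq_right (dvd_mul_right 2 j), Nat.mul_div_cancel_left _ two_pos] at hi'
      rw [hc, hc', hi', if_pos (even_two_mul j)]
      split_ifs <;> simp
    · rw [(Nat.coprime_two_right.2 (odd_two_mul_add_one j)).gcd_eq_one, Nat.div_one] at hi'
      exact .inl (by rw [hc, hc', hi'])
  have h8 := c_pos hr h0 hi hc
  have h9 : 1 < Nat.card F ^ c := Nat.one_lt_pow h8.ne' Finite.one_lt_card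
  have h10 : r ∣ (resI U S h3).range.index := (hΩ.trans (Subgroup.relIndex_dvd_of_le_left _ (by
    rintro _ ⟨g, rfl⟩; exact hN _ (map_smul g.1)))).trans (relIndex_dvd _ _)
  have h11 := (resI U S h3).range.index_mul_card
  have h12 := rv_card hr hr2 h0 hi hc hS hV
  have key : ∀ t, 0 < t → t ≤ mx c (Odd i) (finrank F V) (Pl S) →
      (∀ t' ≤ mx c' (Odd i') (finrank K V) (Pl U), t * c ≠ 2 * (t' * c')) → ∃ x : S.Isom, x ^ r = 1 ∧ x ≠ 1 ∧
      ∀ c : S.Isom, ¬ ∀ (k : K) v, (c⁻¹ * x * c).1 (k • v) = k • (c⁻¹ * x * c).1 v := fun t t0 t1 t2 => by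
    obtain ⟨s, s1, s2, s3⟩ := exists_sh hr hr2 h0 hi hc t
    obtain ⟨x, rfl, x1, x2⟩ := exists_elt hr hr2 h0 hi hc hS hV s1 s2 s3 t0 t1
    refine ⟨x, x1, x2, fun g hg => ?_⟩
    obtain ⟨y, hy⟩ : ∃ y : U.Isom, resI U S h3 y = g⁻¹ * x * g := ⟨⟨{ (g⁻¹ * x * g).1 with map_smul' := hg }, h4 _ (g⁻¹ * x * g).2⟩, rfl⟩
    have y1 : y ^ r = 1 := resI_injective U S h3 (by
      rw [map_pow, hy, map_one, ← MulAut.conj_inv_apply, ← map_pow, x1, map_one])
    obtain ⟨-, y2, y3⟩ := ned_spec hr k0 h1 y1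
    obtain ⟨t', y4, -⟩ := shape hr hr2 k0 hi' hc' y2 y3
    have y5 := (fix_num hr hr2 k0 hi' hc' h1 y1 y4).1
    have y6 := (fix_num hr hr2 h0 hi hc hS x1 s3).1
    have y7 := finrank_fix hS x
    have y8 := finrank_fix h1 y
    have y9 : finrank F (res (resI U S h3 y)) = finrank F K * finrank K (res y) := (finrank_mul_finrank F K (res y)).symm
    rw [hy, hK, ← finrank_res_of_isConj (isConj_iff.2 ⟨g⁻¹, by rw [inv_inv]⟩ : IsConj x _)] at y9
    exact t2 t' ((real_iff hr hr2 k0 hi' hc' h1 (by omega) y2 y3 y4).1 ⟨y, rfl⟩) (by omega)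
  rcases h7 with h7 | h7
  · refine key 1 one_pos (lt_of_rv hr h9 h11 (one_dvd _) h12 (by simpa [gO] using Rv.refl hr 1) h10) fun t' _ e => ?_
    rw [h7, ← mul_assoc] at e
    have := Nat.eq_of_mul_eq_mul_right h8 e
    omega
  · have h13 := rv_card hr hr2 k0 hi' hc' h1 (by omega)
    rw [h6, ← pow_mul, h7, Nat.card_congr (MonoidHom.ofInjective (resI_injective U S h3)).toEquiv] at h13
    have h14 := lt_of_rv hr h9 h11 dvd_rfl h12 h13 h10
    refine key _ (by omega) le_rfl fun t' h15 e => ?_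
    rw [mul_left_comm, h7] at e
    have := Nat.eq_of_mul_eq_mul_right h8 e
    omega

omit [Finite F] [Finite K] in
theorem exists_j (hK : finrank F K = 2) (h2 : (2 : F) ≠ 0) : ∃ (j : K) (δ : F), ¬ IsSquare δ ∧
    j * j = algebraMap F K δ ∧ ∀ k : K, ∃ a b : F, k = algebraMap F K a + b • j := by
  have := Module.finite_of_finrank_pos (show 0 < finrank F K by omega)
  obtain ⟨a, ha⟩ := H29.exists_notMem_line (K := F) (V := K) (by omega) 1
  have h1 : LinearIndependent F ![(1 : K), a] := (LinearIndependent.pair_iff' one_ne_zero).2 fun c e =>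
    ha (Submodule.mem_span_singleton.2 ⟨c, e⟩)
  have h3 : ∀ k : K, ∃ s t : F, s • (1 : K) + t • a = k := fun k => by
    have := h1.span_eq_top_of_card_eq_finrank (by simp [hK]) ▸ Submodule.mem_top (x := k)
    rwa [Matrix.range_cons_cons_empty, Submodule.mem_span_pair] at this
  obtain ⟨s, t, h4⟩ := h3 (a * a)
  have h5 : (a - algebraMap F K (t / 2)) * (a - algebraMap F K (t / 2)) = algebraMap F K (s + (t / 2) ^ 2) := by
    have : t = 2 * (t / 2) := by field_simp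
    generalize t / 2 = u at this ⊢
    subst this
    simp only [Algebra.smul_def, map_mul, map_add, map_pow, map_ofNat] at h4 ⊢
    linear_combination -h4
  refine ⟨_, _, fun hs => ha ?_, h5, fun k => ?_⟩
  · obtain ⟨e, he⟩ := hs
    rw [he, map_mul, mul_self_eq_mul_self_iff] at h5
    refine Submodule.mem_span_singleton.2 (h5.elim (fun h => ⟨e + t / 2, ?_⟩) fun h => ⟨-e + t / 2, ?_⟩) <;>
      simp only [Algebra.smul_def, map_add, map_neg] <;> linear_combination -h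
  · obtain ⟨x, y, rfl⟩ := h3 k
    exact ⟨x + y * (t / 2), y, by simp only [Algebra.smul_def, map_add, map_mul]; ring⟩

theorem fld_abs (p : ℕ) [Fact p.Prime] [CharP F p] (hK : finrank F K = 2) (hS : S.Nondeg)
    (hsa : ∀ (k : K) x y, S.h (k • x) y = S.h x (k • y)) (h2 : (2 : F) ≠ 0) {d : ℕ} (hV : finrank F V = 2 * d)
    (hd : 2 ≤ d) {r : ℕ} (hr : r.Prime) {N : Subgroup S.Isom}
    (hN : ∀ g ∈ N, ∀ k : K, ∃ l : K, ∀ x, g.1 (k • x) = l • g.1 x)
    (hN' : ∀ g : S.Isom, (∀ (n : ℕ) (k : K), ∃ l : K, ∀ x, (g ^ n).1 (k • x) = l • (g ^ n).1 x) → g ∈ N)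
    (hΩ : r ∣ N.relIndex (commutator S.Isom)) :
    (∀ x ∈ commutator S.Isom, (∃ z : F, iE x ^ r = z • 1) → (∀ z : F, iE x ≠ z • 1) →
      ∃ g ∈ commutator S.Isom, g⁻¹ * x * g ∈ N) ↔ r = 2 := by
  have := nontrivial_of_finrank_pos (show 0 < finrank F V by omega)
  obtain ⟨j, δ, h1, h3, h4⟩ := exists_j (K := K) hK h2
  let J : V →ₗ[F] V := DistribSMul.toLinearMap F V j
  have h : SR S J δ := ⟨h1, fun x => by simp [J, smul_smul, h3], hsa j⟩
  have h5 : ∀ {ε : F} {g : S.Isom}, Cm J ε g → ∀ (a b : F) x,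
      g.1 ((algebraMap F K a + b • j) • x) = (algebraMap F K a + (b * ε) • j) • g.1 x := fun {ε g} hg a b x => by
    have := hg x
    simp only [J, DistribSMul.toLinearMap_apply] at this
    simp [add_smul, this, mul_smul]
  have h6 : ∀ {ε : F} {g : S.Isom}, Cm J ε g → g ∈ N := fun hg => hN' _ fun n k => by
    obtain ⟨a, b, rfl⟩ := h4 k
    exact ⟨_, h5 (hg.pow n) a b⟩
  have h7 : ∀ g : S.Isom, (∃ z : F, iE g = z • 1) ↔ g = 1 ∨ g = S.negOne := fun g => by
    rw [← scalar_iff hS]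
    exact exists_congr fun z => LinearMap.ext_iff
  refine ⟨fun H => by_contra fun hr2 => ?_, ?_⟩
  · have ho := hr.odd_of_ne_two hr2
    suffices ∃ x : S.Isom, x ^ r = 1 ∧ x ≠ 1 ∧ ∀ c, ¬ Cm J 1 (c⁻¹ * x * c) by
      obtain ⟨x, x1, x2, x3⟩ := this
      obtain ⟨c, -, hc⟩ := H x (mem_comm_odd hS (notO4_of_two_ne h2) ho x1) ⟨1, by rw [← iE_pow, x1, iE_one, one_smul]⟩
        (not_exists.1 ((h7 x).not.2 (not_or.2 ⟨x2, fun e => negOne_ne h2 (show 0 < finrank F V by omega)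
          (by rw [← negOne_pow_odd ho, ← e, x1])⟩)))
      obtain ⟨l, hl⟩ := hN _ hc j
      obtain ⟨v, hv⟩ := exists_ne (0 : V)
      have h8 : l * l = j * j := smul_left_injective K (show (c⁻¹ * x * c).1 v ≠ 0 by simpa using hv) (by
        simp only [mul_smul]
        rw [← hl, ← hl, ← mul_smul, ← mul_smul, h3, algebraMap_smul, algebraMap_smul, map_smul])
      rcases mul_self_eq_mul_self_iff.1 h8 with rfl | rfl
      · exact x3 c fun y => by rw [one_smul]; exact hl y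
      · exact Cm.odd h h2 ho (g := c⁻¹ * x * c) (by rw [← MulAut.conj_inv_apply, ← map_pow, x1, map_one])
          fun y => by rw [neg_one_smul]; exact (hl y).trans (neg_smul _ _)
    by_cases hrp : r = p
    · exact hrp ▸ sr_p h hS (by omega) p
    · obtain ⟨x, x1, x2, x3⟩ := fld_odd hK hS hsa h2 (by omega) hr hr2 (natCast_ne_zero_of_prime p hr hrp)
        (fun g hg => h6 (ε := 1) fun x => by rw [one_smul]; exact hg j x) hΩ
      refine ⟨x, x1, x2, fun c hc => x3 c fun k v => ?_⟩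
      obtain ⟨a, b, rfl⟩ := h4 k
      rw [h5 hc, mul_one]
  · rintro rfl x hx h8 h9
    rw [← iE_pow, h7] at h8
    have h10 := not_or.1 ((h7 x).not.1 (not_exists.2 h9))
    obtain ⟨c, h11, h12⟩ := sr_two h hS hV hd hx h8 h10.1 h10.2
    exact ⟨c, h11, h12.elim h6 h6⟩

end Ext

theorem fld_main {ι : Type} [Fintype ι] [DecidableEq ι] (p : ℕ) [Fact p.Prime] [CharP F p] (Q : QuadraticForm F (ι → F))
    (hS : (orthS Q).Nondeg) (h2 : (2 : F) ≠ 0) {d : ℕ} (hV : finrank F (ι → F) = 2 * d) (hd : 2 ≤ d)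
    {A : Subalgebra F (Matrix ι ι F)} (hA : Cfsg.Geo.IsFieldSubalgebra 2 A)
    (hf : Cfsg.Geo.IsSelfAdjointFor (QuadraticMap.polar ⇑Q) A) {r : ℕ} (hr : r.Prime)
    (hΩ : r ∣ (Cfsg.Geo.subalgebraNormalizer A).relIndex (Cfsg.Geo.omegaGL ⇑Q)) :
    (∀ x ∈ Cfsg.Geo.omegaGL ⇑Q, (∃ z : F, (x ^ r).1 = z • (1 : Matrix ι ι F)) → (∀ z : F, x.1 ≠ z • (1 : Matrix ι ι F)) →
      ∃ g ∈ Cfsg.Geo.omegaGL ⇑Q, g⁻¹ * x * g ∈ Cfsg.Geo.subalgebraNormalizer A) ↔ r = 2 := by
  have h1 : Cfsg.Geo.omegaGL ⇑Q = (commutator (orthS Q).Isom).map (H29.toGL (orthS Q)) := by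
    ext x
    constructor
    · rintro ⟨g, hg, rfl⟩
      exact ⟨_, (mem_Omega_iff Q g).1 hg, glEquiv.symm_apply_apply _⟩
    · rintro ⟨g, hg, rfl⟩
      exact ⟨(orthEquiv Q).symm g, (mem_Omega_iff Q _).2 (by rwa [MulEquiv.apply_symm_apply]), rfl⟩
  have : Nonempty ι := by
    rw [finrank_fintype_fun_eq_card] at hV
    exact Fintype.card_pos_iff.1 (by omega)
  letI := (H29.isField_of hA).toField
  haveI : Finite A := Subtype.finite
  rw [h1, ← Subgroup.relIndex_comap] at hΩ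
  rw [conj_all h1]
  refine fld_abs (K := A) p hA.finrank_eq hS (fun k x y => hf k k.2 x y) h2 hV hd hr
    (fun g hg k => ⟨⟨_, (hg k).1 k.2⟩, fun x => ?_⟩) (fun g hg => H29.le_nml (L := Subgroup.zpowers _) ?_
      (Subgroup.mem_zpowers _)) hΩ
  · rw [← H29.toGL_mulVec, ← H29.toGL_mulVec]
    show _ = (_ * _ * _ : Matrix _ _ F).mulVec _
    rw [Matrix.mulVec_mulVec, mul_assoc, Units.inv_mul, mul_one, ← Matrix.mulVec_mulVec]
    rfl
  · intro x hx
    obtain ⟨n, rfl⟩ := mem_powers_iff_mem_zpowers.2 hx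
    simp only [← map_pow, H29.toGL_mulVec]
    exact hg n

end H21.Eo
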