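import Cfsg.Agent.H9.ZStarMain
import Cfsg.Agent.H16.OddOrder

/-! M. Hall's theorem on 4-transitive groups with odd four-point stabilizers: for degree at least 8 the action is
sharply 4-transitive (`H4.sharp`). -/

set_option autoImplicit false
namespace H21
open Subgroup Cfsg

variable {G α : Type*} [Group G] [MulAction G α]

/-- four distinct points -/
def D4 (a b c d : α) : Prop := a ≠ b ∧ a ≠ c ∧ a ≠ d ∧ b ≠ c ∧ b ≠ d ∧ c ≠ d

variable (G α) in
/-- 4-transitive, faithful, four-point stabilizers of odd exponent `m` -/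
structure H4 (m : ℕ) : Prop where
  odd : Odd m
  tr : ∀ {a b c d a' b' c' d' : α}, D4 a b c d → D4 a' b' c' d' →
    ∃ g : G, g • a = a' ∧ g • b = b' ∧ g • c = c' ∧ g • d = d'
  od : ∀ {a b c d : α} {g : G}, D4 a b c d → g • a = a → g • b = b → g • c = c → g • d = d → g ^ m = 1
  ff : ∀ g : G, (∀ x : α, g • x = x) → g = 1

theorem pow_fix {g : G} {x : α} (h : g • x = x) (k : ℕ) : g ^ k • x = x :=
  (MulAction.stabilizer G x).pow_mem h k

theorem pow_odd_smul {g : G} {x : α} (h : g • g • x = x) {m : ℕ} (hm : Odd m) : g ^ m • x = g • x := by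
  obtain ⟨k, rfl⟩ := hm
  rw [pow_succ', mul_smul, pow_mul, pow_fix (by rwa [pow_two, mul_smul])]

theorem dih {s t : G} (hs : s * s = 1) (ht : t * t = 1) {m : ℕ} (hm : Odd m) (h : (s * t) ^ m = 1) :
    ∃ k : ℕ, (s * t) ^ k * t * ((s * t) ^ k)⁻¹ = s := by
  obtain ⟨k, rfl⟩ := hm
  have h1 : t * (s * t)⁻¹ * t⁻¹ = s * t := by
    rw [mul_inv_rev, inv_eq_of_mul_eq_one_right hs, inv_eq_of_mul_eq_one_right ht, ← mul_assoc, ht, one_mul]
  refine ⟨k + 1, ?_⟩
  have h2 : t * ((s * t) ^ (k + 1))⁻¹ = (s * t) ^ (k + 1) * t := by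
    rw [← inv_pow, ← mul_inv_eq_iff_eq_mul, ← conj_pow, h1]
  rw [mul_assoc, h2, ← mul_assoc, ← pow_add, show k + 1 + (k + 1) = 2 * k + 1 + 1 by ring, pow_succ, h, one_mul,
    mul_assoc, ht, mul_one]

namespace H4
variable {m : ℕ} (H : H4 G α m)
include H

theorem inv4 {t : G} (ht : t * t = 1) {a b c d : α} (h : D4 a b c d) (h1 : t • a = a) (h2 : t • b = b)
    (h3 : t • c = c) (h4 : t • d = d) : t = 1 := by
  have := H.od h h1 h2 h3 h4
  obtain ⟨k, rfl⟩ := H.odd
  rwa [pow_succ, pow_mul, pow_two, ht, one_pow, one_mul] at this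

theorem conj1 {s t : G} (hs : s * s = 1) (ht : t * t = 1) {a b c d : α} (h : D4 a b c d)
    (h1 : ∀ x ∈ ({a, b, c, d} : Set α), t • x = s • x) :
    ∃ g : G, (∀ x ∈ ({a, b, c, d} : Set α), g • x = x) ∧ g * t * g⁻¹ = s ∧ ∀ y, Commute y s → Commute y t → Commute y g := by
  have h2 : ∀ x ∈ ({a, b, c, d} : Set α), (s * t) • x = x := fun x hx => by
    rw [mul_smul, h1 x hx, ← mul_smul, hs, one_smul]
  obtain ⟨k, hk⟩ := dih hs ht H.odd (H.od h (h2 _ (by simp)) (h2 _ (by simp)) (h2 _ (by simp)) (h2 _ (by simp)))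
  exact ⟨_, fun x hx => pow_fix (h2 x hx) k, hk, fun y h3 h4 => (h3.mul_right h4).pow_right k⟩

theorem typeA {a b c d : α} (h : D4 a b c d) : ∃ s t : G, s * s = 1 ∧ t * t = 1 ∧ Commute s t ∧
    s • a = b ∧ s • b = a ∧ s • c = c ∧ s • d = d ∧ t • a = a ∧ t • b = b ∧ t • c = d ∧ t • d = c := by
  have key : ∀ g : G, g • g • a = a → g • g • b = b → g • g • c = c → g • g • d = d → g ^ m * g ^ m = 1 :=
    fun g h1 h2 h3 h4 => by
      rw [← (Commute.refl g).mul_pow]
      exact H.od h (by rwa [mul_smul]) (by rwa [mul_smul]) (by rwa [mul_smul]) (by rwa [mul_smul])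
  obtain ⟨s, s1, s2, s3, s4⟩ := H.tr h (show D4 b a c d by unfold D4 at *; grind)
  obtain ⟨t, t1, t2, t3, t4⟩ := H.tr h (show D4 a b d c by unfold D4 at *; grind)
  have hs := key s (by rw [s1, s2]) (by rw [s2, s1]) (by rw [s3, s3]) (by rw [s4, s4])
  have u1 : s ^ m • a = b := by rw [pow_odd_smul (by rw [s1, s2]) H.odd, s1]
  have u2 : s ^ m • b = a := by rw [pow_odd_smul (by rw [s2, s1]) H.odd, s2]
  have u3 := pow_fix s3 m
  have u4 := pow_fix s4 m
  generalize s ^ m = u at hs u1 u2 u3 u4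
  obtain ⟨g, g1, g2, -⟩ := H.conj1 hs (t := t * u * t⁻¹) (by rw [conj_mul, hs]; simp) h (by
    have := inv_smul_eq_iff.2 t1.symm
    have := inv_smul_eq_iff.2 t2.symm
    have := inv_smul_eq_iff.2 t3.symm
    have := inv_smul_eq_iff.2 t4.symm
    simp [mul_smul, *])
  simp only [Set.mem_insert_iff, Set.mem_singleton_iff, forall_eq_or_imp, forall_eq] at g1
  have v1 : (g * t) • a = a := by rw [mul_smul, t1, g1.1]
  have v2 : (g * t) • b = b := by rw [mul_smul, t2, g1.2.1]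
  have v3 : (g * t) • c = d := by rw [mul_smul, t3, g1.2.2.2]
  have v4 : (g * t) • d = c := by rw [mul_smul, t4, g1.2.2.1]
  refine ⟨u, (g * t) ^ m, hs, key _ (by rw [v1, v1]) (by rw [v2, v2]) (by rw [v3, v4]) (by rw [v4, v3]),
    Commute.pow_right ?_ m, u1, u2, u3, u4, pow_fix v1 m, pow_fix v2 m, by rw [pow_odd_smul (by rw [v3, v4]) H.odd, v3],
    by rw [pow_odd_smul (by rw [v4, v3]) H.odd, v4]⟩
  rw [Commute, SemiconjBy]
  nth_rewrite 1 [← g2]
  group

theorem third {s t : G} (hs : s * s = 1) (h0 : s ≠ 1) (hc : Commute s t) {u v x : α} (huv : u ≠ v) (h1 : s • u = u)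
    (h2 : s • v = v) (h3 : t • u = u ∧ t • v = v ∨ t • u = v ∧ t • v = u) (h4 : s • x = x) (h5 : x ≠ u) (h6 : x ≠ v) :
    t • x = x := by
  by_contra h7
  have h8 : ∀ y : α, t • x = t • y → x = y := fun y => smul_left_cancel t
  refine h0 (H.inv4 hs (a := u) (b := v) (c := x) (d := t • x) ?_ h1 h2 h4 (by rw [← mul_smul, hc.eq, mul_smul, h4]))
  have := h8 u
  have := h8 v
  unfold D4
  grind

variable [Fintype α]

theorem moved {t : G} (ht : t * t = 1) (h0 : t ≠ 1) (A : Finset α) (h : A.card + 3 < Fintype.card α) :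
    ∃ x, x ∉ A ∧ t • x ≠ x := by
  classical
  by_contra hc
  push Not at hc
  obtain ⟨B, hB⟩ : ∃ B : Finset α, ∀ x, x ∈ B ↔ t • x = x := ⟨Finset.univ.filter fun x => t • x = x, by simp⟩
  have h1 : Finset.univ ⊆ A ∪ B := fun x _ => by
    by_cases hx : x ∈ A <;> simp [hx, hc, hB]
  have h2 := (Finset.card_le_card h1).trans (Finset.card_union_le _ _)
  rw [Finset.card_univ] at h2
  obtain ⟨a, b, c, d, ha, hb, hc, hd, h3⟩ := Finset.three_lt_card_iff.1 (show 3 < B.card by omega)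
  rw [hB] at ha hb hc hd
  exact h0 (H.inv4 ht h3 ha hb hc hd)

omit H [Fintype α] in
theorem reg {s t : G} (hs : s * s = 1) (hc : Commute s t) {x : α} (h1 : s • x ≠ x) (h2 : t • x ≠ x)
    (h3 : s • t • x ≠ x) : D4 x (s • x) (t • x) (s • t • x) := by
  have h4 : ∀ y : α, s • s • y = y := fun y => by rw [← mul_smul, hs, one_smul]
  refine ⟨h1.symm, h2.symm, h3.symm, fun e => h3 (by rw [← e, h4]), fun e => h2 (smul_left_cancel s e).symm,
    fun e => h1 (smul_left_cancel t ?_)⟩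
  rw [← mul_smul, ← hc.eq, mul_smul, ← e]

theorem no4 (hn : 8 ≤ Fintype.card α) {s t : G} (hs : s * s = 1) (ht : t * t = 1) (hc : Commute s t) (s0 : s ≠ 1)
    (t0 : t ≠ 1) {u v : α} (huv : u ≠ v) (s1 : s • u = u) (s2 : s • v = v) (t1 : t • u = u) (t2 : t • v = v) : s = t := by
  classical
  by_contra hst
  have hst' : s * t ≠ 1 := fun e => hst (by rw [← mul_left_cancel_iff (a := s), hs, e])
  have hst2 : s * t * (s * t) = 1 := by rw [hc.symm.mul_mul_mul_comm, hs, ht, one_mul]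
  obtain ⟨x, -, hx⟩ := H.moved hs s0 ∅ (by simp; omega)
  have hu : x ≠ u := by rintro rfl; exact hx s1
  have hv : x ≠ v := by rintro rfl; exact hx s2
  have hD := reg hs hc hx (fun e => hx (H.third ht t0 hc.symm huv t1 t2 (.inl ⟨s1, s2⟩) e hu hv)) fun e =>
    hx (H.third hst2 hst' ((Commute.refl s).mul_left hc.symm) huv (by rw [mul_smul, t1, s1]) (by rw [mul_smul, t2, s2])
      (.inl ⟨s1, s2⟩) (by rwa [mul_smul]) hu hv)
  obtain ⟨a, b, ha, hb, hab, a1, a2, a3, a4, b1, b2, b3, b4⟩ := H.typeA hD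
  have a0 : a ≠ 1 := by rintro rfl; exact hx (by simpa using a1.symm)
  have b0 : b ≠ 1 := by rintro rfl; exact hD.2.2.2.2.2 (by simpa using b3)
  obtain ⟨y, y1, y2⟩ := H.moved (t := a * b) (by rw [hab.symm.mul_mul_mul_comm, ha, hb, one_mul])
    (fun e => hx (by rw [← a1, ← b1, ← mul_smul, e, one_smul, b1])) {x, s • x, t • x, s • t • x}
    (lt_of_le_of_lt (Nat.add_le_add_right Finset.card_le_four 3) (by omega))
  simp only [Finset.mem_insert, Finset.mem_singleton, not_or] at y1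
  rw [mul_smul] at y2
  have hD' := reg ha hab (x := y) (fun e => y2 (by
    rw [H.third ha a0 hab hD.2.2.2.2.2 a3 a4 (.inr ⟨b3, b4⟩) e y1.2.2.1 y1.2.2.2, e])) (fun e => y2 (by
    rw [e, H.third hb b0 hab.symm hD.1 b1 b2 (.inr ⟨a1, a2⟩) e y1.1 y1.2.1])) y2
  obtain ⟨g, g1, g2, g3, g4⟩ := H.tr hD' hD
  have e1 : ∀ (c : G) (z : α), (g * c * g⁻¹) • g • z = g • c • z := fun c z => by simp [mul_smul]
  have ss : ∀ {c : G}, c * c = 1 → ∀ z : α, c • c • z = z := fun hc z => by rw [← mul_smul, hc, one_smul]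
  have cc : ∀ {c d : G}, Commute c d → ∀ z : α, d • c • z = c • d • z := fun h z => by rw [← mul_smul, ← h.eq, mul_smul]
  obtain ⟨h, h1, h2, -⟩ := H.conj1 hs (t := g * a * g⁻¹) (by rw [conj_mul, ha]; simp) hD (by
    simp only [Set.mem_insert_iff, Set.mem_singleton_iff, forall_eq_or_imp, forall_eq]
    refine ⟨?_, ?_, ?_, ?_⟩
    · rw [← g2, ← g1, e1]
    · rw [ss hs, ← g2, e1, ss ha, g1]
    · rw [← g4, ← g3, e1]
    · rw [ss hs, ← g4, e1, ss ha, g3])
  have h1' : ∀ z ∈ ({x, s • x, t • x, s • t • x} : Set α), h⁻¹ • z = z := fun z hz => inv_smul_eq_iff.2 (h1 z hz).symm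
  simp only [Set.mem_insert_iff, Set.mem_singleton_iff, forall_eq_or_imp, forall_eq] at h1 h1'
  obtain ⟨k, -, k2, k3⟩ := H.conj1 ht (t := h * (g * b * g⁻¹) * h⁻¹) (by rw [conj_mul, conj_mul, hb]; simp) hD (by
    simp only [Set.mem_insert_iff, Set.mem_singleton_iff, forall_eq_or_imp, forall_eq, mul_smul h, mul_smul _ h⁻¹, h1']
    refine ⟨?_, ?_, ?_, ?_⟩
    · rw [← h1.2.2.1, ← g3, ← g1, e1]
    · rw [cc hc, ← h1.2.2.2, ← g4, ← g2, e1, cc hab]
    · rw [ss ht, ← g3, e1, ss hb, g1, h1.1]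
    · rw [cc hc, ss ht, ← g4, e1, cc hab, ss hb, g2, h1.2.1])
  have k4 := k3 s hc (h2 ▸ (hab.conj g).conj h)
  have e2 : a = (k * h * g)⁻¹ * s * (k * h * g) := by
    rw [show (k * h * g)⁻¹ * s * (k * h * g) = (k * h * g)⁻¹ * (s * k) * (h * g) by group, k4.eq, ← h2]; group
  have e3 : b = (k * h * g)⁻¹ * t * (k * h * g) := by rw [← k2]; group
  generalize k * h * g = w at e2 e3
  have f1 : ∀ z : α, s • z = z → a • w⁻¹ • z = w⁻¹ • z := fun z hz => by simp [e2, mul_smul, hz]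
  have f2 : ∀ z : α, t • z = z → b • w⁻¹ • z = w⁻¹ • z := fun z hz => by simp [e3, mul_smul, hz]
  refine a0 (H.inv4 ha (a := t • x) (b := s • t • x) (c := w⁻¹ • u) (d := w⁻¹ • v) ?_ a3 a4 (f1 u s1) (f1 v s2))
  have := f2 u t1
  have := f2 v t2
  have := mt (smul_left_cancel w⁻¹) huv
  have := hD.2.2.2.2.2
  unfold D4
  grind

omit H in
theorem fresh (A : Finset α) (h : A.card < Fintype.card α) : ∃ x, x ∉ A := by
  by_contra hc
  push Not at hc
  exact absurd (Finset.card_le_card (fun x _ => hc x : Finset.univ ⊆ A)) (by simpa using h)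

variable [Finite G]

theorem uniq (hn : 8 ≤ Fintype.card α) {a b c d : α} (h : D4 a b c d) {s t : G} (hs : s * s = 1) (ht : t * t = 1)
    (s1 : s • a = b) (s3 : s • c = c) (s4 : s • d = d) (t1 : t • a = b) (t3 : t • c = c) (t4 : t • d = d) : s = t := by
  classical
  let X := MulAction.stabilizer G c ⊓ MulAction.stabilizer G d
  have hX : ∀ g : X, g.1 • c = c ∧ g.1 • d = d := fun g => g.2
  have s0 : s ≠ 1 := by rintro rfl; exact h.1 (by simpa using s1)
  have hO : pPrimeCore 2 X ≠ ⊥ := fun e => by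
    have h1 := H9.zstar_center (u := (⟨s, s3, s4⟩ : X)) ⟨orderOf_eq_prime (Subtype.ext (by rw [pow_two]; exact hs))
      fun e => s0 (congrArg Subtype.val e), fun g hg => Subtype.ext (H.no4 hn (s := s) (t := g.1 * s * (g.1)⁻¹) hs
        (by rw [conj_mul, hs]; simp) (congrArg Subtype.val hg) s0 (by simpa using s0) h.2.2.2.2.2 s3 s4
        (hX (g * ⟨s, s3, s4⟩ * g⁻¹)).1 (hX (g * ⟨s, s3, s4⟩ * g⁻¹)).2).symm⟩ e
    obtain ⟨y, hy⟩ := fresh {a, b, c, d} (lt_of_le_of_lt Finset.card_le_four (by omega))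
    simp only [Finset.mem_insert, Finset.mem_singleton, not_or] at hy
    obtain ⟨g, g1, g2, g3, g4⟩ := H.tr h (show D4 a y c d by unfold D4 at *; grind)
    have := congrArg (fun z : X => z.1 • a) (mem_center_iff.1 h1 ⟨g, g3, g4⟩)
    simp only [coe_mul, mul_smul, s1, g1, g2] at this
    exact hy.2.1 this
  obtain ⟨E, ⟨E1, E2, E3⟩, E4⟩ := exists_minimal_of_wellFoundedLT
    (fun E : Subgroup X => E.Normal ∧ E ≠ ⊥ ∧ E ≤ pPrimeCore 2 X) ⟨_, inferInstance, hO, le_rfl⟩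
  have E5 : Odd (Nat.card E) := H9.odd_card_pPrimeCore.of_dvd_nat (card_dvd_of_le E3)
  have E6 : ∀ e ∈ E, ∀ f ∈ E, e * f = f * e := by
    have := H16.odd_order E E5
    have := (nontrivial_iff_ne_bot E).2 E2
    have h1 : ⁅E, E⁆ = ⊥ := by_contra fun h1 => (Group.IsSolvable.commutator_lt_top_of_nontrivial E).ne
      (map_injective E.subtype_injective (by
        rw [map_subtype_commutator, ← MonoidHom.range_eq_map, range_subtype]
        exact le_antisymm (commutator_le_left E E) (E4 ⟨inferInstance, h1, (commutator_le_left E E).trans E3⟩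
          (commutator_le_left E E))))
    exact fun e he f hf => commutator_eq_bot_iff_le_centralizer.1 h1 hf e he
  have E7 : ∀ y, y ≠ c → y ≠ d → ∃ e ∈ E, e.1 • a = y := fun y y1 y2 => by
    by_cases y0 : y = a
    · exact ⟨1, one_mem _, by simp [y0]⟩
    obtain ⟨⟨e, he⟩, e0⟩ := ne_bot_iff_exists_ne_one.1 E2
    obtain ⟨w, hw⟩ : ∃ w : α, e.1 • w ≠ w := not_forall.1 fun h => e0 (Subtype.ext (Subtype.ext (H.ff _ h)))
    have := hX e
    have := @smul_left_cancel G α _ _ e.1 w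
    obtain ⟨g, g1, g2, g3, g4⟩ := H.tr (show D4 w (e.1 • w) c d by unfold D4 at *; grind)
      (show D4 a y c d by unfold D4 at *; grind)
    exact ⟨_, E1.conj_mem e he ⟨g, g3, g4⟩, by simp [mul_smul, ← g1, ← g2]⟩
  have E8 : ∀ g : X, (∀ e ∈ E, g * e = e * g) → g.1 • a = a → g = 1 := fun g h1 h2 => Subtype.ext (H.ff _ fun y => by
    by_cases y1 : y = c
    · exact y1 ▸ (hX g).1
    by_cases y2 : y = d
    · exact y2 ▸ (hX g).2
    obtain ⟨e, he, rfl⟩ := E7 y y1 y2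
    rw [← mul_smul, ← coe_mul, h1 e he, coe_mul, mul_smul, h2])
  obtain ⟨e, he, e1⟩ := E7 b h.2.2.2.1 h.2.2.2.2.1
  have key : ∀ s : X, s * s = 1 → s.1 • a = b → ∀ f ∈ E, s * f * s⁻¹ = f⁻¹ := fun s hs s1 f hf => by
    have r1 : (e⁻¹ * s).1 • a = a := by rw [coe_mul, mul_smul, s1, ← e1]; simp
    have r2 : e⁻¹ * s * (e⁻¹ * s) = 1 := E8 _ (fun f hf => E6 _ (by
      have := mul_mem (inv_mem he) (E1.conj_mem _ (inv_mem he) s)
      rwa [inv_eq_of_mul_eq_one_right hs, ← mul_assoc, ← mul_assoc, mul_assoc _ e⁻¹] at this) f hf)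
      (by rw [coe_mul, mul_smul, r1, r1])
    have r0 : e⁻¹ * s ≠ 1 := fun e' => by
      obtain rfl : e = s := inv_mul_eq_one.1 e'
      have h1 := Nat.dvd_gcd (orderOf_dvd_of_pow_eq_one (show e ^ 2 = 1 by rwa [pow_two])) (E.orderOf_dvd_natCard he)
      rw [(Nat.coprime_two_left.2 E5).gcd_eq_one, Nat.dvd_one, orderOf_eq_one_iff] at h1
      exact h.1 (by simpa [h1] using e1)
    generalize hr : e⁻¹ * s = r at r1 r2 r0
    obtain rfl : s = e * r := by rw [← hr]; simp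
    have r3 := E1.conj_mem f hf r
    rw [inv_eq_of_mul_eq_one_right r2] at r3
    have r4 : r * (f * (r * f * r)) = f * (r * f * r) * r :=
      (by group : r * (f * (r * f * r)) = r * f * r * f * r).trans (by rw [E6 f hf _ r3])
    have r5 : f * (r * f * r) = 1 := E8 _ (fun g hg => E6 _ (mul_mem hf r3) g hg) (by
      by_contra hc
      have := hX (f * (r * f * r))
      have := @smul_left_cancel G α _ _ (f * (r * f * r)).1 a
      refine r0 (Subtype.ext (H.inv4 (congrArg Subtype.val r2) (show D4 a ((f * (r * f * r)).1 • a) c d by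
        unfold D4 at *; grind) r1 ?_ (hX r).1 (hX r).2))
      rw [← mul_smul, ← coe_mul, r4, coe_mul, mul_smul, r1])
    rw [mul_inv_rev, inv_eq_of_mul_eq_one_right r2, show e * r * f * (r * e⁻¹) = e * (r * f * r) * e⁻¹ by group,
      E6 e he _ r3, mul_inv_cancel_right, eq_inv_iff_mul_eq_one, ← E6 f hf _ r3, r5]
  have h1 := key ⟨s, s3, s4⟩ (Subtype.ext hs) s1
  have h2 := key ⟨t, t3, t4⟩ (Subtype.ext ht) t1
  have h3 := E8 ((⟨s, s3, s4⟩ : X)⁻¹ * ⟨t, t3, t4⟩) (fun f hf => by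
    rw [mul_assoc, mul_inv_eq_iff_eq_mul.1 (h2 f hf), ← h1 f hf]; group) (by simp [mul_smul, t1, ← s1])
  exact congrArg Subtype.val (inv_mul_eq_one.1 h3)

theorem star (hn : 8 ≤ Fintype.card α) {a b c d : α} (h : D4 a b c d) {z : G} (hz : z * z = 1) (z1 : z • a = b)
    (z3 : z • c = d) {g : G} (g1 : g • a = a) (g2 : g • b = b) (g3 : g • c = c) (g4 : g • d = d) {x : α}
    (hx : z • x = x) : g • x = x := by
  obtain ⟨s, t, hs, ht, hc, s1, s2, s3, s4, t1, t2, t3, t4⟩ := H.typeA h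
  have key : ∀ {g : G}, g • a = a → g • b = b → g • c = c → g • d = d → Commute g s ∧ Commute g t := fun {g} g1 g2 g3 g4 => by
    have := inv_smul_eq_iff.2 g1.symm
    have := inv_smul_eq_iff.2 g2.symm
    have := inv_smul_eq_iff.2 g3.symm
    have := inv_smul_eq_iff.2 g4.symm
    exact ⟨mul_inv_eq_iff_eq_mul.1 (H.uniq hn h (by rw [conj_mul, hs]; simp) hs (by simp [mul_smul, *])
      (by simp [mul_smul, *]) (by simp [mul_smul, *]) s1 s3 s4), mul_inv_eq_iff_eq_mul.1 (H.uniq hn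
      (show D4 c d a b by unfold D4 at *; grind) (by rw [conj_mul, ht]; simp) ht (by simp [mul_smul, *])
      (by simp [mul_smul, *]) (by simp [mul_smul, *]) t3 t1 t2)⟩
  have ss : ∀ {c : G}, c * c = 1 → ∀ z : α, c • c • z = z := fun hc z => by rw [← mul_smul, hc, one_smul]
  have cc : ∀ {c d : G}, Commute c d → ∀ z : α, d • c • z = c • d • z := fun h z => by rw [← mul_smul, ← h.eq, mul_smul]
  have z2 : z • b = a := by rw [← z1, ss hz]
  have z4 : z • d = c := by rw [← z3, ss hz]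
  obtain ⟨k, k1, k2, -⟩ := H.conj1 hz (t := s * t) (by rw [hc.symm.mul_mul_mul_comm, hs, ht, one_mul]) h
    (by simp [mul_smul, *])
  simp only [Set.mem_insert_iff, Set.mem_singleton_iff, forall_eq_or_imp, forall_eq] at k1
  obtain ⟨k3, k4⟩ := key k1.1 k1.2.1 k1.2.2.1 k1.2.2.2
  rw [(k3.mul_right k4).eq, mul_inv_cancel_right] at k2
  obtain ⟨h1, h2⟩ := key g1 g2 g3 g4
  have h3 : Commute g z := k2 ▸ h1.mul_right h2
  have h4 : Commute s z := k2 ▸ (Commute.refl s).mul_right hc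
  have s0 : s ≠ 1 := by rintro rfl; exact h.1 (by simpa using s1)
  have z0 : z ≠ 1 := by rintro rfl; exact h.1 (by simpa using z1)
  have h5 : z • g • x = g • x := by rw [cc h3, hx]
  have h6 : z • s • x = s • x := by rw [cc h4, hx]
  have h7 : z • s • g • x = s • g • x := by rw [cc h4, h5]
  by_contra h8
  have h9 := h.2.2.2.2.2
  by_cases h10 : s • x = x
  · exact s0 (H.inv4 hs (show D4 c d x (g • x) by unfold D4; grind) s3 s4 h10 (by rw [cc h1, h10]))
  by_cases h11 : g • x = s • x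
  · refine h8 ?_
    rw [← pow_odd_smul (g := g) (x := x) (by rw [h11, ← cc h1, h11, ss hs]) H.odd, H.od h g1 g2 g3 g4, one_smul]
  · have := cc h1 x
    have := ss hs (g • x)
    have := ss hs x
    have := @smul_left_cancel G α _ _ g x (s • x)
    exact z0 (H.inv4 hz (show D4 x (s • x) (g • x) (s • g • x) by unfold D4; grind) hx h6 h5 h7)

theorem sharp (hn : 8 ≤ Fintype.card α) {a b c d : α} (h : D4 a b c d)
    (hc : ∀ {a' b' c' d' : α}, D4 a' b' c' d' → (∀ g : G, g • a' = a' → g • b' = b' → g • c' = c' → g • d' = d' →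
      g • a = a ∧ g • b = b ∧ g • c = c ∧ g • d = d) → ∀ g : G, g • a = a → g • b = b → g • c = c → g • d = d → g • c' = c')
    {g : G} (g1 : g • a = a) (g2 : g • b = b) (g3 : g • c = c) (g4 : g • d = d) : g = 1 := by
  obtain ⟨s, -, hs, -, -, s1, s2, s3, s4, -⟩ := H.typeA h
  have s0 : s ≠ 1 := by rintro rfl; exact h.1 (by simpa using s1)
  refine H.ff g fun y => by_contra fun hy => ?_
  have ss : s • s • y = y := by rw [← mul_smul, hs, one_smul]
  by_cases h1 : s • y = y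
  · have := inv_smul_eq_iff.2 g1.symm
    have := inv_smul_eq_iff.2 g3.symm
    have := inv_smul_eq_iff.2 g4.symm
    have h2 : Commute g s := mul_inv_eq_iff_eq_mul.1 (H.uniq hn h (by rw [conj_mul, hs]; simp) hs (by simp [mul_smul, *])
      (by simp [mul_smul, *]) (by simp [mul_smul, *]) s1 s3 s4)
    exact hy (H.third hs s0 h2.symm h.2.2.2.2.2 s3 s4 (.inl ⟨g3, g4⟩) h1 (by grind) (by grind))
  · have h2 : D4 a b y (s • y) := by unfold D4 at *; grind
    exact hy (hc h2 (fun k k1 k2 k3 k4 => ⟨k1, k2, H.star hn h2 hs s1 rfl k1 k2 k3 k4 s3,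
      H.star hn h2 hs s1 rfl k1 k2 k3 k4 s4⟩) g g1 g2 g3 g4)

end H4
end H21
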