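import Cfsg.Agent.H8.Cd1
import Cfsg.Agent.H3.Residual
/-! S4591: a normal subgroup inside all kernels of `p'`-degree irreducible characters lies in `N P'`. -/
set_option autoImplicit false
namespace H21.KpY
open H5 H6 H8 Cfsg Subgroup
open scoped commutatorElement
variable {G : Type*} [Group G] [Finite G] {p : ℕ} [hp : Fact p.Prime]

theorem ovr (P : Sylow p G) {L : Subgroup G} (hL : ∀ χ, IsIrrCharacter G χ → ¬ p ∣ charDegree χ → L ≤ charKer χ)
    (H : Subgroup G) (hH : (P : Subgroup G) ≤ H) {η : H → ℂ} (hη : IsIrrCharacter H η) (hd : ¬ p ∣ charDegree η) :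
    L.subgroupOf H ≤ charKer η := by
  classical
  haveI := Fintype.ofFinite G
  obtain ⟨χ, h7, h8⟩ := exists_constituent_not_dvd (isCharacter_ind _ hη.isCharacter) (n := p) (by
    rw [deg_ind hη.isCharacter]
    exact Nat.Prime.not_dvd_mul hp.out (fun e => P.not_dvd_index (e.trans (Subgroup.index_dvd_of_le hH))) hd)
  rw [inner_ind_left _ _ χ.2.isClassFunction, Ne, classInner_eq_zero_comm] at h7
  exact fun x hx => ker_le_of_constituent χ.2.isCharacter hη h7 (hL _ χ.2 h8 hx)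

theorem y1 (P : Sylow p G) {L : Subgroup G} (hL : ∀ χ, IsIrrCharacter G χ → ¬ p ∣ charDegree χ → L ≤ charKer χ) :
    L ⊓ normalizer ((P : Subgroup G) : Set G) ≤ P := by
  rintro x ⟨hx, hn⟩
  by_contra hxP
  set H := normalizer ((P : Subgroup G) : Set G) with hH
  haveI : ((P : Subgroup G).subgroupOf H).Normal := Subgroup.normal_in_normalizer
  obtain ⟨η, h1, h2, h3⟩ := exists_irr_le_charKer_not_mem ((P : Subgroup G).subgroupOf H) (g := ⟨x, hn⟩) hxP
  have h4 := deg_dvd_index_of_comm h1 ((P : Subgroup G).subgroupOf H) ((Subgroup.commutator_le_left _ _).trans h2)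
  refine h3 (ovr P hL H le_normalizer h1 (fun e => P.not_dvd_index ((e.trans h4).trans ?_)) hx)
  exact Subgroup.relIndex_dvd_index_of_le le_normalizer

theorem y3 (P : Sylow p G) (N : Subgroup G) [N.Normal] {L : Subgroup G}
    (hL : ∀ χ, IsIrrCharacter G χ → ¬ p ∣ charDegree χ → L ≤ charKer χ) (hle : L ≤ N ⊔ P) :
    L ≤ N ⊔ ⁅(P : Subgroup G), (P : Subgroup G)⁆ := by
  intro x hx
  by_contra hn
  set H := N ⊔ (P : Subgroup G) with hH
  have hc : commutator H ≤ (N ⊔ ⁅(P : Subgroup G), (P : Subgroup G)⁆).subgroupOf H := by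
    rw [commutator_def, Subgroup.commutator_le]
    rintro ⟨a, ha⟩ - ⟨b, hb⟩ -
    rw [mem_subgroupOf]
    have ha' : a ∈ ((N ⊔ (P : Subgroup G) : Subgroup G) : Set G) := ha
    have hb' : b ∈ ((N ⊔ (P : Subgroup G) : Subgroup G) : Set G) := hb
    rw [normal_mul] at ha' hb'
    obtain ⟨n, hn, y, hy, rfl⟩ := ha'
    obtain ⟨m, hm, z, hz, rfl⟩ := hb'
    have h1 : ⁅n * y, m * z⁆ * ⁅y, z⁆⁻¹ ∈ N := by
      rw [← QuotientGroup.eq_one_iff]
      have e1 : ((n : G) : G ⧸ N) = 1 := (QuotientGroup.eq_one_iff _).2 hn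
      have e2 : ((m : G) : G ⧸ N) = 1 := (QuotientGroup.eq_one_iff _).2 hm
      simp [commutatorElement_def, e1, e2, mul_assoc]
    have h2 : ⁅n * y, m * z⁆ = (⁅n * y, m * z⁆ * ⁅y, z⁆⁻¹) * ⁅y, z⁆ := by group
    show ⁅n * y, m * z⁆ ∈ _
    rw [h2]
    exact mul_mem (mem_sup_left h1) (mem_sup_right (commutator_mem_commutator hy hz))
  obtain ⟨lam, -, h2⟩ := exists_lin_ne_one hc (g := ⟨x, hle hx⟩) hn
  have h3 := ovr P hL H le_sup_right (isIrrCharacter_hom lam) (by
    rw [charDegree_eq_of_apply_one (n := 1) (by simp)]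
    exact fun e => hp.out.one_lt.ne' (Nat.dvd_one.1 e)) (x := ⟨x, hle hx⟩) hx
  rw [charKer_hom] at h3
  exact h2 h3

theorem pY (P : Sylow p G) (N : Subgroup G) [N.Normal]
    (hmax : ∀ L : Subgroup G, L.Normal → L ⊓ Subgroup.centralizer ((P : Subgroup G) : Set G) = ⊥ → L ≤ N)
    (L : Subgroup G) [hLn : L.Normal] (hL : ∀ χ, IsIrrCharacter G χ → ¬ p ∣ charDegree χ → L ≤ charKer χ) :
    L ≤ N ⊔ ⁅(P : Subgroup G), (P : Subgroup G)⁆ := by
  set V := (pResidual p L).map L.subtype with hV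
  haveI : V.Normal := H3.map_subtype_pResidual_normal L
  have hVL : V ≤ L := map_subtype_le _
  have hd : ¬ p ∣ Nat.card V := fun hd => by
    have ht : pResidual p V = ⊤ := by
      have := H3.map_pResidual_of_surjective (p := p)
        (Subgroup.equivMapOfInjective (pResidual p L) L.subtype L.subtype_injective).toMonoidHom (MulEquiv.surjective _)
      rw [← this, H3.pResidual_pResidual, Subgroup.map_top_of_surjective _ (MulEquiv.surjective _)]
    obtain ⟨χ, h1, h2, h3⟩ := berkovich ht hd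
    exact h2 (hVL.trans (hL χ h1 h3))
  have hVN : V ≤ N := hmax V inferInstance (by
    rw [eq_bot_iff]
    rintro x ⟨hx, hc⟩
    have h1 : x ∈ (P : Subgroup G) := y1 P hL ⟨hVL hx, centralizer_le_normalizer _ hc⟩
    obtain ⟨k, hk⟩ := P.isPGroup' ⟨x, h1⟩
    have h2 : orderOf x ∣ p ^ k := orderOf_dvd_of_pow_eq_one (congrArg Subtype.val hk)
    have h3 : orderOf x ∣ Nat.card V := V.orderOf_dvd_natCard hx
    exact mem_bot.2 (orderOf_eq_one_iff.1 (Nat.eq_one_of_dvd_coprimes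
      (((Nat.Prime.coprime_iff_not_dvd hp.out).2 hd).pow_left k) h2 h3)))
  refine y3 P N hL ?_
  have hq := H3.isPGroup_quotient_of_pResidual_le (p := p) (pResidual p L) le_rfl
  have hs := QuotientGroup.mk'_surjective V
  haveI : (L.map (QuotientGroup.mk' V)).Normal := hLn.map _ hs
  have hpg : IsPGroup p (L.map (QuotientGroup.mk' V)) := by
    rintro ⟨_, l, hl, rfl⟩
    obtain ⟨k, hk⟩ := hq ((⟨l, hl⟩ : L) : L ⧸ pResidual p L)
    refine ⟨k, Subtype.ext ?_⟩
    rw [← QuotientGroup.mk_pow, QuotientGroup.eq_one_iff] at hk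
    show (QuotientGroup.mk' V l) ^ p ^ k = 1
    rw [← map_pow, QuotientGroup.mk'_apply, QuotientGroup.eq_one_iff]
    exact ⟨_, hk, rfl⟩
  have h5 := hpg.le_sylow_of_normal (P.mapSurjective hs)
  intro l hl
  obtain ⟨y, hy, e⟩ := h5 ⟨l, hl, rfl⟩
  have h6 : y⁻¹ * l ∈ V := QuotientGroup.eq.1 e
  have h7 : l = y * (y⁻¹ * l) := by group
  rw [h7]
  exact mul_mem (mem_sup_right hy) (mem_sup_left (hVN h6))

end H21.KpY
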