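import Cfsg.Agent.H21.LX2

/-! Structure of a group with a large extraspecial subgroup `Q`, `Z(Q) = ⟨z⟩` (`LX.cases`): `⟨z^G⟩` is abelian,
or is `F*(G)` and simple or the product of two simple groups (`LX.Two`); simplicity criterion `LX.simple`. -/

set_option autoImplicit false

namespace H21

open Subgroup H18 H1 Cfsg
open H17 (IsComp lay gfit lay_le_iff le_normalizer_lay isQuasisimple_iff qs_not_solvable qs_normal)
open scoped commutatorElement

variable {G : Type*} [Group G] [Finite G] {A K L M Q T : Subgroup G} {x y z g u v : G}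

theorem LW.mem_of_norm (h : LW Q z) (hT : Q ≤ T) (hp : PiGrp {2} T) (hK : T ≤ N(K)) (h1 : K ⊓ T ≠ ⊥) : z ∈ K := by
  obtain ⟨X, hX, h2⟩ := (hp.inf_left.inf_right (A := K ⊓ T)).exists_sub_card
    (hp.nil.meet_Z (nml_inf_of_norm' hK) h1)
  obtain ⟨x, hx, rfl⟩ := exists_gen_of_prime (h2 ▸ Nat.prime_two)
  have := hX (mem_zpowers x)
  rcases h.zp.1 (h.inv x (C_anti hT this.2.2) (pow_two x ▸ pow_eq_one_of_card h2 (mem_zpowers x))) with e | e
  · exact absurd e hx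
  · exact e ▸ this.1.1

theorem LW.mem_of_normal (h : LW Q z) (hl : ∀ K, PiGrp {2}ᶜ K → Q ≤ N(K) → K = ⊥) [K.Normal] (h1 : K ≠ ⊥) :
    z ∈ K := by
  obtain ⟨T, hT, -, -, hS⟩ := h.sylow (L := ⊤) le_top
  refine h.mem_of_norm hT hS.pi norm_of_normal fun e => h1 (hl K ?_ norm_of_normal)
  have := hS.inf_nml' (nml_top (K := K))
  rw [e] at this
  exact this.compl_of_eq_bot

theorem simple_of_comp (hF : F((⊤ : Subgroup G)) = ⊥) (hL : IsComp L ⊤) :
    L ⊓ C(L) = ⊥ ∧ IsSimpleGroup L ∧ ¬ IsMulCommutative L := by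
  have h1 : L ⊓ C(L) = ⊥ := le_bot_iff.1 (hF ▸ hL.subn.inf_centralizer_le_fit)
  obtain ⟨-, h2, h3⟩ := isQuasisimple_iff.1 hL.qs
  refine ⟨h1, ⟨fun N hN => (h3 N hN).symm.imp_left fun c => ?_⟩, fun c => hL.ne_bot ?_⟩
  · rw [← map_eq_bot_iff_of_injective _ (subtype_injective L), ← le_bot_iff, ← h1, ← map_center]
    exact map_mono c
  · rw [← h1, (abel_of_comm c).Z_eq]

theorem exists_proj (hL : IsComp L ⊤) (hx : x ∈ lay (⊤ : Subgroup G)) : ∃ a ∈ L, a⁻¹ * x ∈ C(L) := by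
  have : lay (⊤ : Subgroup G) ≤ L ⊔ C(L) := lay_le_iff.2 fun K hK => by
    rcases hK.eq_or_commutator hL with rfl | e
    · exact le_sup_left
    · exact (comm_eq_bot_iff.1 e).trans le_sup_right
  obtain ⟨a, ha, b, hb, rfl⟩ := (mem_sup_of_cent (cent_symm le_rfl)).1 (this hx)
  exact ⟨a, ha, by simpa using hb⟩

omit [Finite G] in
theorem proj_unique {a b : G} (hL : L ⊓ C(L) = ⊥) (ha : a ∈ L) (hb : b ∈ L) (h1 : a⁻¹ * x ∈ C(L))
    (h2 : b⁻¹ * x ∈ C(L)) : a = b := by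
  have : a⁻¹ * b ∈ L ⊓ C(L) := ⟨L.mul_mem (L.inv_mem ha) hb, by simpa [mul_assoc] using C(L).mul_mem h1 (C(L).inv_mem h2)⟩
  rwa [hL, mem_bot, inv_mul_eq_one] at this

/-- the case of two components -/
structure LX.Two (Q : Subgroup G) (z : G) (L : Subgroup G) (u a : G) : Prop where
  mem : u ∈ Q
  comp : IsComp L ⊤
  ne : H18.cj u L ≠ L
  sup : L ⊔ H18.cj u L = lay ⊤
  aL : a ∈ L
  eq : z = a * (u * a * u⁻¹)
  hall : Hall {2} (L ⊓ C1(a)) L
  phi : Φ(L ⊓ C1(a)) ≤ zpowers a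
  ne2 : Q ≠ O[{2}](C1(z))

theorem LX.not_cent (h : LX Q z) (hF : F((⊤ : Subgroup G)) = ⊥) (hL : IsComp L ⊤) : z ∉ C(L) := fun hz => by
  have hN : L ≤ N(Q) := (le_C1_iff.2 hz).trans h.norm
  have := hL.commutator_solvable le_top hN h.lw.pi.solv
  exact hL.qs.2.1 |> fun _ => qs_not_solvable hL.qs
    (h.lw.pi.solv.of_le ((cent_symm (comm_eq_bot_iff.1 this)).trans h.self))

theorem LX.two (h : LX Q z) (hF : F((⊤ : Subgroup G)) = ⊥) (hz : z ∈ lay (⊤ : Subgroup G)) (hL : IsComp L ⊤)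
    (hne : L ≠ lay ⊤) : ∃ u a, LX.Two Q z L u a := by
  have l := h.lw
  have simp := fun {L} (hL : IsComp L (⊤ : Subgroup G)) => (simple_of_comp hF hL).1
  have ccj : ∀ {L : Subgroup G} (g : G), IsComp L ⊤ → IsComp (H18.cj g L) ⊤ := fun g hL =>
    hL.cj_of_mem_normalizer (by simp)
  have cc : ∀ {K L : Subgroup G}, IsComp K ⊤ → IsComp L ⊤ → K ≠ L → K ≤ C(L) := fun hK hL e =>
    comm_eq_bot_iff.1 ((hK.eq_or_commutator hL).resolve_left e)
  obtain ⟨a, ha, ha'⟩ := exists_proj hL hz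
  have pcj : ∀ g ∈ C1(z), (g * a * g⁻¹)⁻¹ * z ∈ C(H18.cj g L) := fun g hg => by
    rw [← cj_C, H18.mem_cj]
    convert ha' using 1
    rw [show g⁻¹ * ((g * a * g⁻¹)⁻¹ * z) * g = a⁻¹ * (g⁻¹ * z * g) by group, mul_assoc g⁻¹, ← mem_C1.1 hg]
    group
  have a1 : a ≠ 1 := fun e => h.not_cent hF hL (by simpa [e] using ha')
  have caz : L ⊓ C1(a) ≤ C1(z) := fun c hc => mem_C1.2 (by
    rw [show c * z = c * a * (a⁻¹ * z) by group, mem_C1.1 hc.2, mul_assoc, mem_C.1 ha' c hc.1]; group)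
  have fix : ∀ g ∈ C1(z), H18.cj g L = L → g * a * g⁻¹ = a := fun g hg e =>
    proj_unique (simp hL) (e ▸ conj_mem_cj ha) ha (e ▸ pcj g hg) ha'
  obtain ⟨u, hu, hu'⟩ : ∃ u ∈ Q, H18.cj u L ≠ L := by
    by_contra hc
    push Not at hc
    have : a ∈ zpowers z := h.C_eq ▸ mem_C.2 fun q hq => by
      rw [← mul_inv_eq_iff_eq_mul]; exact fix q (l.cent hq) (hc q hq)
    rcases l.zp.1 this with e | rfl
    · exact a1 e
    · exact hne (le_antisymm hL.le_lay (lay_le_iff.2 fun K hK => by_contra fun c =>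
        h.not_cent hF hK (cc hL hK (fun e => c e.ge) ha)))
  have hL2 := ccj u hL
  have c12 : L ≤ C(H18.cj u L) := cc hL hL2 hu'.symm
  have hd : ∀ c ∈ L ⊓ C1(a), c * (u * c⁻¹ * u⁻¹) ∈ Q := fun c hc => by
    simpa [mul_assoc] using mul_mem (conj_mem_N (h.norm (caz hc)) hu) (inv_mem hu)
  -- elements `c d`, `c ∈ L`, `d ∈ L^u`, lying in `⟨z⟩`
  have pz : ∀ c ∈ L, ∀ d ∈ C(L), c * d ∈ zpowers z → c ∈ zpowers a := fun c hc d hd' e => by
    rcases l.zp.1 e with e | e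
    · rw [proj_unique (x := 1) (simp hL) hc (one_mem _) (by rwa [mul_one, inv_eq_of_mul_eq_one_right e]) (by simp)]
      exact one_mem _
    · rw [proj_unique (simp hL) hc ha (by rw [← e]; simpa using hd') ha']
      exact mem_zpowers a
  have hsq : ∀ c ∈ L ⊓ C1(a), c * c ∈ zpowers a := fun c hc => by
    have k := conj_mem_cj (g := u) (L.inv_mem hc.1)
    refine pz _ (mul_mem hc.1 hc.1) _ (cent_symm c12 (mul_mem k k)) ?_
    convert l.pow _ (hd c hc) using 1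
    rw [mul_assoc c c, mul_assoc c _ (c * _), ← mul_assoc (u * c⁻¹ * u⁻¹) c, ← comm_of_cent c12 hc.1 k, mul_assoc c]
  have a2 : a * a = 1 := by
    have : a * a * ((a⁻¹ * z) * (a⁻¹ * z)) = 1 := by
      rw [← l.sq, mul_assoc, ← mul_assoc a (a⁻¹ * z), mem_C.1 ha' a ha]; group
    exact proj_unique (x := 1) (simp hL) (mul_mem ha ha) (one_mem _)
      (by rw [mul_one, inv_eq_of_mul_eq_one_right this]; exact mul_mem ha' ha') (by simp)
  have hp : PiGrp {2} (L ⊓ C1(a)) := piGrp_of_isPGroup Nat.prime_two fun c => ⟨2, Subtype.ext (by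
    have : (c : G) ^ 2 ^ 2 = (c * c) * (c * c) := by norm_num [pow_succ, mul_assoc]
    rw [coe_pow, this]
    rcases (mem_zp_two a2).1 (hsq c c.2) with e | e <;> rw [e]
    · simp
    · exact a2)⟩
  have hall : Hall {2} (L ⊓ C1(a)) L := by
    obtain ⟨T, -, hT, -, hS⟩ := l.sylow (L := ⊤) le_top
    refine ((hS.inf_nml' ⟨le_top, le_normalizer_lay _⟩).inf_nml' ⟨hL.le_lay, hL.lay_le_normalizer⟩).of_ge
      (le_inf inf_le_left fun c hc => mem_C1.2 ?_) inf_le_left hp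
    rw [← mul_inv_eq_iff_eq_mul]
    exact fix c (hT hc.2.2) (cj_eq_self_of_mem hc.1)
  obtain ⟨c, hc, hc'⟩ : ∃ c ∈ L ⊓ C1(a), c ∉ zpowers a := by
    by_contra hc
    push Not at hc
    have k := cyclic_pdiv_normal_complement Nat.prime_two hall (cyc_zpowers.of_le hc) fun q hq _ => hq.two_le
    rcases qs_normal hL.qs (pcore_le (π := {2}ᶜ)) pcore_nml.2 with e | e
    · exact a1 (PiElt.eq_one' (hp.elt ⟨ha, C1_self⟩) (PiGrp.elt (e ▸ pcore_pi) ha))
    · have e' : O[{2}ᶜ](L) = ⊥ := le_bot_iff.1 (simp hL ▸ le_inf pcore_le (comm_eq_bot_iff.1 e))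
      rw [e'] at k
      exact qs_not_solvable hL.qs (PiGrp.solv (by simpa using k.compl_of_eq_bot))
  have k := conj_mem_cj (g := u) (L.inv_mem hc.1)
  have hQ : ∀ v ∈ Q, H18.cj v L = L ∨ H18.cj v L = H18.cj u L := fun v hv => by
    by_contra hn
    obtain ⟨n1, n2⟩ := not_or.1 hn
    have hL3 := ccj v hL
    have hL4 := ccj v hL2
    have e := l.conj_or (hd c hc) hv
    rw [show v * (c * (u * c⁻¹ * u⁻¹)) * v⁻¹ = (v * c * v⁻¹) * (v * (u * c⁻¹ * u⁻¹) * v⁻¹) by group] at e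
    have m3 := conj_mem_cj (g := v) hc.1
    have m4 := conj_mem_cj (g := v) k
    have c1 : v * c * v⁻¹ ≠ 1 := fun e => hc' (conj_eq_one_iff'.1 e ▸ one_mem _)
    generalize v * c * v⁻¹ = c' at *
    generalize v * (u * c⁻¹ * u⁻¹) * v⁻¹ = d' at *
    rcases e with e | e
    · refine c1 (proj_unique (x := c' * d') (simp hL3) m3 (one_mem _)
        (by simpa using cc hL4 hL3 (by simpa using hu') m4) ?_)
      rw [e, inv_one, one_mul]
      exact mul_mem (cc hL hL3 (Ne.symm n1) hc.1) (cc hL2 hL3 (Ne.symm n2) k)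
    by_cases n3 : H18.cj v (H18.cj u L) = L
    · have n4 : H18.cj v (H18.cj u L) ≠ H18.cj u L := fun e => hu' (e.symm.trans n3)
      have : u * c * u⁻¹ = u * a * u⁻¹ := proj_unique (simp hL2) (conj_mem_cj hc.1) (conj_mem_cj ha) (by
        have := mul_mem (inv_mem (c12 hc.1)) (e ▸ mul_mem (cc hL3 hL2 n2 m3) (cc hL4 hL2 n4 m4))
        simpa [mul_assoc] using this) (pcj u (l.cent hu))
      exact hc' ((by simpa using this : c = a) ▸ mem_zpowers a)
    · have := mul_mem (inv_mem (cent_symm c12 k)) (e ▸ mul_mem (cc hL3 hL n1 m3) (cc hL4 hL n3 m4))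
      rw [comm_of_cent c12 hc.1 k] at this
      have : c⁻¹ = a := proj_unique (simp hL) (inv_mem hc.1) ha (by simpa [mul_assoc] using this) ha'
      exact hc' (inv_mem_iff.1 (this ▸ mem_zpowers a))
  have fix' : ∀ g ∈ C1(z), ∀ g' ∈ C1(z), H18.cj g L = H18.cj g' L → g * a * g⁻¹ = g' * a * g'⁻¹ :=
    fun g hg g' hg' e => proj_unique (simp (ccj g' hL)) (e ▸ conj_mem_cj ha) (conj_mem_cj ha) (e ▸ pcj g hg) (pcj g' hg')
  have ez : z = a * (u * a * u⁻¹) := by
    have : a * (u * a * u⁻¹) ∈ zpowers z := h.C_eq ▸ mem_C.2 fun v hv => by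
      have hvu := mul_mem hv hu
      rw [← mul_inv_eq_iff_eq_mul,
        show v * (a * (u * a * u⁻¹)) * v⁻¹ = (v * a * v⁻¹) * (v * u * a * (v * u)⁻¹) by group]
      have nn : H18.cj v L ≠ H18.cj (v * u) L := fun e => hu' (by rw [cj_mul, cj_inj] at e; exact e.symm)
      rcases hQ v hv with e | e <;> rcases hQ _ hvu with e' | e'
      · exact absurd (e.trans e'.symm) nn
      · rw [fix v (l.cent hv) e, fix' _ (l.cent hvu) u (l.cent hu) e']
      · rw [fix _ (l.cent hvu) e', fix' _ (l.cent hv) u (l.cent hu) e, comm_of_cent c12 ha (conj_mem_cj ha)]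
      · exact absurd (e.trans e'.symm) nn
    exact ((l.zp.1 this).resolve_left fun e => a1 (proj_unique (x := 1) (simp hL) ha (one_mem _) (by
      rw [mul_one, inv_eq_of_mul_eq_one_right e]; exact cent_symm c12 (conj_mem_cj ha)) (by simp))).symm
  have hs : L ⊔ H18.cj u L = lay ⊤ := le_antisymm (sup_le hL.le_lay hL2.le_lay) (lay_le_iff.2 fun K hK => by
    by_contra hn
    refine h.not_cent hF hK ?_
    rw [ez]
    exact mul_mem (cc hL hK (fun e => hn (e ▸ le_sup_left)) ha)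
      (cc hL2 hK (fun e => hn (e ▸ le_sup_right)) (conj_mem_cj ha)))
  refine ⟨u, a, hu, hL, hu', hs, ha, ez, hall, (hp.phi_le_iff Nat.prime_two).2 ⟨commutator_le.2 fun x hx y hy => ?_,
    fun x hx => pow_two x ▸ hsq x hx⟩, fun e => hc' (pz c hc.1 _ (cent_symm c12 k) ?_)⟩
  · convert mul_mem (mul_mem (hsq _ (mul_mem hx hy)) (conj_mem_N' (C1_le_N_zpowers hy.2)
      (inv_mem (hsq x hx)))) (inv_mem (hsq y hy)) using 1
    rw [commutatorElement_def]; group
  have : lay ⊤ ⊓ C1(z) ≤ Q := e ▸ le_pcore (nml_inf_of_norm' (le_top.trans (le_normalizer_lay _)))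
    ((hp.sup_norm (hp.cj u) (cent_norm (cent_mono c12 inf_le_left (cj_mono inf_le_left)))).of_le fun x hx => by
      obtain ⟨b, hb, d, hd, rfl⟩ := (mem_sup_of_cent c12).1 (hs ▸ hx.1)
      have e1 := fix _ hx.2 (cj_eq_self (hL.lay_le_normalizer hx.1))
      have e2 := fix' _ (mul_mem hx.2 (l.cent hu)) u (l.cent hu) (by
        rw [cj_mul]; exact cj_eq_self (hL2.lay_le_normalizer hx.1))
      rw [mul_assoc b, ← comm_of_cent c12 ha hd, ← mul_assoc, mul_inv_rev, mul_assoc, mul_inv_cancel_left,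
        mul_inv_eq_iff_eq_mul] at e1
      refine mul_mem_sup' ⟨hb, mem_C1.2 e1⟩ ?_
      rw [cj_inf, cj_C1]
      refine ⟨hd, mem_C1.2 ?_⟩
      rw [show b * d * u * a * (b * d * u)⁻¹ = b * (d * (u * a * u⁻¹) * d⁻¹) * b⁻¹ by group,
        comm_of_cent c12 hb (mul_mem (mul_mem hd (conj_mem_cj ha)) (inv_mem hd)), mul_inv_cancel_right,
        mul_inv_eq_iff_eq_mul] at e2
      exact e2)
  simpa [mul_assoc] using l.comm c (this ⟨hL.le_lay hc.1, caz hc⟩) u hu

theorem LX.cases (h : LX Q z) (hl : ∀ K, PiGrp {2}ᶜ K → Q ≤ N(K) → K = ⊥) :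
    (Abel (normalClosure {z}) ∧ generalizedFittingSubgroup G = pCore 2 G) ∨
    (normalClosure {z} = generalizedFittingSubgroup G ∧ F((⊤ : Subgroup G)) = ⊥ ∧
      (IsComp (normalClosure {z}) ⊤ ∨ ∃ L u a, LX.Two Q z L u a ∧ L ⊔ H18.cj u L = normalClosure {z})) := by
  have l := h.lw
  have hO : F((⊤ : Subgroup G)) = O[{2}]((⊤ : Subgroup G)) := fit_eq_pcore (hl _ pcore_pi (le_top.trans pcore_nml.2))
  have hG : generalizedFittingSubgroup G = lay ⊤ ⊔ F((⊤ : Subgroup G)) := by rw [← H17.gfit_top, H17.gfit_eq]; rfl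
  have hE : (lay (⊤ : Subgroup G)).Normal := H17.lay_top (G := G) ▸ inferInstance
  by_cases hF : F((⊤ : Subgroup G)) = ⊥
  · rw [hF, sup_bot_eq] at hG
    have hz : z ∈ lay (⊤ : Subgroup G) := l.mem_of_normal hl fun e =>
      ne_bot_of_mem (mem_top z) h.ne (H17.gfit_eq_bot_iff.1 (by rw [H17.gfit_top, hG, e]))
    have hM : normalClosure {z} = lay ⊤ := le_antisymm (normalClosure_le_normal (by simpa using hz))
      (lay_le_iff.2 fun K hK => (hK.le_or_commutator le_top norm_of_normal).resolve_right fun e =>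
        h.not_cent hF hK (comm_eq_bot_iff.1 e (subset_normalClosure rfl)))
    rw [hG, hM]
    refine .inr ⟨rfl, hF, ?_⟩
    obtain ⟨L, hL⟩ : ∃ L, IsComp L (⊤ : Subgroup G) := by
      by_contra hc
      exact ne_bot_of_mem hz h.ne (H17.lay_eq_bot_iff.2 (by simpa using hc))
    by_cases e : L = lay ⊤
    · exact .inl (e ▸ hL)
    · obtain ⟨u, a, t⟩ := h.two hF hz hL e
      exact .inr ⟨L, u, a, t, t.sup⟩
  · have hn : Z(F((⊤ : Subgroup G))).Normal := (fit_nml.Z).normal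
    have hz := l.mem_of_normal hl (fit_nil.Z_ne_bot hF)
    refine .inl ⟨abel_Z.mono (normalClosure_le_normal (by simpa using hz)), ?_⟩
    rw [hG, pCore_eq Nat.prime_two, ← hO, sup_eq_right, lay_le_iff]
    intro K hK
    have hN : K ≤ N(Q) := ((comm_eq_bot_iff.1 (H17.commutator_lay_fit ⊤)).trans' hK.le_lay).trans
      ((C_le_C1 hz.1).trans h.norm)
    exact absurd (l.pi.solv.of_le ((cent_symm (comm_eq_bot_iff.1
      (hK.commutator_solvable le_top hN l.pi.solv))).trans h.self)) (qs_not_solvable hK.qs)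

theorem LX.simple (h : LX Q z) (hl : ∀ K, PiGrp {2}ᶜ K → Q ≤ N(K) → K = ⊥) (hO : O[{2}](C1(z)) = Q)
    (hM : C1(z) ≤ normalClosure {z}) : IsSimpleGroup G := by
  rcases h.cases hl with ⟨h1, -⟩ | ⟨-, hF, h1 | ⟨L, u, a, t, -⟩⟩
  · exact absurd (h1.mono (h.lw.cent.trans hM)) h.na
  · have e := h.lw.frattini (h.lw.cent.trans hM)
    rw [sup_eq_left.2 hM] at e
    rw [e] at h1
    have := (simple_of_comp hF h1).2.1
    exact topEquiv.isSimpleGroup_congr.1 this
  · exact absurd hO.symm t.ne2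

end H21
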