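import Cfsg.Agent.H8.Cd1
/-! S4930: comparing the sums of squares of `p'`-degrees of a group and of a subgroup of `p'`-index. -/
set_option autoImplicit false
namespace H21.OdI
open H5 H6 H8 Cfsg Subgroup

theorem comb {X Y : Type*} [Fintype X] [Fintype Y] [DecidableEq Y] (a : X → ℕ) (b : Y → ℕ) (F : X → Y)
    (ha : ∀ x, 0 < a x) (h : ∀ y, ∑ x with F x = y, a x ≤ b y) :
    ∑ x, a x ^ 2 ≤ ∑ y, b y ^ 2 ∧ (∑ x, a x ^ 2 = ∑ y, b y ^ 2 → ∀ x, a x = b (F x)) := by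
  have h1 : ∀ x, a x ≤ b (F x) := fun x =>
    (Finset.single_le_sum (f := a) (fun _ _ => Nat.zero_le _) (by simp)).trans (h (F x))
  have h2 : ∑ x, a x ^ 2 ≤ ∑ x, a x * b (F x) :=
    Finset.sum_le_sum fun x _ => by rw [sq]; exact Nat.mul_le_mul_left _ (h1 x)
  have h3 : ∑ x, a x * b (F x) ≤ ∑ y, b y ^ 2 := by
    rw [← Finset.sum_fiberwise Finset.univ F]
    refine Finset.sum_le_sum fun y _ => ?_
    rw [Finset.sum_congr rfl (g := fun x => a x * b y) fun x hx => by rw [(Finset.mem_filter.1 hx).2],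
      ← Finset.sum_mul, sq]
    exact Nat.mul_le_mul_right _ (h y)
  refine ⟨h2.trans h3, fun e x => ?_⟩
  have h4 : ∑ x, a x ^ 2 = ∑ x, a x * b (F x) := le_antisymm h2 (h3.trans e.ge)
  have h5 := (Finset.sum_eq_sum_iff_of_le fun x _ => by
    rw [sq]; exact Nat.mul_le_mul_left _ (h1 x)).1 h4 x (Finset.mem_univ x)
  rw [sq] at h5
  exact Nat.eq_of_mul_eq_mul_left (ha x) h5

theorem pIE {G : Type*} [Group G] [Finite G] (p : ℕ) [hp : Fact p.Prime] (H : Subgroup G) (hi : ¬ p ∣ H.index) :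
    (∑ᶠ η : {η : IrrCharacter H // ¬ p ∣ charDegree η.1}, charDegree η.1.1 ^ 2) ≤
      (∑ᶠ χ : {χ : IrrCharacter G // ¬ p ∣ charDegree χ.1}, charDegree χ.1.1 ^ 2) ∧
    ((∑ᶠ η : {η : IrrCharacter H // ¬ p ∣ charDegree η.1}, charDegree η.1.1 ^ 2) =
      (∑ᶠ χ : {χ : IrrCharacter G // ¬ p ∣ charDegree χ.1}, charDegree χ.1.1 ^ 2) →
      ∀ θ : IrrCharacter H, ¬ p ∣ charDegree θ.1 → ∃ χ : IrrCharacter G, ∀ x : H, χ.1 x = θ.1 x) := by
  classical
  haveI := Fintype.ofFinite G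
  have hex : ∀ η : {η : IrrCharacter H // ¬ p ∣ charDegree η.1}, ∃ χ : {χ : IrrCharacter G // ¬ p ∣ charDegree χ.1},
      classInner (fun h : H => χ.1.1 h) η.1.1 ≠ 0 := fun η => by
    obtain ⟨χ, h7, h8⟩ := exists_constituent_not_dvd (isCharacter_ind _ η.1.2.isCharacter) (n := p) (by
      rw [deg_ind η.1.2.isCharacter]
      exact Nat.Prime.not_dvd_mul hp.out hi η.2)
    rw [inner_ind_left _ _ χ.2.isClassFunction, Ne, classInner_eq_zero_comm] at h7
    exact ⟨⟨χ, h8⟩, h7⟩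
  choose F hF using hex
  rw [finsum_eq_sum_of_fintype, finsum_eq_sum_of_fintype]
  have key := comb (fun η : {η : IrrCharacter H // ¬ p ∣ charDegree η.1} => charDegree η.1.1)
    (fun χ : {χ : IrrCharacter G // ¬ p ∣ charDegree χ.1} => charDegree χ.1.1) F (fun η => deg_pos η.1) fun χ => by
      obtain ⟨m, h1, h2⟩ := deg_eq_sum (χ.1.2.isCharacter.restrict H)
      have h3 : charDegree χ.1.1 = ∑ ψ, m ψ * charDegree ψ.1 := by
        rw [← h2]; exact charDegree_congr rfl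
      rw [h3]
      calc ∑ η with F η = χ, charDegree η.1.1 ≤ ∑ η with F η = χ, m η.1 * charDegree η.1.1 :=
            Finset.sum_le_sum fun η hη => Nat.le_mul_of_pos_left _ (Nat.pos_of_ne_zero fun e => hF η (by
              rw [(Finset.mem_filter.1 hη).2, h1, e, Nat.cast_zero]))
        _ = ∑ ψ ∈ (Finset.univ.filter fun η => F η = χ).map (Function.Embedding.subtype _), m ψ * charDegree ψ.1 := by
            rw [Finset.sum_map]; rfl
        _ ≤ _ := Finset.sum_le_sum_of_subset (Finset.subset_univ _)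
  refine ⟨key.1, fun e θ hθ => ⟨(F ⟨θ, hθ⟩).1, fun x => ?_⟩⟩
  have h1 := key.2 e ⟨θ, hθ⟩
  exact congrFun (eq_of_constituent_of_apply_one ((F ⟨θ, hθ⟩).1.2.isCharacter.restrict H) θ.2 (hF ⟨θ, hθ⟩) (by
    have h2 := congrArg (Nat.cast : ℕ → ℂ) h1
    simp only [coe_deg] at h2
    exact h2.symm)) x

end H21.OdI
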