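import Cfsg.Agent.H21.Og1
import Cfsg.Agent.H25.OutO3
import Mathlib.FieldTheory.KummerExtension

/-! Fusion of classes in `Aut(PΩ)`: `fuse` (semisimple elements of odd order) and `split` (involutory graph
automorphisms). -/

set_option autoImplicit false
namespace H21.Og
open H11 H25 Module Polynomial Matrix Cfsg SemidirectProduct
open H11.PForm hiding X

theorem conj_iff {G : Type*} [Group G] {K H : Subgroup G} (hK : K ≤ H) {x : G}
    (h : ∀ g ∈ H, ∃ k ∈ K, ∃ c, c * x = x * c ∧ g = k * c) (y : G) : IsConjUnder K x y ↔ IsConjUnder H x y :=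
  ⟨fun ⟨k, hk, e⟩ => ⟨k, hK hk, e⟩, fun ⟨g, hg, e⟩ => by
    obtain ⟨k, hk, c, hc, rfl⟩ := h g hg
    exact ⟨k, hk, by rw [e, mul_assoc k, hc]; group⟩⟩

universe u
variable {F : Type u} [Field F]

theorem det_of_sq {V : Type*} [AddCommGroup V] [Module F V] [FiniteDimensional F V] {J : End F V} {δ : F}
    (hδ : ¬ IsSquare δ) (h : ∀ x, J (J x) = δ • x) {m : ℕ} (hm : finrank F V = 2 * m) :
    LinearMap.det J = (-δ) ^ m := by
  have h1 : Irreducible (X ^ 2 - C δ : F[X]) :=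
    X_pow_sub_C_irreducible_of_prime Nat.prime_two fun b e => hδ ⟨b, by rw [← e, pow_two]⟩
  have h2 : ∀ P ∈ ED J, P = X ^ 2 - C δ := fun P hP => by
    have h3 := aeval_eq_zero_iff_ED.1 (show aeval J (X ^ 2 - C δ : F[X]) = 0 from LinearMap.ext fun x => by
      simp [pow_two, h, Module.algebraMap_end_apply]) P hP
    obtain ⟨π, e, h4, h5, rfl⟩ := pp_ED J P hP
    exact eq_of_monic_of_associated (h4.pow _) (monic_X_pow_sub_C _ two_ne_zero)
      ((h1.dvd_iff.1 h3).resolve_left (fun hu => h5.not_isUnit ((isUnit_pow_iff e.succ_ne_zero).1 hu))).symm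
  have h3 := charpoly_eq_prod_ED J
  have h4 := finrank_eq_ED J
  rw [Multiset.eq_replicate_card.2 h2] at h3 h4
  simp only [Multiset.map_replicate, natDegree_X_pow_sub_C, Multiset.sum_replicate, smul_eq_mul,
    Multiset.prod_replicate] at h3 h4
  have h5 := LinearMap.eval_charpoly J 0
  rw [h3, show (ED J).card = m by omega, map_zero, zero_sub, ← neg_one_smul F, LinearMap.det_smul, hm, pow_mul] at h5
  simpa using h5.symm

theorem sim_disc [Finite F] {V : Type u} [AddCommGroup V] [Module F V] [FiniteDimensional F V]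
    {S : PForm (orthP F) V} (h2 : (2 : F) ≠ 0) {A B : Submodule F V} (hA : (S.restrict A).Nondeg)
    (hB : (S.restrict B).Nondeg) {D : End F V} (hD : Function.Injective D) {μ : F} (hμ : μ ≠ 0)
    (hq : ∀ x, S.q (D x) = μ * S.q x) (h : ∀ x ∈ A, D x ∈ B) (hd : finrank F A = finrank F B) :
    hB.disc = sqSign μ ^ finrank F A * hA.disc := by
  rw [← hA.disc_scale h2 hμ]
  have hi : Function.Injective (D.restrict h) := fun x y e => Subtype.ext (hD (congrArg Subtype.val e))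
  exact (Eqv.disc_eq ⟨LinearMap.linearEquivOfInjective _ hi hd, orth_isIsom (f := D.restrict h) fun x => hq x⟩
    (hA.scale hμ) hB).symm

variable [Finite F] {ι : Type} [Fintype ι] [DecidableEq ι] {X : Type*} [Group X] {S : PForm (orthP F) (ι → F)}

/-- the linear map of a similarity -/
noncomputable abbrev gE (g : GS S) : End F (ι → F) := mulVecLin (g.1 : Matrix ι ι F)

theorem gE_mul (g d : GS S) (x : ι → F) : gE (g * d) x = gE g (gE d x) := by simp

theorem gE_scS (c : Fˣ) (x : ι → F) : gE (scS S c) x = (c : F) • x := by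
  rw [mulVecLin_apply, coe_scS, ← slAct_inl, slAct_scalar']

theorem gE_isS (k : S.Isom) (x : ι → F) : gE (isS S k) x = k.1 x := isoGL_mulVec _ _

theorem gE_ext {g d : GS S} (h : ∀ x, gE g x = gE d x) : g = d := Subtype.ext (Units.ext (matrix_ext_mulVec h))

theorem gE_inj (g : GS S) : Function.Injective (gE g) := fun x y e => by
  have := congrArg (gE g⁻¹) e
  rwa [← gE_mul, ← gE_mul, inv_mul_cancel, ← map_one (scS S), gE_scS, gE_scS, Units.val_one, one_smul,
    one_smul] at this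

theorem gE_det (g : GS S) : LinearMap.det (gE g) = GeneralLinearGroup.det g.1 := LinearMap.det_toLin' _

variable [Nonempty ι]

theorem gE_q (hS : S.Nondeg) (g : GS S) (x : ι → F) : S.q (gE g x) = mu hS g * S.q x := by
  simpa using (isSS_mu hS g).orth_q x

theorem gE_h (hS : S.Nondeg) (g : GS S) (x y : ι → F) : S.h (gE g x) (gE g y) = mu hS g * S.h x y := by
  simpa using (isSS_mu hS g).h_eq x y

variable (C : Ctx S X) (hE : C.r.range = S.E) (h5 : 5 ≤ Fintype.card ι) (he : Even (Fintype.card ι))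
  (h2 : (2 : F) ≠ 0)
include h5 he h2

omit hE in
theorem dk_of_det {g : GS S} {ε : ℤˣ}
    (h : LinearMap.det (gE g) = ((ε : ℤ) : F) * (mu C.nondeg g : F) ^ (Fintype.card ι / 2)) : C.dk h5 he g = ε :=
  dk_eq_of_det _ _ _ h2 (Units.ext (by rw [← gE_det, h]; simp))

omit he h2 in
theorem exists_lift_odd {g : GS S} {r : ℕ} (hr : Odd r) (hx : C.PhiS hE g ^ r = 1) :
    ∃ k : S.Isom, k ^ r = 1 ∧ C.PhiS hE (isS S k) = C.PhiS hE g := by
  obtain ⟨c, hc⟩ := (C.PhiS_eq_one hE (by omega) _).1 ((map_pow _ _ _).trans hx)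
  have h1 := congrArg (sm C.nondeg) hc
  rw [map_pow, sm_scS, Int.units_pow_eq_pow_mod_two, Nat.odd_iff.1 hr, pow_one] at h1
  obtain ⟨c', k, rfl⟩ := (sm_eq_one_iff _ _).1 h1
  rw [map_mul, C.PhiS_scS, one_mul] at hx ⊢
  obtain ⟨a, ha⟩ := (C.PhiS_eq_one hE (by omega) (isS S (k ^ r))).1 (by rw [map_pow, map_pow, hx])
  rcases scS_mul_isS_eq C.nondeg (c := a) (c' := 1) (k := 1) (k' := k ^ r) (by simp [← ha]) with e | e
  · exact ⟨k, e, rfl⟩
  · refine ⟨S.negOne * k, isS_injective ?_, by rw [map_mul, isS_negOne, map_mul, C.PhiS_scS, one_mul]⟩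
    rw [map_pow, map_mul, isS_negOne, Commute.mul_pow (show Commute _ (isS S k) from scS_comm _ _), ← map_pow, ← map_pow, e, mul_one,
      isS_negOne, ← map_mul, hr.neg_one_pow]
    simp

theorem fuse {g : GS S} {r : ℕ} (hr : Odd r) (h0 : (r : F) ≠ 0) (hx : C.PhiS hE g ^ r = 1) :
    (∀ y, (IsConjUnder (Inn _) (C.PhiS hE g) y ↔
        IsConjUnder ((C.dk h5 he).ker.map (C.PhiS hE)) (C.PhiS hE g) y) ∧
      (IsConjUnder ((C.PhiS hE).comp ((isS S).comp S.SIsom.subtype)).range (C.PhiS hE g) y ↔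
        IsConjUnder ((C.dk h5 he).ker.map (C.PhiS hE)) (C.PhiS hE g) y)) ∧
    ∀ y, IsConjUnder ((C.PhiS hE).comp (isS S)).range (C.PhiS hE g) y ↔
      IsConjUnder (C.PhiS hE).range (C.PhiS hE g) y := by
  obtain ⟨k, hk, e⟩ := exists_lift_odd C hE h5 hr hx
  rw [← e]
  obtain ⟨z, z1, z2, z3⟩ := cent_spin C.nondeg h2 (by simp; omega) hr h0 hk
  obtain ⟨δ, δ0, hδ⟩ := exists_not_isSquare h2
  obtain ⟨J, J1, J2, J3⟩ := cent_sim C.nondeg h2 (m := Fintype.card ι / 2)
    (by rw [finrank_fintype_fun_eq_card, Nat.two_mul_div_two_of_even he]) hr h0 hk δ0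
  have hd : ∀ x, ((glEquiv.symm J : GL ι F) : Matrix ι ι F) *ᵥ x = J x := fun x => by
    rw [← glEquiv_apply, MulEquiv.apply_symm_apply]
  have hJ : IsSS S (inl (glEquiv.symm J)) δ := orth_isSS_iff.2 ⟨δ0, fun x => by simp [hd, J2]⟩
  let j : GS S := ⟨_, _, hJ⟩
  have j0 : (mu C.nondeg j : F) = δ := mu_eq _ _ hJ
  have j1 : j * isS S k = isS S k * j := gE_ext fun x => by
    rw [gE_mul, gE_mul, gE_isS, gE_isS]; exact (hd _).trans ((J1 x).trans (congrArg _ (hd _).symm))
  have j2 : C.dk h5 he j = 1 := dk_of_det C h5 he h2 (by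
    rw [show gE j = J.toLinearMap from LinearMap.ext hd, J3, j0]; simp)
  have j3 : sm C.nondeg j = -1 := by rw [sm_apply, j0]; exact sqSign_eq_neg_one_iff.2 hδ
  have key : ∀ d : GS S, ∃ a, a * isS S k = isS S k * a ∧ C.dk h5 he a = 1 ∧ ∃ c l, d = scS S c * isS S l * a ∧
      C.nondeg.spin l = 1 := fun d => by
    obtain ⟨a, a1, a2, c, l, rfl⟩ : ∃ a, a * isS S k = isS S k * a ∧ C.dk h5 he a = 1 ∧ ∃ c l,
        d = scS S c * isS S l * a := by
      rcases Int.units_eq_one_or (sm C.nondeg d) with e | e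
      · obtain ⟨c, l, rfl⟩ := (sm_eq_one_iff _ _).1 e
        exact ⟨1, by simp, by simp, c, l, by simp⟩
      · obtain ⟨c, l, h⟩ := (sm_eq_one_iff C.nondeg (d * j⁻¹)).1 (by simp [e, j3])
        exact ⟨j, j1, j2, c, l, by rw [← h]; simp⟩
    rcases Int.units_eq_one_or (C.nondeg.spin l) with e | e
    · exact ⟨a, a1, a2, c, l, rfl, e⟩
    · exact ⟨isS S z * a, by rw [mul_assoc, a1, ← mul_assoc, ← map_mul, z1, map_mul, mul_assoc], by simp [a2, z2],
        c, l * z⁻¹, by simp [mul_assoc], by simp [e, z3]⟩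
  have key' : ∀ β ∈ (C.dk h5 he).ker.map (C.PhiS hE), ∃ k' ∈ Inn _, ∃ c, c * C.PhiS hE (isS S k) =
      C.PhiS hE (isS S k) * c ∧ β = k' * c := by
    rintro _ ⟨d, hd, rfl⟩
    obtain ⟨a, a1, a2, c, l, rfl, l1⟩ := key d
    refine ⟨_, (C.PhiS_mem_inn hE (by omega) _).2 ⟨c, l, (C.mem_E_iff h5 l).2 ⟨?_, l1⟩, rfl⟩, C.PhiS hE a,
      by rw [← map_mul, a1, map_mul], map_mul _ _ _⟩
    simpa [a2] using hd
  have hp : Inn _ ≤ ((C.PhiS hE).comp ((isS S).comp S.SIsom.subtype)).range := fun β hβ => by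
    obtain ⟨d, rfl⟩ := C.inn_le_range_PhiS hE hβ
    obtain ⟨c, l, hl, rfl⟩ := (C.PhiS_mem_inn hE (by omega) _).1 hβ
    exact (C.mem_pso_iff hE h5 he h2 _).2 (by simp [((C.mem_E_iff h5 l).1 hl).1])
  refine ⟨fun y => ⟨conj_iff (C.inn_le_ker hE h5 he) key' y, conj_iff ?_ (fun β hβ => ?_) y⟩, conj_iff ?_ ?_⟩
  · rintro _ ⟨l, rfl⟩
    exact ⟨_, ((C.mem_pso_iff hE h5 he h2 _).1 ⟨l, rfl⟩).1, rfl⟩
  · obtain ⟨k', h, c⟩ := key' β hβ
    exact ⟨k', hp h, c⟩
  · rintro _ ⟨l, rfl⟩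
    exact ⟨_, rfl⟩
  · rintro _ ⟨d, rfl⟩
    obtain ⟨a, a1, -, c, l, rfl, -⟩ := key d
    exact ⟨_, ⟨l, rfl⟩, C.PhiS hE a, by rw [← map_mul, a1, map_mul], by
      rw [map_mul, map_mul, C.PhiS_scS, one_mul]; rfl⟩

omit hE in
theorem graph_cent {g : GS S} (hg : C.dk h5 he g = -1) {c : Fˣ} (hc : g * g = scS S c) :
    (∃ z, isS S z * g = g * isS S z ∧ C.nondeg.dick z = 1 ∧ C.nondeg.spin z = -1) ∧
    (S.negOne ∈ S.E ∨ Even (Fintype.card ι / 2) → ∀ d a, C.dk h5 he d = 1 → d * g = scS S a * (g * d) →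
      sm C.nondeg d = 1) := by
  have hS := C.nondeg
  have hn : finrank F (ι → F) = 2 * (Fintype.card ι / 2) := by
    rw [finrank_fintype_fun_eq_card, Nat.two_mul_div_two_of_even he]
  have hn' : finrank F (ι → F) = Fintype.card ι := finrank_fintype_fun_eq_card F
  have μ0 : (mu hS g : F) ≠ 0 := Units.ne_zero _
  have h1 : ∀ x, gE g (gE g x) = (c : F) • x := fun x => by rw [← gE_mul, hc, gE_scS]
  have h3 : ∀ x y, mu hS g * S.h (gE g x) y = c * S.h x (gE g y) := fun x y => by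
    rw [← gE_h, h1, h_smul_left]; rfl
  have h4 : (c : F) ^ 2 = (mu hS g : F) ^ 2 := by
    have := congrArg (fun g => (mu hS g : F)) hc
    simp only [map_mul, Units.val_mul, mu_scS, RingHom.id_apply] at this
    rw [pow_two, pow_two, this]
  have ha : ∀ {d a}, d * g = scS S a * (g * d) → a = 1 ∨ a = -1 := fun {d a} h => by
    have := congrArg (fun g => (mu hS g : F)) h
    simp only [map_mul, Units.val_mul, mu_scS, RingHom.id_apply] at this
    have h6 : (a : F) * a = 1 := mul_right_cancel₀ (mul_ne_zero μ0 (mu hS d).ne_zero) (by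
      rw [← this]; ring)
    exact (mul_self_eq_one_iff.1 h6).imp (fun h => Units.ext h) fun h => Units.ext h
  have hd : S.negOne ∈ S.E → hS.disc = 1 := fun h => ((C.mem_E_iff h5 _).1 h).2
  rcases sq_eq_sq_iff_eq_or_eq_neg.1 h4 with e | e
  swap
  · exfalso
    have := dk_of_det C h5 he h2 (g := g) (ε := 1) (by
      rw [skew_det hS h2 (gE_inj g) (fun x y => mul_left_cancel₀ μ0 (by rw [h3, e]; ring)) hn μ0 _
        (fun _ => rfl) (gE_h hS g)]; simp)
    simp [this] at hg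
  have h6 : ∀ x y, S.h (gE g x) y = S.h x (gE g y) := fun x y => mul_left_cancel₀ μ0 (by rw [h3, e])
  rcases Int.units_eq_one_or (sm hS g) with e' | e'
  · obtain ⟨s, k, rfl⟩ := (sm_eq_one_iff _ _).1 e'
    have k1 : hS.dick k = -1 := by simpa using hg
    have k2 : k ^ 2 = 1 := isom_ext fun x => by
      have := h1 x
      simp only [gE_mul, gE_scS, gE_isS, map_smul, smul_smul, e, map_mul, mu_isS, mul_one, mu_scS,
        RingHom.id_apply] at this
      exact smul_right_injective _ (mul_ne_zero s.ne_zero s.ne_zero) this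
    have k3 : ∀ x, k.1 (k.1 x) = x := fun x => by rw [← isom_mul_apply, ← pow_two, k2]; rfl
    have hU := hS.nondeg_res (g := k) (ss_of_pow_eq_one (m := 2) h2 (by rw [← iE_pow, k2, iE_one]))
    have hW := hS.restrict_perp hU
    have u1 : ∀ x, x ∈ res k ↔ k.1 x = -x := fun x => ⟨fun hx => by
      obtain ⟨y, rfl⟩ := mem_res.1 hx
      rw [map_sub, k3, neg_sub], fun hx => mem_res.2 ⟨(2 : F)⁻¹ • x, by
        rw [map_smul, hx, ← smul_sub, sub_neg_eq_add, ← two_smul F, smul_smul, inv_mul_cancel₀ h2, one_smul]⟩⟩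
    have u2 : ∀ x, x ∈ S.perp (res k) ↔ k.1 x = x := fun x => by rw [hS.perp_res, mem_fixSp]
    have u3 : Odd (finrank F (res k)) := by
      rw [hS.dick_eq_rank] at k1
      refine Nat.not_even_iff_odd.1 fun h => ?_
      exact absurd ((Even.neg_one_pow (α := ℤˣ) h).symm.trans k1) (by decide)
    have u4 := hS.finrank_perp (res k)
    have cm : ∀ z : S.Isom, z * k = k * z → isS S z * (scS S s * isS S k) = scS S s * isS S k * isS S z :=
      fun z h => by rw [← mul_assoc, ← scS_comm, mul_assoc, mul_assoc, ← map_mul, ← map_mul, h]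
    refine ⟨?_, fun h d a d1 d2 => ?_⟩
    · by_cases h : 2 ≤ finrank F (res k)
      · obtain ⟨z, z1, z2⟩ := hU.exists_dick_spin_eq h2 h 1 (-1)
        refine ⟨ext1 hU z, cm _ (isom_ext_perp hU (fun x hx => ?_) fun x hx => ?_), by rwa [hS.dick_ext1],
          by rwa [hS.spin_ext1]⟩
        · rw [isom_mul_apply, isom_mul_apply, (u1 x).1 hx, map_neg, ext1_left hU _ ⟨x, hx⟩, (u1 _).1 (z.1 _).2]
        · rw [isom_mul_apply, isom_mul_apply, (u2 x).1 hx, ext1_right _ _ hx, (u2 x).1 hx]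
      · obtain ⟨z, z1, z2⟩ := hW.exists_dick_spin_eq h2 (by omega) 1 (-1)
        refine ⟨ext2 hU z, cm _ (isom_ext_perp hU (fun x hx => ?_) fun x hx => ?_), by rwa [hS.dick_ext2],
          by rwa [hS.spin_ext2]⟩
        · rw [isom_mul_apply, isom_mul_apply, (u1 x).1 hx, map_neg, ext2_left _ _ hx, (u1 x).1 hx]
        · rw [isom_mul_apply, isom_mul_apply, (u2 x).1 hx, ext2_right hU _ ⟨x, hx⟩, (u2 _).1 (z.1 _).2]
    · have d3 : ∀ x, gE d (k.1 x) = (a : F) • k.1 (gE d x) := fun x => by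
        have := congrArg (gE · x) d2
        simp only [gE_mul, gE_scS, gE_isS, map_smul] at this
        exact smul_right_injective _ s.ne_zero this
      rw [sm_apply]
      rcases ha d2 with rfl | rfl
      · have := sim_disc h2 hU hU (gE_inj d) (mu hS d).ne_zero (gE_q hS d) (fun x hx => (u1 _).2 (by
          rw [← map_neg, ← (u1 x).1 hx, d3]; simp)) rfl
        rwa [eq_comm, mul_eq_right, Int.units_pow_eq_pow_mod_two, Nat.odd_iff.1 u3, pow_one] at this
      · have m1 : ∀ x ∈ res k, gE d x ∈ S.perp (res k) := fun x hx => (u2 _).2 (neg_injective (by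
          rw [← map_neg (gE d), ← (u1 x).1 hx, d3]; simp))
        have m2 : ∀ x ∈ S.perp (res k), gE d x ∈ res k := fun x hx => (u1 _).2 (by
          conv_rhs => rw [← (u2 x).1 hx, d3]
          simp)
        have m3 := LinearMap.finrank_le_finrank_of_injective (f := (gE d).restrict m1) fun x y e =>
          Subtype.ext (gE_inj d (congrArg Subtype.val e))
        have m4 := LinearMap.finrank_le_finrank_of_injective (f := (gE d).restrict m2) fun x y e =>
          Subtype.ext (gE_inj d (congrArg Subtype.val e))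
        have := sim_disc h2 hU hW (gE_inj d) (mu hS d).ne_zero (gE_q hS d) m1 (by omega)
        have h7 := hd (h.resolve_right (by obtain ⟨i, hi⟩ := u3; rintro ⟨j, hj⟩; omega))
        rw [hS.disc_eq_mul hU, this, Int.units_pow_eq_pow_mod_two, Nat.odd_iff.1 u3, pow_one, mul_left_comm,
          Int.units_mul_self, mul_one] at h7
        exact h7
  · have hδ : ¬ IsSquare (mu hS g : F) := sqSign_eq_neg_one_iff.1 e'
    have hR : SR S (gE g) (mu hS g) := ⟨hδ, fun x => e ▸ h1 x, h6⟩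
    obtain ⟨z, z1, z2, z3⟩ := hR.cent_spin hS (by omega)
    refine ⟨⟨z, gE_ext fun x => by rw [gE_mul, gE_mul, gE_isS, gE_isS, z1], z2, z3⟩, fun h d a d1 d2 => ?_⟩
    have h7 := hd (h.resolve_right fun h => by
      have := dk_of_det C h5 he h2 (g := g) (ε := 1) (by rw [det_of_sq hδ hR.sq hn, h.neg_pow]; simp)
      simp [this] at hg)
    refine (Int.units_eq_one_or _).resolve_right fun d3 => ?_
    obtain ⟨b, l, hl⟩ := (sm_eq_one_iff hS (g⁻¹ * d)).1 (by simp [e', d3])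
    have l1 : hS.dick l = -1 := by simpa [hg, d1] using (congrArg (C.dk h5 he) hl).symm
    have l2 := spin_cjI hS (o_h4 h5) (gsI S g) (isSS_mu hS g) l
    rw [if_neg (by rw [← sm_apply, e']; decide), l1] at l2
    have l3 : isS S (cjI S (gsI S g) l) = scS S a⁻¹ * isS S l := by
      apply gsI_injective
      rw [← cjS_isS, gsI_cjS, ← map_inv, ← map_mul, ← map_mul]
      congr 1
      rw [inv_mul_eq_iff_eq_mul] at hl
      rw [mul_inv_eq_iff_eq_mul]
      refine gE_ext fun x => ?_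
      have := congrArg (gE · x) d2
      simp only [hl, gE_mul, gE_scS, map_smul] at this ⊢
      rw [← map_smul (gE g) (a : F)] at this
      rw [gE_inj g (smul_right_injective _ b.ne_zero this), smul_smul]; simp
    rcases ha d2 with rfl | rfl
    · rw [isS_injective (l3.trans (show _ = isS S l by simp))] at l2
      simp at l2
    · rw [isS_injective (l3.trans (show _ = isS S (S.negOne * l) by rw [map_mul, isS_negOne]; simp)), map_mul,
        show hS.spin S.negOne = 1 from h7] at l2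
      simp at l2

theorem split {g : GS S} (hg : C.dk h5 he g = -1) (hx : C.PhiS hE g ^ 2 = 1) :
    (splitClassCount ((C.dk h5 he).ker.map (C.PhiS hE)) (Inn _) (C.PhiS hE g) = 1 ∨
      splitClassCount ((C.dk h5 he).ker.map (C.PhiS hE)) (Inn _) (C.PhiS hE g) = 2) ∧
    (S.negOne ∈ S.E ∨ Even (Fintype.card ι / 2) →
      splitClassCount ((C.dk h5 he).ker.map (C.PhiS hE)) (Inn _) (C.PhiS hE g) = 2) := by
  obtain ⟨c, hc⟩ := (C.PhiS_eq_one hE (by omega) _).1 ((map_pow _ _ _).trans hx)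
  obtain ⟨⟨z, z1, z2, z3⟩, h⟩ := graph_cent C h5 he h2 hg (c := c) (by rw [← hc, pow_two])
  set L := Inn _ ⊔ ((C.dk h5 he).ker.map (C.PhiS hE) ⊓ Subgroup.centralizer {C.PhiS hE g}) with hL
  have h1 : ∀ d, C.dk h5 he d = 1 → sm C.nondeg d = 1 → C.PhiS hE d ∈ L := fun d d1 d2 => by
    obtain ⟨c, l, rfl⟩ := (sm_eq_one_iff _ _).1 d2
    have l1 : C.nondeg.dick l = 1 := by simpa using d1
    have l2 : ∀ l, C.nondeg.dick l = 1 → C.nondeg.spin l = 1 → C.PhiS hE (scS S c * isS S l) ∈ L := fun l a b =>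
      Subgroup.mem_sup_left ((C.PhiS_mem_inn hE (by omega) _).2 ⟨c, l, (C.mem_E_iff h5 l).2 ⟨a, b⟩, rfl⟩)
    rcases Int.units_eq_one_or (C.nondeg.spin l) with e | e
    · exact l2 l l1 e
    · have := L.mul_mem (l2 (l * z⁻¹) (by simp [l1, z2]) (by simp [e, z3])) (Subgroup.mem_sup_right
        (x := C.PhiS hE (isS S z)) ⟨⟨_, by simpa using z2, rfl⟩, Subgroup.mem_centralizer_singleton_iff.2 (by
          rw [← map_mul, z1, map_mul])⟩)
      simpa [mul_assoc] using this
  let δ : (C.dk h5 he).ker →* ℤˣ := (sm C.nondeg).comp (C.dk h5 he).ker.subtype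
  have hδ : Function.Surjective δ := fun a => let ⟨d, d1, d2⟩ := C.exists_dk_sm h5 he h2 1 a; ⟨⟨d, d1⟩, d2⟩
  let B := ((L.comap (C.PhiS hE)).subgroupOf (C.dk h5 he).ker).map δ
  have e := splitClassCount_eq_index (C.PhiS hE) _ (Inn _) (C.inn_le_ker hE h5 he) (C.PhiS hE g) δ hδ B fun d =>
    ⟨fun ⟨d', d1, d2⟩ => by
      have := L.mul_mem (h1 (d * d'⁻¹) (d * d'⁻¹).2 (by
        rw [Subgroup.coe_inv, map_mul, map_inv, mul_inv_eq_one]; exact d2.symm)) d1
      rwa [← map_mul, Subgroup.coe_inv, Subgroup.coe_subtype, inv_mul_cancel_right] at this, fun hd => ⟨d, hd, rfl⟩⟩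
  rw [e]
  refine ⟨(Nat.dvd_prime Nat.prime_two).1 (by simpa using B.index_dvd_card), fun hn => ?_⟩
  rw [show B = ⊥ from eq_bot_iff.2 ?_, Subgroup.index_bot, Nat.card_eq_fintype_card, Fintype.card_units_int]
  rintro _ ⟨d, hd, rfl⟩
  have : L ≤ ((C.PhiS hE).comp ((isS S).comp S.SIsom.subtype)).range := by
    refine sup_le (fun β hβ => ?_) ?_
    · obtain ⟨d, rfl⟩ := C.inn_le_range_PhiS hE hβ
      obtain ⟨c, l, hl, rfl⟩ := (C.PhiS_mem_inn hE (by omega) _).1 hβ
      exact (C.mem_pso_iff hE h5 he h2 _).2 (by simp [((C.mem_E_iff h5 l).1 hl).1])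
    · rintro _ ⟨⟨d, d1, rfl⟩, d2⟩
      obtain ⟨a, ha⟩ := (C.PhiS_eq_one hE (by omega) (d * g * (g * d)⁻¹)).1 (by
        rw [map_mul, map_inv, map_mul, map_mul, Subgroup.mem_centralizer_singleton_iff.1 d2, mul_inv_cancel])
      exact (C.mem_pso_iff hE h5 he h2 _).2 ⟨d1, h hn d a d1 (mul_inv_eq_iff_eq_mul.1 ha)⟩
  exact ((C.mem_pso_iff hE h5 he h2 _).1 (this hd)).2

end H21.Og
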