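import Cfsg.Agent.H21.PLen

/-! Alternating `p'`/`p` length `AL p H k V` (the section `H/V` has a normal series of length `k` whose factors
are alternately `p'`- and `p`-groups, the top one a `p'`-group); `AL.two_gen`: a `p`-solvable group all of whose
two-generator subgroups have alternating length at most `k` has alternating length at most `k`;
`powell`: Powell's three-generator theorem. -/

set_option autoImplicit false

namespace H21
open Subgroup Cfsg H18 H1
open scoped commutatorElement Pointwise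

universe u

variable {G : Type*} [Group G] {G' : Type*} [Group G'] {A B C D H K L M N P Q R S U V W X Y : Subgroup G}
  {p q n k a b j m : ℕ} {π : Set ℕ} {x y g : G}

/-- alternating prime sets -/
def alt (p : ℕ) : ℕ → Set ℕ
  | 0 => {p}ᶜ
  | k + 1 => (alt p k)ᶜ

theorem alt_succ : alt p (k + 1) = (alt p k)ᶜ := rfl

theorem alt_cases (p k : ℕ) : alt p k = {p} ∨ alt p k = {p}ᶜ := by
  induction k with
  | zero => exact .inr rfl
  | succ k ih =>
    rcases ih with h | h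
    · exact .inr (by rw [alt_succ, h])
    · exact .inl (by rw [alt_succ, h, compl_compl])

theorem alt_even : alt p (2 * k) = {p}ᶜ := by
  induction k with
  | zero => rfl
  | succ k ih => rw [Nat.mul_succ, alt_succ, alt_succ, compl_compl, ih]

theorem alt_cases2 (p a b : ℕ) : alt p a = alt p b ∨ alt p a = (alt p b)ᶜ := by
  rcases alt_cases p a with h | h <;> rcases alt_cases p b with h' | h' <;> simp [h, h']

/-- alternating length of `H/V` at most `k` -/
def AL (p : ℕ) (H : Subgroup G) : ℕ → Subgroup G → Prop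
  | 0, V => V = H
  | k + 1, V => V ⊴ H ∧ ∃ W, PiNat (alt p k) (V.relIndex W) ∧ AL p H k W

theorem AL.nml (h : AL p H k V) : V ⊴ H := by
  cases k with
  | zero => rw [show V = H from h]; exact Nml.rfl
  | succ k => exact h.1

theorem AL.succ' (h : AL p H k V) : AL p H (k + 1) V := ⟨h.nml, V, by simpa using PiNat.one, h⟩

theorem AL.mono (h : AL p H a V) (e : a ≤ b) : AL p H b V := by
  induction e with
  | refl => exact h
  | step _ ih => exact ih.succ'

theorem al_self : AL p H k H := AL.mono (a := 0) rfl (Nat.zero_le _)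

theorem AL.of_plr (h : PLR p H k V) : AL p H (2 * k + 1) V := by
  induction h with
  | zero h1 h2 => exact ⟨h1, H, h2, rfl⟩
  | @succ k V U W h1 h2 h3 h4 h5 ih =>
    have e1 : alt p (2 * (k + 1)) = {p}ᶜ := alt_even
    have e2 : alt p (2 * k + 1) = {p} := by rw [alt_succ, alt_even, compl_compl]
    exact ⟨h1, U, e1 ▸ h3, h2, W, e2 ▸ h4, ih⟩

variable [Finite G]

theorem AL.up (h : AL p H k V) (hX : X ⊴ H) (e : V ≤ X) : AL p H k X := by
  cases k with
  | zero => exact le_antisymm hX.1 (le_trans (show V = H from h).ge e)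
  | succ k =>
    obtain ⟨-, W, h2, h3⟩ := h
    exact ⟨hX, W, PiNat.idx_up h2 e, h3⟩

theorem AL.of_pi (h : AL p H (k + 1) W) (hV : V ⊴ H) (hi : PiNat (alt p k) (V.relIndex W)) :
    AL p H (k + 1) V := by
  obtain ⟨h1, U, h2, h3⟩ := h
  exact ⟨hV, U, PiNat.idx_trans hi h2 (h1.1.trans hV.2), h3⟩

theorem AL.inf (h : AL p H k V) (hK : K ≤ H) : AL p K k (V ⊓ K) := by
  induction k generalizing V with
  | zero => rw [show V = H from h]; exact inf_eq_right.2 hK
  | succ k ih =>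
    obtain ⟨h1, W, h2, h3⟩ := h
    exact ⟨h1.inf_right hK, W ⊓ K, PiNat.idx_inf h2 (h3.nml.1.trans h1.2), ih h3⟩

theorem AL.of_le (h : AL p H k ⊥) (hK : K ≤ H) : AL p K k ⊥ := by simpa using h.inf hK

theorem AL.mim {f : D →* G'} (h : AL p H k V) (hH : H ≤ D) : AL p (mim f H) k (mim f V) := by
  induction k generalizing V with
  | zero => rw [show V = H from h]; rfl
  | succ k ih =>
    obtain ⟨h1, W, h2, h3⟩ := h
    exact ⟨h1.mim, _, PiNat.idx_mim h2 (h3.nml.1.trans hH), ih h3⟩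

theorem AL.mpre {f : D →* G'} {H' V' : Subgroup G'} (h : AL p H' k V') (hH : H' ≤ H18.mim f D) :
    AL p (mpre f H') k (mpre f V') := by
  induction k generalizing V' with
  | zero => rw [show V' = H' from h]; rfl
  | succ k ih =>
    obtain ⟨h1, W, h2, h3⟩ := h
    exact ⟨h1.mpre, _, by rwa [idx_mpre (h3.nml.1.trans hH)], ih h3⟩

theorem al_of_quo (hK : K ⊴ H) (h : AL p (H ⫽ K) k ⊥) : AL p H k K := by
  simpa [qpre_quo_nml hK] using h.mpre (f := coset K) le_quo_N

theorem AL.quo (h : AL p H k ⊥) (hK : H ≤ N(K)) : AL p (H ⫽ K) k ⊥ := by simpa using h.mim (f := coset K) hK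

theorem AL.sup (h : AL p H k V) (hK : H ≤ N(K)) : AL p (H ⊔ K) k (V ⊔ K) := by
  have := (h.mim (f := coset K) hK).mpre (f := coset K) le_quo_N
  rwa [qpre_quo hK, qpre_quo (h.nml.1.trans hK)] at this

theorem AL.inf2 (h1 : AL p H k U) (h2 : AL p H k V) : AL p H k (U ⊓ V) := by
  induction k generalizing U V with
  | zero => rw [show U = H from h1, show V = H from h2]; exact inf_idem _
  | succ k ih =>
    obtain ⟨a1, W, a2, a3⟩ := h1
    obtain ⟨b1, X, b2, b3⟩ := h2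
    exact ⟨a1.inf b1, W ⊓ X, PiNat.relIndex_inf (inf_le_left.trans (a3.nml.1.trans a1.2))
      (PiNat.idx_mono a2 (a3.nml.1.trans a1.2) inf_le_left)
      (PiNat.idx_mono b2 (b3.nml.1.trans b1.2) inf_le_right), ih a3 b3⟩

omit [Finite G] in
theorem AL.bot_succ (h : AL p H (k + 1) ⊥) : ∃ W, PiGrp (alt p k) W ∧ AL p H k W := by
  obtain ⟨-, W, h2, h3⟩ := h
  exact ⟨W, by simpa using h2, h3⟩

theorem AL.min_pi (h : AL p H m V) (hV : ¬ N ≤ V) (hN : N ≤ H) (hu : ∀ M, M ⊴ H → M ≠ ⊥ → N ≤ M) :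
    ∃ i, PiGrp (alt p i) N := by
  induction m generalizing V with
  | zero => exact absurd (hN.trans (show V = H from h).ge) hV
  | succ m ih =>
    obtain ⟨h1, W, h2, h3⟩ := h
    by_cases e : N ≤ W
    · have : V = ⊥ := by_contra fun c => hV (hu V h1 c)
      subst this
      exact ⟨m, PiGrp.of_le (by simpa using h2) e⟩
    · exact ih h3 e

theorem al_of_psol [Fact p.Prime] (h : IsPSolvable p H) : ∃ m, AL p H m ⊥ := by
  obtain ⟨k, hk⟩ := psol_plr (H4.isPSolvable_subgroup_iff.1 h) Nml.bot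
  exact ⟨_, AL.of_plr hk⟩

omit [Finite G] in
theorem cl2_le (hx : x ∈ H) (hy : y ∈ H) : closure {x, y} ≤ H := by
  rw [closure_le]; rintro z (rfl | rfl) <;> assumption

omit [Finite G] in
theorem mem_cl2_left : x ∈ closure ({x, y} : Set G) := subset_closure (by simp)
omit [Finite G] in
theorem mem_cl2_right : y ∈ closure ({x, y} : Set G) := subset_closure (by simp)

/-- the socle of a minimal counterexample is abelian -/
theorem al_abel (hp : p.Prime) (hN : N ⊴ H) (hu : ∀ M, M ⊴ H → M ≠ ⊥ → N ≤ M) (h1 : N ≠ ⊥)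
    (hπ : PiGrp (alt p j)ᶜ N) (hO : ∀ M, M ⊴ H → PiGrp (alt p j) M → M = ⊥)
    (hsub : ∀ K, K ≤ H → K ≠ H → AL p K (j + 1) ⊥) (hW : W ⊴ H) (hNW : N ≤ W) (hne : W ≠ N)
    (hi : PiNat (alt p j) (N.relIndex W)) (hl : ∀ X, AL p H j X → N ≤ X → W ≤ X) : Abel N := by
  suffices hs : Solv N by
    rw [abel_iff_der]
    by_contra c
    exact (hs.der_lt h1).not_ge (hu _ hN.der c)
  by_contra hs
  have e : alt p j = {p} := by
    rcases alt_cases p j with e | e
    · exact e
    · rw [e, compl_compl] at hπ; exact absurd hπ.solv hs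
  rw [e] at hπ hi
  obtain ⟨Y, hY⟩ := exists_sylow hp W
  have c : N ≤ C(Y) := by
    refine le_of_sylows fun q hq hd => ?_
    obtain ⟨Q, hQ⟩ := exists_sylow hq N
    have f := frattini_arg hq hN hQ
    have hL : H ⊓ N(Q) ≠ H := by
      intro c
      have : Q ⊴ H := ⟨hQ.1.trans hN.1, c ▸ inf_le_right⟩
      exact hs (hQ.2.solv.of_le (hu Q this (hQ.ne_bot_p hq hd)))
    obtain ⟨O, o1, o2⟩ := (hsub _ inf_le_left hL).bot_succ
    rw [e] at o1
    have o3 := o2.sup (K := N) (inf_le_left.trans hN.2)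
    rw [sup_comm, f] at o3
    have oN : O ≤ N(N) := o2.nml.1.trans (inf_le_left.trans hN.2)
    have w := hl _ o3 le_sup_right
    have oQ : O ≤ C(Q) := cent_of_norm_coprime (o2.nml.1.trans inf_le_right)
      ((le_inf (hQ.1.trans hN.1) le_N).trans o2.nml.2) (PiNat.coprime o1 (hπ.of_le hQ.1))
    obtain ⟨g, hg, hg'⟩ := sylow_le_cj' hp (hall_of_sup o1 hπ (.inl oN)) hY.2 (hY.1.trans w)
    refine ⟨cj g Q, hQ.cj_N (sup_le oN le_N hg), ?_⟩
    exact cent_mono (cj_cent_iff.2 (cent_symm oQ)) le_rfl hg'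
  have s : Y ⊔ N = W := hY.sup_of_idx hNW hi
  have n : W ≤ N(Y) := s ▸ sup_le le_N (cent_norm c)
  have : Y = ⊥ := by
    rw [← hY.eq_pcore n]; exact hO _ hW.pcore (e ▸ pcore_pi)
  exact hne (by rw [← s, this, bot_sup_eq])

/-- counting complements -/
theorem exists_gen_of_compl (hN : N ⊴ H) (hu : ∀ M, M ⊴ H → M ≠ ⊥ → N ≤ M) (h1 : N ≠ ⊥) (ab : Abel N)
    (hπ : PiGrp πᶜ N) (hO : ∀ M, M ⊴ H → PiGrp π M → M = ⊥) (hW : W ⊴ H) (hNW : N ≤ W) (hne : W ≠ N)
    (hi : PiNat π (N.relIndex W)) :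
    H ⊓ C(N) ≤ N ∧ ∀ x ∈ H, ∀ y ∈ H, N ⊔ closure {x, y} = H → ∃ x ∈ H, ∃ y ∈ H, closure {x, y} = H := by
  obtain ⟨Y, hY⟩ := exists_sd (hN.of_le hNW hW.1) (PiNat.coprime' hπ hi)
  have pY : PiGrp π Y := by unfold PiGrp; rwa [← hY.relIndex]
  have cY : ∀ U, U ≤ W → PiGrp π U → ∃ n ∈ N, cj n U ≤ Y := fun U hU pU =>
    exists_conj_le_of_le_sup N U Y hY.norm (PiNat.coprime' hπ pU) (.inl ab.solv) (hY.sup ▸ hU)
  have fr : ∀ h ∈ H, ∃ n ∈ N, n * h ∈ H ⊓ N(Y) := by
    intro h hh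
    obtain ⟨n, hn, e⟩ := cY (cj h Y) (cj_le_of_mem_N hY.le_right (hW.2 hh)) (pY.cj h)
    exact ⟨n, hn, mul_mem (hN.1 hn) hh, mem_N_of_cj_le (by rwa [cj_mul])⟩
  set K := H ⊓ N(Y) with hK
  have sK : N ⊔ K = H := le_antisymm (sup_le hN.1 inf_le_left) fun h hh => by
    obtain ⟨n, hn, e⟩ := fr h hh
    simpa using mul_mem_sup' (inv_mem hn) e
  have KH : K ≠ H := by
    intro c
    have := hO Y ⟨hY.le_right.trans hW.1, c ▸ inf_le_right⟩ pY
    exact hne (by rw [← hY.sup, this, sup_bot_eq])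
  have dis : ∀ D, D ≤ H → N ⊔ D = H → D ≠ H → N ⊓ D = ⊥ := by
    intro D hD e ne
    by_contra c
    have : N ⊓ D ⊴ H := ⟨inf_le_left.trans hN.1, e ▸ sup_le (ab.norm inf_le_left)
      (norm_inf (hD.trans hN.2) le_N)⟩
    exact ne (by rw [← e]; exact (sup_eq_right.2 ((hu _ this c).trans inf_le_right)).symm)
  have dK := dis K inf_le_left sK KH
  constructor
  · have c : K ⊓ C(N) = ⊥ := by
      by_contra c
      have : K ⊓ C(N) ⊴ H := ⟨inf_le_left.trans inf_le_left, sK ▸ sup_le (cent_norm (cent_symm inf_le_right))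
        (norm_inf le_N (norm_C (inf_le_left.trans hN.2)))⟩
      exact h1 (by rw [← dK]; exact (inf_eq_left.2 ((hu _ this c).trans inf_le_left)).symm)
    rintro h ⟨hh, hc⟩
    obtain ⟨n, hn, e⟩ := fr h hh
    have : n * h = 1 := eq_one_of_eq_bot c ⟨e, mul_mem (ab hn) hc⟩
    rw [eq_inv_of_mul_eq_one_right this]; exact inv_mem hn
  intro x hx y hy e
  obtain ⟨n, hn, ha⟩ := fr x hx
  obtain ⟨m, hm, hb⟩ := fr y hy
  set a := n * x with ea
  set b := m * y with eb
  by_contra! hc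
  have key : ∀ v ∈ N, ∀ w ∈ N, ∃ t ∈ N, v = t⁻¹ * (a * t * a⁻¹) ∧ w = t⁻¹ * (b * t * b⁻¹) := by
    intro v hv w hw
    have va : v * a ∈ H := mul_mem (hN.1 hv) ha.1
    have wb : w * b ∈ H := mul_mem (hN.1 hw) hb.1
    set D := closure {v * a, w * b} with hD
    have DH : D ≤ H := cl2_le va wb
    have sD : N ⊔ D = H := by
      refine le_antisymm (sup_le hN.1 DH) (e ▸ sup_le le_sup_left (cl2_le ?_ ?_))
      · have := mul_mem_sup' (inv_mem (mul_mem hv hn)) (mem_cl2_left (x := v * a) (y := w * b))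
        rwa [ea, show (v * n)⁻¹ * (v * (n * x)) = x by group] at this
      · have := mul_mem_sup' (inv_mem (mul_mem hw hm)) (mem_cl2_right (x := v * a) (y := w * b))
        rwa [eb, show (w * m)⁻¹ * (w * (m * y)) = y by group] at this
    have sd : SD N D H := ⟨DH.trans hN.2, dis D DH sD (hc _ va _ wb), sD⟩
    have sd' := sd.inf_right hNW hW.1
    have cd : Nat.card (D ⊓ W : Subgroup G) = Nat.card Y := by rw [← sd'.relIndex, hY.relIndex]
    obtain ⟨t, ht, e'⟩ := cY (D ⊓ W) inf_le_right (by unfold PiGrp; rwa [cd])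
    have e2 : cj t (D ⊓ W) = Y := eq_of_card_eq e' (by rw [card_cj, cd])
    have nD : cj t D ≤ N(Y) := e2 ▸ cj_norm_iff.2 (norm_inf le_N (DH.trans hW.2))
    have fin : ∀ v ∈ N, ∀ a ∈ K, v * a ∈ D → v = t⁻¹ * (a * t * a⁻¹) := by
      intro v hv a ha h
      have k1 : t * (v * a) * t⁻¹ ∈ K :=
        mem_inf.2 ⟨mul_mem (mul_mem (hN.1 ht) (DH h)) (inv_mem (hN.1 ht)), nD (conj_mem_cj h)⟩
      have k2 : t * (v * a) * t⁻¹ * a⁻¹ ∈ N := by
        have := mul_mem (mul_mem ht hv) (conj_mem hN.2 ha.1 (inv_mem ht))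
        simpa [mul_assoc] using this
      have := eq_one_of_eq_bot dK (mem_inf.2 ⟨k2, mul_mem k1 (inv_mem ha)⟩)
      calc v = t⁻¹ * (t * (v * a) * t⁻¹ * a⁻¹) * (a * t * a⁻¹) := by group
        _ = _ := by rw [this, mul_one]
    exact ⟨t, ht, fin v hv a ha mem_cl2_left, fin w hw b hb mem_cl2_right⟩
  let f : N → N × N := fun t => (⟨t⁻¹ * (a * t * a⁻¹), mul_mem (inv_mem t.2) (conj_mem hN.2 ha.1 t.2)⟩,
    ⟨t⁻¹ * (b * t * b⁻¹), mul_mem (inv_mem t.2) (conj_mem hN.2 hb.1 t.2)⟩)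
  have hf : Function.Surjective f := by
    rintro ⟨v, w⟩
    obtain ⟨t, ht, e1, e2⟩ := key v v.2 w w.2
    exact ⟨⟨t, ht⟩, Prod.ext (Subtype.ext e1.symm) (Subtype.ext e2.symm)⟩
  have := Nat.card_le_card_of_surjective f hf
  rw [Nat.card_prod] at this
  have h2 := one_lt_card h1
  nlinarith

theorem AL.two_gen (hp : p.Prime) (k : ℕ) : ∀ (n : ℕ) {G : Type u} [Group G] [Finite G] (H : Subgroup G),
    Nat.card H = n → (∃ m, AL p H m ⊥) → (∀ x ∈ H, ∀ y ∈ H, AL p (closure {x, y}) k ⊥) → AL p H k ⊥ := by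
  induction k with
  | zero =>
    intro n G _ _ H _ _ h
    refine (le_bot_iff.1 fun x hx => ?_).symm
    rw [show (⊥ : Subgroup G) = _ from h x hx x hx]; exact mem_cl2_left
  | succ j ihk =>
    intro n
    induction n using Nat.strong_induction_on with
    | _ n ih =>
    intro G _ _ H hn ⟨m, hm⟩ h
    rcases j with _ | i
    · refine ⟨Nml.bot, H, ?_, rfl⟩
      have : PiGrp (alt p 0) H := piGrp_of_elt fun x hx => by
        obtain ⟨W, h1, h2⟩ := (h x hx x hx).bot_succ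
        exact h1.elt ((show W = _ from h2) ▸ mem_cl2_left)
      simpa using this
    set j := i + 1 with hj
    by_contra hc
    have hsub : ∀ K, K ≤ H → K ≠ H → AL p K (j + 1) ⊥ := fun K hK ne =>
      ih _ (hn ▸ card_lt (lt_of_le_of_ne hK ne)) K rfl ⟨m, hm.of_le hK⟩ fun x hx y hy => h x (hK hx) y (hK hy)
    have hquo : ∀ M, M ⊴ H → M ≠ ⊥ → AL p H (j + 1) M := by
      intro M hM ne
      refine al_of_quo hM (ih _ (hn ▸ card_quo_lt hM ne) _ rfl ⟨m, hm.quo hM.2⟩ fun x' hx' y' hy' => ?_)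
      obtain ⟨x, hx, rfl⟩ := (mem_quo hM.2).1 hx'
      obtain ⟨y, hy, rfl⟩ := (mem_quo hM.2).1 hy'
      have := (h x hx y hy).quo ((cl2_le hx hy).trans hM.2)
      rwa [mim_closure (by rintro z (rfl | rfl); exacts [hM.2 hx, hM.2 hy]), Set.image_pair] at this
    have H1 : H ≠ ⊥ := by rintro rfl; exact hc al_self
    obtain ⟨N, -, ⟨hN, h1⟩, hmin⟩ := exists_minimal_sub (fun M => M ⊴ H ∧ M ≠ ⊥) (A := H) ⟨Nml.rfl, H1⟩
    have hu : ∀ M, M ⊴ H → M ≠ ⊥ → N ≤ M := by
      intro M hM ne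
      by_cases e : N ⊓ M = ⊥
      · exact absurd (e ▸ (hquo N hN h1).inf2 (hquo M hM ne)) hc
      · exact inf_eq_left.1 (hmin _ ⟨hN.inf hM, e⟩ inf_le_left)
    have hO : ∀ M, M ⊴ H → PiGrp (alt p j) M → M = ⊥ := fun M hM hπ =>
      by_contra fun ne => hc ((hquo M hM ne).of_pi Nml.bot (by simpa using hπ))
    have hπ : PiGrp (alt p j)ᶜ N := by
      obtain ⟨l, hl⟩ := hm.min_pi (fun c => h1 (le_bot_iff.1 c)) hN.1 hu
      rcases alt_cases2 p l j with e | e
      · exact absurd (hO N hN (e ▸ hl)) h1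
      · exact e ▸ hl
    have hNj : ¬ AL p H j N := fun c => hc (AL.succ' (AL.of_pi c Nml.bot (by
      rw [hj, alt_succ, compl_compl] at hπ; simpa using hπ)))
    obtain ⟨-, W0, w1, w2⟩ := hquo N hN h1
    obtain ⟨W, w3, ⟨w4, hNW⟩, wmin⟩ := exists_minimal_sub (fun X => AL p H j X ∧ N ≤ X) (A := W0 ⊔ N)
      ⟨w2.up (w2.nml.sup hN) le_sup_left, le_sup_right⟩
    have hl : ∀ X, AL p H j X → N ≤ X → W ≤ X := fun X a1 a2 =>
      inf_eq_left.1 (wmin _ ⟨w4.inf2 a1, le_inf hNW a2⟩ inf_le_left)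
    have hi : PiNat (alt p j) (N.relIndex W) := by
      refine PiNat.idx_mono ?_ ((w2.nml.sup hN).1.trans hN.2) w3
      rwa [relIndex_sup_of_norm (w2.nml.1.trans hN.2)]
    have hne : W ≠ N := fun c => hNj (c ▸ w4)
    have ab := al_abel hp hN hu h1 hπ hO hsub w4.nml hNW hne hi hl
    obtain ⟨cN, gen⟩ := exists_gen_of_compl hN hu h1 ab hπ hO w4.nml hNW hne hi
    have : ¬ ∀ x ∈ H, ∀ y ∈ H, AL p (closure {x, y}) j ⊥ := fun c => hc (ihk _ H rfl ⟨m, hm⟩ c).succ'
    push Not at this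
    obtain ⟨x, hx, y, hy, nj⟩ := this
    have sH : N ⊔ closure {x, y} ≤ H := sup_le hN.1 (cl2_le hx hy)
    obtain ⟨x', hx', y', hy', e⟩ := gen x hx y hy (by
      by_contra ne
      obtain ⟨O, o1, o2⟩ := (hsub _ sH ne).bot_succ
      have : O ≤ N := (le_inf (o2.nml.1.trans sH) (cent_of_norm_coprime (o2.nml.1.trans (sH.trans hN.2))
        (le_sup_left.trans o2.nml.2) (PiNat.coprime o1 hπ))).trans cN
      rw [o1.eq_bot (hπ.of_le this)] at o2
      exact nj (o2.of_le le_sup_right))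
    exact hc (e ▸ h x' hx' y' hy')

theorem powell [IsSimpleGroup G] (hna : ¬ IsMulCommutative G) [hp : Fact p.Prime] (hd : p ∣ Nat.card G)
    (h : ∀ H : Subgroup G, H ≠ ⊤ → IsPSolvable p H) : ∃ x y z : G, closure ({x, y, z} : Set G) = ⊤ := by
  classical
  by_contra! hc
  have ex : ∃ m, ∀ H : Subgroup G, H ≠ ⊤ → AL p H m ⊥ := by
    choose! f hf using fun H hH => al_of_psol (h H hH)
    have := Fintype.ofFinite (Subgroup G)
    exact ⟨Finset.univ.sup f, fun H hH => (hf H hH).mono (Finset.le_sup (Finset.mem_univ H))⟩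
  have hm := Nat.find_spec ex
  rcases e : Nat.find ex with _ | j
  · rw [e] at hm
    obtain ⟨x, hx⟩ := exists_ne (1 : G)
    refine hx (eq_one_of_eq_bot (hm _ (hc x x x)).symm (subset_closure (by simp)))
  rw [e] at hm
  have := Nat.find_min ex (m := j) (by omega)
  push Not at this
  obtain ⟨H, hH, nj⟩ := this
  have : ¬ ∀ x ∈ H, ∀ y ∈ H, AL p (closure {x, y}) j ⊥ := fun c => nj (AL.two_gen hp.out j _ H rfl ⟨_, hm H hH⟩ c)
  push Not at this
  obtain ⟨a, -, b, -, nj⟩ := this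
  have aD : closure {a, b} ≠ (⊤ : Subgroup G) := fun c => hc a b b (by simpa using c)
  obtain ⟨-, W0, -, w0⟩ := hm _ aD
  obtain ⟨R, -, r1, rmin⟩ := exists_minimal_sub (fun X => AL p (closure {a, b}) j X) w0
  have hl : ∀ X, AL p (closure {a, b}) j X → R ≤ X := fun X a1 => inf_eq_left.1 (rmin _ (r1.inf2 a1) inf_le_left)
  obtain ⟨u, hu, u1⟩ := exists_mem_ne_one' (H := R) (fun c => nj (c ▸ r1))
  let S : Subgroup G :=
    { carrier := {u | ∀ y, PiElt (alt p j) y → PiElt (alt p j) (u * y) ∧ PiElt (alt p j) (u⁻¹ * y)}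
      one_mem' := fun y hy => by simpa using hy
      mul_mem' := fun {u v} hu hv y hy => by
        rw [mul_assoc, mul_inv_rev, mul_assoc]
        exact ⟨(hu _ (hv _ hy).1).1, (hv _ (hu _ hy).2).2⟩
      inv_mem' := fun {u} hu y hy => by rw [inv_inv]; exact (hu y hy).symm }
  have Sn : S.Normal := ⟨fun u hu g y hy => by
    have := hu (g⁻¹ * y * g⁻¹⁻¹) (hy.conj _)
    constructor
    · convert this.1.conj g using 1; group
    · convert this.2.conj g using 1; group⟩
  have uS : u ∈ S := by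
    intro y hy
    obtain ⟨W, w1, w2⟩ := (hm _ (hc a b y)).bot_succ
    have dl : closure {a, b} ≤ closure ({a, b, y} : Set G) := closure_mono (by simp [Set.insert_subset_iff])
    have uW : u ∈ W := ((hl _ (w2.inf dl)).trans inf_le_left) hu
    have yE : zpowers y ≤ closure ({a, b, y} : Set G) := zpowers_le.2 (subset_closure (by simp))
    have := w1.sup_norm' hy.zpowers (yE.trans w2.nml.2)
    exact ⟨this.elt (mul_mem_sup' uW (mem_zpowers y)), this.elt (mul_mem_sup' (inv_mem uW) (mem_zpowers y))⟩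
  have St : S = ⊤ := (Sn.eq_bot_or_eq_top).resolve_left (ne_bot_of_mem uS u1)
  have pG : PiGrp (alt p j) (⊤ : Subgroup G) := piGrp_of_elt fun x _ => by
    have : x ∈ S := St ▸ mem_top x
    simpa using (this 1 PiElt.one).1
  rcases alt_cases p j with e | e
  · rw [e] at pG
    have := pG.solv.der_lt top_ne_bot
    have t := ((nml_der (H := (⊤ : Subgroup G))).normal.eq_bot_or_eq_top).resolve_right this.ne
    exact hna ⟨⟨fun x y => comm_of_cent (abel_iff_der.2 t) (mem_top x) (mem_top y)⟩⟩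
  · rw [e] at pG
    exact (piNat_compl_iff hp.out).1 pG (by simpa using hd)

end H21
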