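import Cfsg.Agent.H29.Q0

/-! Overgroups of `Ω₃(K)`: many elements fixing the intersection of two members pointwise (`pD`). -/

set_option autoImplicit false
set_option linter.unusedSectionVars false

namespace H21.Q3D

open Module H11 H11.PForm H29 H29.Q3

variable {F K V : Type*} [Field F] [Field K] [Algebra F K] [AddCommGroup V] [Module F V]
  [Module K V] [IsScalarTower F K V] [FiniteDimensional F V] {S : PForm (orthP F) V}
  [Finite F] [Finite K] {φ : Dual F K} {U : PForm (orthP K) V} {H : Subgroup S.Isom}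

theorem half [FiniteDimensional F K] (hφ : φ ≠ 0) {l : K} (hl : l ≠ 0) (E : Submodule F K)
    (h : ∀ a ∈ E, ∀ b ∈ E, φ (l * a * b) = 0) : 2 * finrank F E ≤ finrank F K := by
  let f : K →ₗ[F] Dual F E := ((LinearMap.mul F K).compr₂ φ).compl₂ (LinearMap.mulLeft F l ∘ₗ E.subtype)
  have hf : ∀ a (b : E), f a b = φ (a * (l * b)) := fun _ _ => rfl
  have inj : Function.Injective f.flip := (injective_iff_map_eq_zero _).2 fun b hb => Subtype.ext
    ((mul_eq_zero.1 (eq_zero_of_dual hφ fun k => (hf k b).symm.trans (LinearMap.congr_fun hb k))).resolve_left hl)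
  have sur : Function.Surjective f := (LinearMap.flip_injective_iff₁).1 inj
  have h1 := LinearMap.finrank_range_add_finrank_ker f
  rw [LinearMap.range_eq_top.2 sur, finrank_top, Subspace.dual_finrank_eq] at h1
  have h2 := Submodule.finrank_mono (show E ≤ LinearMap.ker f from fun a ha => LinearMap.ext fun b => by
    rw [hf, LinearMap.zero_apply, ← h a ha b b.2]; congr 1; ring)
  omega

theorem exy (h : OX φ U H) {u : V} (hu : U.Sing u) (u0 : u ≠ 0) : ∃ y, U.h u y = 0 ∧ U.q y ≠ 0 ∧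
    ∀ s : K, s ≠ 0 → s • y ∉ K ∙ u := by
  haveI := h.fd
  obtain ⟨w, Hy⟩ := h.ndK.exists_isHyp hu u0
  obtain ⟨y, -, y2, -, -, -, -, qy⟩ := h.ex_pair hu Hy.sing_f (by simp [Hy.h_ef])
  refine ⟨y, y2, qy, fun s hs k => ?_⟩
  obtain ⟨a, rfl⟩ := Submodule.mem_span_singleton.1 ((Submodule.smul_mem_iff _ hs).1 k)
  exact qy ((U.orth_sing _).1 (hu.smul a))

theorem pD (h : O3 φ U H) (fx : FX U) (tx : TX U H) (ca : CA U H) : INJ U H := by
  intro d u Y hM hu u0 hY uY ne hd hr
  have h := h.toOX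
  haveI := h.fd
  haveI : FiniteDimensional F K := finite_of_finrank_pos h.pr.pos
  obtain ⟨y, y1, y2, y3⟩ := exy h hu u0
  obtain ⟨k, hk, v, v0, hv, eY⟩ := id hY
  obtain ⟨w, w1, -, w3⟩ := exy h hv v0
  choose t ht et using fun s : K => h.hH _ (U.eich_mem_E u (s • y) (U.q (s • y)))
  choose l hl el using fun s : K => h.hH _ (U.eich_mem_E v (s • w) (U.q (s • w)))
  have fY : ∀ s, ∀ z ∈ Y, (k * l s * k⁻¹).1 z = z := fun s z hz => by
    rw [eY] at hz
    obtain ⟨_, ⟨a, rfl⟩, rfl⟩ := hz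
    simp [el, eich_apply_self]
  obtain ⟨s₀, hs₀⟩ := ex_one h.hφ
  refine ⟨{i | φ i.1 = 1}, fun i => k * l i.2 * k⁻¹ * t i.1, ?_, fun i _ => ⟨H.mul_mem (H.mul_mem (H.mul_mem hk (hl _))
    (H.inv_mem hk)) (ht _), fun z hz => ?_⟩, ?_⟩
  · let f : K × K → F × {i : K × K | φ i.1 = 1} := fun a =>
      (φ a.1, ⟨(a.1 + (1 - φ a.1) • s₀, a.2), by simp [hs₀]⟩)
    have := Nat.card_le_card_of_injective f fun a b e => by
      simp only [f, Prod.mk.injEq, Subtype.mk.injEq] at e
      exact Prod.ext (by simpa [e.1] using e.2.1) e.2.2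
    rwa [Nat.card_prod, Nat.card_prod, ← sq, Nat.card_coe_set_eq] at this
  · obtain ⟨a, rfl⟩ := mem_KL.1 hz.1
    rw [isom_mul_apply, show (t i.1).1 (a • u) = a • u by simp [et, eich_apply_self], fY _ _ hz.2]
  rintro ⟨s, s'⟩ hs ⟨σ, σ'⟩ hσ e
  replace hs : φ s = 1 := hs
  replace hσ : φ σ = 1 := hσ
  have s0 : s ≠ 0 := by rintro rfl; simp at hs
  have e1 : ∀ z ∈ Y, ∀ z' ∈ Y, S.h z' ((t s).1 z) = S.h z' ((t σ).1 z) := fun z hz z' hz' => by
    rw [← isom_h (k * l s' * k⁻¹), ← isom_h (k * l σ' * k⁻¹) z', fY _ _ hz', fY _ _ hz']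
    exact congrArg _ (e z hz)
  have e2 : ∀ s z z', S.h z' ((t s).1 z) + S.h z ((t s).1 z') =
      φ (U.h z' z + U.h z z') - 2 * φ (U.q y * s ^ 2 * U.h u z * U.h u z') := fun s z z' => by
    rw [← h.hU, ← h.hU, ← map_add, two_mul, ← map_add, ← map_sub, et, et,
      eich_apply (.of_q hu (by simp [y1])), eich_apply (.of_q hu (by simp [y1]))]
    congr 1
    simp [U.orth_symm u z, U.orth_symm u z', U.orth_symm y z, U.orth_symm y z', U.orth_q_smul]
    ring
  have e3 : s = σ := by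
    by_contra n
    have l0 : U.q y * (s ^ 2 - σ ^ 2) ≠ 0 := mul_ne_zero y2 (sub_ne_zero.2 fun k =>
      (sq_eq_sq_iff_eq_or_eq_neg.1 k).elim n fun k => h.two (by
        rw [k, map_neg, hσ] at hs; linear_combination -hs))
    let g : Y →ₗ[F] K := (U.h u).restrictScalars F ∘ₗ Y.subtype
    have a1 := half h.hφ l0 (LinearMap.range g) (by
      rintro _ ⟨z, rfl⟩ _ ⟨z', rfl⟩
      have := e2 s z z'
      rw [e1 _ z.2 _ z'.2, e1 _ z'.2 _ z.2, e2, sub_right_inj] at this
      have := mul_left_cancel₀ h.two this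
      rw [mul_sub, sub_mul, sub_mul, map_sub, sub_eq_zero]
      exact this.symm)
    have a2 := LinearMap.finrank_range_add_finrank_ker g
    have a3 : finrank F (LinearMap.ker g) ≤ finrank F (KL F K u ⊓ Y : Submodule F V) := by
      rw [← Submodule.finrank_map_subtype_eq]
      refine Submodule.finrank_mono ?_
      rintro _ ⟨z, hz, rfl⟩
      refine ⟨ca d _ _ _ hM (om_kl hu u0) hY hd z.2 ?_, z.2⟩
      intro x hx
      obtain ⟨a, rfl⟩ := mem_KL.1 hx
      exact h.hz (x := a • u) (y := z) (by rw [h_smul_left, show U.h u z = 0 from hz, mul_zero])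
    have a4 : finrank F (KL F K u ⊓ Y : Submodule F V) ≤ d + 1 :=
      not_lt.1 fun k => ne (hM _ _ (om_kl hu u0) hY k).symm
    rw [hY.finrank] at a2
    omega
  subst e3
  refine Prod.ext rfl (by_contra fun n => ne (tx u (s • y) Y (t s) hu u0 (by simp [y1]) (y3 s s0) hY uY (ht s) (et s)
    fun z hz => ?_))
  have a := e z hz
  simp only [isom_mul_apply, el] at a
  replace a := k.1.injective a
  have c1 : U.ECond v (σ' • w) (U.q (σ' • w)) := .of_q hv (by simp [w1])
  have c2 : U.ECond v ((s' - σ') • w) (U.q ((s' - σ') • w)) := .of_q hv (by simp [w1])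
  have m := eich_mul c1 c2
  rw [← U.orth_q_add, ← add_smul, add_sub_cancel] at m
  rw [← m, isom_mul_apply] at a
  have := fx v _ _ hv v0 (by simp [w1]) (w3 _ (sub_ne_zero.2 n)) ((U.eich v (σ' • w) (U.q (σ' • w))).1.injective a)
  rw [eY]
  exact ⟨_, mem_KL'.2 this, by simp⟩

end H21.Q3D
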