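import Cfsg.Agent.H22.Frobenius
import Cfsg.Agent.H22.Count
/-! Same-order types: `so G m` is the number of elements of order `m`; Frobenius congruences `so_key`, `so_keyk`,
`so_tot`, and the reduction `so_vals`. -/
set_option autoImplicit false
open Finset

namespace H21
/-- the number of elements of order `m` -/
noncomputable def so (G : Type*) [Group G] (m : ℕ) : ℕ := Nat.card {g : G // orderOf g = m}

variable {G : Type*} [Group G] [Finite G] {m n p k : ℕ}

theorem so_one : so G 1 = 1 := by simp [so]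
theorem so_tot (m : ℕ) : m.totient ∣ so G m := H22.totient_dvd_card_orderOf_eq m
theorem so_ne : so G m ≠ 0 ↔ ∃ g : G, orderOf g = m := by
  rw [so, Nat.card_ne_zero, nonempty_subtype]; exact and_iff_left inferInstance
theorem so_dvd (h : so G m ≠ 0) : m ∣ Nat.card G := let ⟨g, e⟩ := so_ne.1 h; e ▸ orderOf_dvd_natCard g
theorem so_of_dvd (h : so G m ≠ 0) (hd : n ∣ m) : so G n ≠ 0 := by
  obtain ⟨g, rfl⟩ := so_ne.1 h
  exact so_ne.2 ⟨_, orderOf_pow_orderOf_div (orderOf_pos g).ne' hd⟩
theorem so_sum (hn : n ≠ 0) : ∑ d ∈ n.divisors, so G d = Nat.card {x : G // x ^ n = 1} := by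
  classical
  have := Fintype.ofFinite G
  simp only [so, Nat.card_eq_fintype_card, Fintype.card_subtype]
  exact sum_card_orderOf_eq_card_pow_eq_one hn
theorem so_keyk (hp : p.Prime) (hG : p ^ k ∣ Nat.card G) (hn : ¬ p ∣ n) : p ^ k ∣ ∑ i ∈ range (k + 1), so G (p ^ i * n) := by
  induction n using Nat.strong_induction_on with | _ n ih =>
  have n0 : n ≠ 0 := by rintro rfl; simp at hn
  have c : (p ^ k).Coprime n := ((Nat.Prime.coprime_iff_not_dvd hp).2 hn).pow_left k
  have := (Nat.dvd_gcd (dvd_mul_right _ n) hG).trans (H22.frobenius_gcd_dvd (G := G) (p ^ k * n))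
  rw [← so_sum (mul_ne_zero (pow_ne_zero k hp.ne_zero) n0), Nat.divisors_mul, mul_def, sum_image c.mul_injOn_divisors,
    sum_product_right, ← Nat.insert_self_properDivisors n0, sum_insert Nat.self_notMem_properDivisors] at this
  simp only [Nat.sum_divisors_prime_pow hp] at this
  exact (Nat.dvd_add_left (dvd_sum fun d hd => ih d (Nat.mem_properDivisors.1 hd).2
    fun e => hn (e.trans (Nat.mem_properDivisors.1 hd).1))).1 this
theorem so_key (hp : p.Prime) (hG : p ∣ Nat.card G) (hn : ¬ p ∣ n) : p ∣ so G n + so G (p * n) := by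
  simpa [sum_range_succ] using so_keyk (k := 1) hp (by simpa using hG) hn
theorem so_prime (hp : p.Prime) (hG : p ∣ Nat.card G) : p ∣ 1 + so G p := by
  simpa [so_one] using so_key hp hG (n := 1) (by simpa using hp.ne_one)
theorem so_prime_ne (hp : p.Prime) (hG : p ∣ Nat.card G) : so G p ≠ 0 := fun e =>
  hp.ne_one (by simpa [e] using so_prime hp hG)
theorem so_even (h : 2 < m) : 2 ∣ so G m := (Nat.totient_even h).two_dvd.trans (so_tot m)
theorem so_sq (hp : p.Prime) (h : p * p ∣ m) : p ∣ so G m := by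
  by_cases e : so G m = 0
  · simp [e]
  refine (Dvd.dvd.trans ?_ (Nat.totient_dvd_of_dvd h)).trans (so_tot m)
  rw [← pow_two, Nat.totient_prime_pow hp two_pos]; simp
theorem so_four {a b : ℕ} (ha : 2 < a) (hb : 2 < b) (c : a.Coprime b) (h : a * b ∣ m) : 4 ∣ so G m := by
  refine (Dvd.dvd.trans ?_ (Nat.totient_dvd_of_dvd h)).trans (so_tot m)
  rw [Nat.totient_mul c]
  exact mul_dvd_mul (Nat.totient_even ha).two_dvd (Nat.totient_even hb).two_dvd
theorem so_vals (h : ((fun m : ℕ => Nat.card {g : G // orderOf g = m}) '' Set.range (orderOf : G → ℕ)).ncard = 3) :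
    ∃ a b, ∀ m, 2 < m → so G m = 0 ∨ so G m = a ∨ so G m = b := by
  obtain ⟨x, y, z, -, -, -, e⟩ := Set.ncard_eq_three.1 h
  have k : ∀ m, so G m ≠ 0 → so G m = x ∨ so G m = y ∨ so G m = z := fun m hm => by
    simpa [so] using e.le ⟨m, so_ne.1 hm, rfl⟩
  have o := k 1 (by simp [so_one])
  rw [so_one] at o
  have k' : ∀ m, 2 < m → so G m ≠ 1 := fun m hm e => by simpa [e] using so_even (G := G) hm
  rcases o with rfl | rfl | rfl
  · exact ⟨y, z, fun m hm => by have := k m; have := k' m hm; tauto⟩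
  · exact ⟨x, z, fun m hm => by have := k m; have := k' m hm; tauto⟩
  · exact ⟨x, y, fun m hm => by have := k m; have := k' m hm; tauto⟩
/-- `p ∣ 1 + a` and `p ∣ a + c` with `c ∈ {0, a}` is impossible for odd `p` -/
theorem so_no {a c : ℕ} (hp : p.Prime) (h2 : 2 < p) (h1 : p ∣ 1 + a) (h : p ∣ a + c) : c ≠ 0 ∧ c ≠ a := by
  refine ⟨fun e => hp.ne_one (Nat.dvd_one.1 ((Nat.dvd_add_left (by simpa [e] using h)).1 h1)), fun e => ?_⟩
  have := (Nat.dvd_add_left h).1 (show p ∣ 2 + (a + c) by rw [e, show 2 + (a + a) = 2 * (1 + a) by ring]; exact h1.mul_left 2)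
  exact (Nat.le_of_dvd two_pos this).not_gt h2

end H21
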