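import Cfsg.Agent.H21.SchurMetacyclic

/-! Schur multiplier of a group with a cyclic subgroup `⟨a⟩` of index two inverted by `b`
(`schur_inverting`), generation of dihedral and dicyclic groups by two elements. -/

namespace H21

open Subgroup Cfsg
open scoped commutatorElement

theorem two_dvd_of_zpow_mem {G : Type*} [Group G] (H : Subgroup G) (b : G) (hb : b ∉ H) (hb2 : b ^ 2 ∈ H)
    (j : ℤ) (hj : b ^ j ∈ H) : (2 : ℤ) ∣ j := by
  rcases Int.even_or_odd' j with ⟨k, rfl | rfl⟩
  · exact dvd_mul_right _ _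
  · exfalso
    apply hb
    have h1 : b ^ (2 * k) ∈ H := by
      rw [zpow_mul]; exact zpow_mem (by exact_mod_cast hb2) k
    rw [zpow_add_one] at hj
    exact (H.mul_mem_cancel_left h1).mp hj

theorem schur_inverting {G : Type*} [Group G] [Finite G] (a b : G) (hgen : closure {a, b} = ⊤)
    (m t : ℕ) (hm : orderOf a = m) (hr : b * a * b⁻¹ = a⁻¹) (hbn : b ^ 2 = a ^ t)
    (hb : b ∉ zpowers a) (g : ℕ) (hg : Nat.gcd m t = m / Nat.gcd m 2 * g) :
    HasCyclicSchurMultiplier G g := by
  have hm0 : 0 < m := hm ▸ orderOf_pos a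
  have ham : a ^ m = 1 := hm ▸ pow_orderOf_eq_one a
  refine schur_metacyclic a b hgen m 2 (m - 1) t hm ?_ hbn ?_ g ?_
  · rw [hr, eq_comm, eq_inv_iff_mul_eq_one, ← pow_succ, Nat.sub_add_cancel hm0, ham]
  · exact two_dvd_of_zpow_mem _ b hb (hbn ▸ pow_mem (mem_zpowers a) t)
  · have h1 : ∑ i ∈ Finset.range 2, (m - 1) ^ i = m := by
      simp [Finset.sum_range_succ]; omega
    have h2 : ⁅b, a⁆ = (a ^ 2)⁻¹ := by rw [commutatorElement_def, hr]; group
    rw [h1, h2, orderOf_inv, orderOf_pow, hm, ← hg, Nat.gcd_comm t m, ← Nat.gcd_assoc, Nat.gcd_self]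

theorem dihedral_closure (n : ℕ) :
    closure {DihedralGroup.r (1 : ZMod n), DihedralGroup.sr (0 : ZMod n)} = ⊤ := by
  have h : ∀ i : ZMod n, DihedralGroup.r i ∈
      closure {DihedralGroup.r (1 : ZMod n), DihedralGroup.sr (0 : ZMod n)} := by
    intro i
    obtain ⟨k, rfl⟩ := ZMod.intCast_surjective i
    rw [← DihedralGroup.r_one_zpow]
    exact zpow_mem (subset_closure (by simp)) k
  rw [eq_top_iff]
  rintro (i | i) -
  · exact h i
  · have : DihedralGroup.sr i = DihedralGroup.sr 0 * DihedralGroup.r i := by simp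
    rw [this]
    exact mul_mem (subset_closure (by simp)) (h i)

theorem dihedral_sr_notMem (n : ℕ) (i : ZMod n) :
    DihedralGroup.sr i ∉ zpowers (DihedralGroup.r (1 : ZMod n)) := by
  rintro ⟨k, hk⟩
  simp only [DihedralGroup.r_one_zpow] at hk
  cases hk

theorem quaternion_closure (n : ℕ) [NeZero n] :
    closure {QuaternionGroup.a (1 : ZMod (2 * n)), QuaternionGroup.xa (0 : ZMod (2 * n))} = ⊤ := by
  have h : ∀ i : ZMod (2 * n), QuaternionGroup.a i ∈
      closure {QuaternionGroup.a (1 : ZMod (2 * n)), QuaternionGroup.xa (0 : ZMod (2 * n))} := by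
    intro i
    obtain ⟨k, rfl⟩ := ZMod.natCast_zmod_surjective i
    rw [← QuaternionGroup.a_one_pow]
    exact pow_mem (subset_closure (by simp)) k
  rw [eq_top_iff]
  rintro (i | i) -
  · exact h i
  · have : QuaternionGroup.xa i = QuaternionGroup.xa 0 * QuaternionGroup.a i := by simp
    rw [this]
    exact mul_mem (subset_closure (by simp)) (h i)

theorem quaternion_xa_notMem (n : ℕ) [NeZero n] (i : ZMod (2 * n)) :
    QuaternionGroup.xa i ∉ zpowers (QuaternionGroup.a (1 : ZMod (2 * n))) := by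
  intro h
  obtain ⟨k, hk⟩ := (mem_powers_iff_mem_zpowers.mpr h)
  simp only [QuaternionGroup.a_one_pow] at hk
  cases hk

theorem schur_dihedral (n : ℕ) [NeZero n] : HasCyclicSchurMultiplier (DihedralGroup n) (Nat.gcd n 2) := by
  refine schur_inverting _ _ (dihedral_closure n) n 0 DihedralGroup.orderOf_r_one (by simp) (by simp [sq])
    (dihedral_sr_notMem n 0) _ ?_
  rw [Nat.gcd_zero_right, Nat.div_mul_cancel (Nat.gcd_dvd_left _ _)]

theorem schur_quaternion (n : ℕ) [NeZero n] : HasCyclicSchurMultiplier (QuaternionGroup n) 1 := by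
  refine schur_inverting _ _ (quaternion_closure n) (2 * n) n QuaternionGroup.orderOf_a_one ?_ ?_
    (quaternion_xa_notMem n 0) _ ?_
  · rw [mul_inv_eq_iff_eq_mul, eq_inv_mul_iff_mul_eq]
    simp
  · rw [QuaternionGroup.xa_sq, QuaternionGroup.a_one_pow]
  · simp [Nat.gcd_mul_right_left]

end H21
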