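import Cfsg.Agent.H21.SchurCover
import Cfsg.Agent.H23.Comm

/-! Schur multiplier of a direct product (`schur_prod`): `M(Q₁ × Q₂) = M(Q₁) × M(Q₂) × (Q₁ᵃᵇ ⊗ Q₂ᵃᵇ)`;
bimultiplicative maps factor through the tensor product (`exists_tensor_lift`). -/

namespace H21

open Subgroup Cfsg
open scoped commutatorElement TensorProduct

universe u v w

/-- The tensor product of the abelianizations, written multiplicatively. -/
abbrev AbTensor (Q₁ : Type u) (Q₂ : Type v) [Group Q₁] [Group Q₂] :=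
  Multiplicative (TensorProduct ℤ (Additive (Abelianization Q₁)) (Additive (Abelianization Q₂)))

section

variable {Q₁ : Type u} {Q₂ : Type v} [Group Q₁] [Group Q₂]

/-- The universal bimultiplicative map. -/
def abTmul : Q₁ →* Q₂ →* AbTensor Q₁ Q₂ where
  toFun x :=
    { toFun := fun y => Multiplicative.ofAdd
        (Additive.ofMul (Abelianization.of x) ⊗ₜ[ℤ] Additive.ofMul (Abelianization.of y))
      map_one' := by simp
      map_mul' := fun y y' => by rw [map_mul, ofMul_mul, TensorProduct.tmul_add, ofAdd_add] }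
  map_one' := by ext; simp
  map_mul' x x' := by
    ext y
    simp only [map_mul, ofMul_mul, TensorProduct.add_tmul, ofAdd_add, MonoidHom.coe_mk, OneHom.coe_mk,
      MonoidHom.mul_apply]

theorem abTensor_induction (H : Subgroup (AbTensor Q₁ Q₂)) (h : ∀ x y, abTmul x y ∈ H) : H = ⊤ := by
  rw [eq_top_iff]
  rintro t -
  obtain ⟨t, rfl⟩ := Multiplicative.ofAdd.surjective t
  induction t with
  | zero => exact one_mem H
  | tmul x y =>
    obtain ⟨x, rfl⟩ := Additive.ofMul.surjective x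
    obtain ⟨y, rfl⟩ := Additive.ofMul.surjective y
    obtain ⟨x, rfl⟩ := QuotientGroup.mk_surjective x
    obtain ⟨y, rfl⟩ := QuotientGroup.mk_surjective y
    exact h x y
  | add x y hx hy => exact mul_mem hx hy

theorem exists_tensor_lift {C : Type w} [CommGroup C] (β : Q₁ →* Q₂ →* C) :
    ∃ f : AbTensor Q₁ Q₂ →* C, ∀ x y, f (abTmul x y) = β x y := by
  let β1 : Q₁ →* Abelianization Q₂ →* C :=
    { toFun := fun x => Abelianization.lift (β x)
      map_one' := by ext; simp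
      map_mul' := fun x x' => by ext; simp }
  let β2 : Abelianization Q₁ →* Abelianization Q₂ →* C := Abelianization.lift β1
  let β3 : Additive (Abelianization Q₁) →+ Additive (Abelianization Q₂) →+ Additive C :=
    { toFun := fun x => MonoidHom.toAdditive (β2 x.toMul)
      map_zero' := by ext; simp
      map_add' := fun x x' => by ext; simp }
  let β4 : Additive (Abelianization Q₁) →ₗ[ℤ] Additive (Abelianization Q₂) →ₗ[ℤ] Additive C :=
    LinearMap.mk₂ ℤ (fun x y => β3 x y) (fun _ _ _ => by simp) (fun _ _ _ => by simp)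
      (fun _ _ _ => by simp) (fun _ _ _ => by simp)
  exact ⟨AddMonoidHom.toMultiplicativeLeft (TensorProduct.lift β4).toAddMonoidHom, fun x y => rfl⟩

end

theorem commutatorElement_eq_of_central {X Q : Type*} [Group X] [Group Q] {ξ : X →* Q} (hc : ξ.ker ≤ center X)
    {a a' b b' : X} (ha : ξ a = ξ a') (hb : ξ b = ξ b') : ⁅a, b⁆ = ⁅a', b'⁆ := by
  have h1 : a'⁻¹ * a ∈ center X := hc (by rw [MonoidHom.mem_ker, map_mul, map_inv, ha, inv_mul_cancel])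
  have h2 : b'⁻¹ * b ∈ center X := hc (by rw [MonoidHom.mem_ker, map_mul, map_inv, hb, inv_mul_cancel])
  obtain ⟨z, rfl⟩ : ∃ z, a = a' * z := ⟨a'⁻¹ * a, by group⟩
  obtain ⟨y, rfl⟩ : ∃ y, b = b' * y := ⟨b'⁻¹ * b, by group⟩
  rw [inv_mul_cancel_left] at h1 h2
  have e1 := mem_center_iff.mp h1
  have e2 := mem_center_iff.mp h2
  calc ⁅a' * z, b' * y⁆ = a' * (z * (b' * y)) * z⁻¹ * (a'⁻¹ * y⁻¹) * b'⁻¹ := by
        rw [commutatorElement_def]; group
    _ = a' * b' * (y * a'⁻¹) * y⁻¹ * b'⁻¹ := by rw [← e1]; group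
    _ = _ := by rw [← e2, commutatorElement_def]; group

/-- Upper bound for the multiplier of a product. -/
theorem prod_stem_surj {Q₁ : Type u} {Q₂ : Type v} [Group Q₁] [Group Q₂] {A B : Type*} [CommGroup A]
    [CommGroup B] (hA : HasSchurMultiplier Q₁ A) (hB : HasSchurMultiplier Q₂ B) {Δ : Type*} [Group Δ]
    (σ : Δ →* Q₁ × Q₂) (hσ : IsStemExtension σ) :
    ∃ π : A × B × AbTensor Q₁ Q₂ →* σ.ker, Function.Surjective π := by
  letI := commGroupOfLeCenter hσ.2.1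
  let D₁ : Subgroup Δ := ((MonoidHom.snd Q₁ Q₂).comp σ).ker
  let D₂ : Subgroup Δ := ((MonoidHom.fst Q₁ Q₂).comp σ).ker
  let ξ₁ : D₁ →* Q₁ := ((MonoidHom.fst Q₁ Q₂).comp σ).comp D₁.subtype
  let ξ₂ : D₂ →* Q₂ := ((MonoidHom.snd Q₁ Q₂).comp σ).comp D₂.subtype
  have hs₁ : Function.Surjective ξ₁ := fun x => by
    obtain ⟨d, hd⟩ := hσ.1 (x, 1)
    exact ⟨⟨d, congrArg Prod.snd hd⟩, congrArg Prod.fst hd⟩
  have hs₂ : Function.Surjective ξ₂ := fun x => by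
    obtain ⟨d, hd⟩ := hσ.1 (1, x)
    exact ⟨⟨d, congrArg Prod.fst hd⟩, congrArg Prod.snd hd⟩
  have hk₁ : ∀ d : D₁, d ∈ ξ₁.ker → (d : Δ) ∈ σ.ker := fun d hd => Prod.ext hd d.2
  have hk₂ : ∀ d : D₂, d ∈ ξ₂.ker → (d : Δ) ∈ σ.ker := fun d hd => Prod.ext d.2 hd
  obtain ⟨π₁, hπ₁⟩ := schur_surj_central hA ξ₁ hs₁ fun d hd =>
    mem_center_iff.mpr fun g => Subtype.ext (mem_center_iff.mp (hσ.2.1 (hk₁ d hd)) g)
  obtain ⟨π₂, hπ₂⟩ := schur_surj_central hB ξ₂ hs₂ fun d hd =>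
    mem_center_iff.mpr fun g => Subtype.ext (mem_center_iff.mp (hσ.2.1 (hk₂ d hd)) g)
  let ι₁ : ↥(ξ₁.ker ⊓ commutator D₁) →* σ.ker :=
    (D₁.subtype.comp (Subgroup.subtype _)).codRestrict _ fun d => hk₁ d d.2.1
  let ι₂ : ↥(ξ₂.ker ⊓ commutator D₂) →* σ.ker :=
    (D₂.subtype.comp (Subgroup.subtype _)).codRestrict _ fun d => hk₂ d d.2.1
  choose s₁ hs₁ using hs₁
  choose s₂ hs₂ using hs₂
  have hmem : ∀ (d : D₁) (d' : D₂), ⁅(d : Δ), (d' : Δ)⁆ ∈ σ.ker := fun d d' => by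
    rw [MonoidHom.mem_ker, map_commutatorElement]
    have h1 : (σ d).2 = 1 := d.2
    have h2 : (σ d').1 = 1 := d'.2
    ext
    · simp [commutatorElement_def, h2]
    · simp [commutatorElement_def, h1]
  have hwd : ∀ (d : D₁) (d' : D₂), ⁅(d : Δ), (d' : Δ)⁆ = ⁅(s₁ (ξ₁ d) : Δ), (s₂ (ξ₂ d') : Δ)⁆ := fun d d' =>
    commutatorElement_eq_of_central hσ.2.1 (Prod.ext (hs₁ (ξ₁ d)).symm (d.2.trans (s₁ _).2.symm))
      (Prod.ext (d'.2.trans (s₂ _).2.symm) (hs₂ (ξ₂ d')).symm)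
  let β : Q₁ →* Q₂ →* σ.ker := MonoidHom.mk'
    (fun x => MonoidHom.mk' (fun y => ⟨⁅(s₁ x : Δ), (s₂ y : Δ)⁆, hmem _ _⟩) fun y y' => by
      apply Subtype.ext
      have := hwd (s₁ x) (s₂ y * s₂ y')
      rw [map_mul, hs₁, hs₂, hs₂] at this
      have h2 := mem_center_iff.mp (hσ.2.1 (hmem (s₁ x) (s₂ y'))) (s₂ y)
      change ⁅(s₁ x : Δ), (s₂ (y * y') : Δ)⁆ = ⁅(s₁ x : Δ), (s₂ y : Δ)⁆ * ⁅(s₁ x : Δ), (s₂ y' : Δ)⁆
      rw [← this, coe_mul, commutatorElement_mul_right_eq_mul_conj, mul_assoc, mul_assoc, ← mul_assoc (s₂ y : Δ),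
        h2, mul_inv_cancel_right])
    fun x x' => by
      ext y
      have := hwd (s₁ x * s₁ x') (s₂ y)
      rw [map_mul, hs₁, hs₁, hs₂] at this
      have h2 := mem_center_iff.mp (hσ.2.1 (hmem (s₁ x') (s₂ y)))
      change ⁅(s₁ (x * x') : Δ), (s₂ y : Δ)⁆ = ⁅(s₁ x : Δ), (s₂ y : Δ)⁆ * ⁅(s₁ x' : Δ), (s₂ y : Δ)⁆
      rw [← this, coe_mul, commutatorElement_mul_left_eq_conj_mul, h2, mul_inv_cancel_right, h2]
  obtain ⟨τ, hτ⟩ := exists_tensor_lift β
  refine ⟨(ι₁.comp π₁).coprod ((ι₂.comp π₂).coprod τ), ?_⟩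
  rintro ⟨k, hk⟩
  let T : Subgroup Δ := (σ.ker.subtype.comp τ).range
  have hT : T ≤ σ.ker := by rintro _ ⟨t, rfl⟩; exact (τ t).2
  have : T.Normal := normal_of_le_center (hT.trans hσ.2.1)
  have h12 : ⁅D₁, D₂⁆ ≤ T := by
    rw [commutator_le]
    intro d hd d' hd'
    exact ⟨abTmul (ξ₁ ⟨d, hd⟩) (ξ₂ ⟨d', hd'⟩), by
      rw [MonoidHom.comp_apply, hτ]; exact (hwd ⟨d, hd⟩ ⟨d', hd'⟩).symm⟩
  have hsup : D₁ ⊔ D₂ = ⊤ := by
    rw [eq_top_iff]
    intro g _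
    have : g = (g * (s₂ (σ g).2 : Δ)⁻¹) * s₂ (σ g).2 := by group
    rw [this]
    refine mul_mem_sup ?_ (s₂ _).2
    have h := hs₂ (σ g).2
    change (σ (s₂ (σ g).2)).2 = _ at h
    change (σ _).2 = 1
    rw [map_mul, map_inv, Prod.snd_mul, Prod.snd_inv, h, mul_inv_cancel]
  have hcomm : commutator Δ ≤ (⁅D₁, D₁⁆ ⊔ ⁅D₂, D₂⁆) ⊔ T := by
    rw [commutator_def, ← hsup]
    refine H23.commutator_sup_le _ _ _ _ (H23.commutator_sup_right_le _ _ _ _ ?_ ?_)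
      (H23.commutator_sup_right_le _ _ _ _ ?_ ?_)
    · exact le_sup_left.trans le_sup_left
    · exact h12.trans le_sup_right
    · rw [commutator_comm]; exact h12.trans le_sup_right
    · exact le_sup_right.trans le_sup_left
  have hk' := hcomm (hσ.2.2 hk)
  rw [← SetLike.mem_coe, mul_normal, mul_normal] at hk'
  obtain ⟨_, ⟨d₁, hd₁, d₂, hd₂, rfl⟩, _, ⟨t, rfl⟩, rfl⟩ := hk'
  rw [← D₁.map_subtype_commutator] at hd₁
  rw [← D₂.map_subtype_commutator] at hd₂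
  obtain ⟨d₁, hd₁, rfl⟩ := hd₁
  obtain ⟨d₂, hd₂, rfl⟩ := hd₂
  have h0 : σ d₁ * σ d₂ = 1 := by
    have h := hk
    have ht : σ (τ t) = 1 := (τ t).2
    simpa [ht] using h
  have e1 : (σ d₁).2 = 1 := d₁.2
  have e2 : (σ d₂).1 = 1 := d₂.2
  obtain ⟨a, ha⟩ := hπ₁ ⟨d₁, by
    have := congrArg Prod.fst h0
    rw [Prod.fst_mul, e2, mul_one] at this
    exact this, hd₁⟩
  obtain ⟨b, hb⟩ := hπ₂ ⟨d₂, by
    have := congrArg Prod.snd h0
    rw [Prod.snd_mul, e1, one_mul] at this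
    exact this, hd₂⟩
  refine ⟨(a, b, t), Subtype.ext ?_⟩
  simp only [MonoidHom.coprod_apply, MonoidHom.comp_apply, ha, hb, coe_mul, mul_assoc]
  rfl

section twisted

variable {Γ₁ Γ₂ T : Type*} [Group Γ₁] [Group Γ₂] [CommGroup T] (β : Γ₁ →* Γ₂ →* T)

/-- The action of `Γ₂` on `Γ₁ × T` given by a bimultiplicative map. -/
def twistAut : Γ₂ →* MulAut (Γ₁ × T) where
  toFun y :=
    { toFun := fun p => (p.1, β p.1 y * p.2)
      invFun := fun p => (p.1, (β p.1 y)⁻¹ * p.2)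
      left_inv := fun p => by simp
      right_inv := fun p => by simp
      map_mul' := fun p q => by
        ext
        · rfl
        · simp [mul_mul_mul_comm] }
  map_one' := by ext <;> simp
  map_mul' y y' := by ext <;> simp [mul_assoc]

theorem twistAut_apply (y : Γ₂) (p : Γ₁ × T) : twistAut β y p = (p.1, β p.1 y * p.2) := rfl

end twisted

theorem map_commutator_le {G H : Type*} [Group G] [Group H] (f : G →* H) :
    (commutator G).map f ≤ commutator H := by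
  rw [map_commutator_eq]; exact commutator_mono le_top le_top

theorem exists_twisted_stem {Q₁ Q₂ Γ₁ Γ₂ T : Type*} [Group Q₁] [Group Q₂] [Group Γ₁] [Group Γ₂] [CommGroup T]
    (σ₁ : Γ₁ →* Q₁) (σ₂ : Γ₂ →* Q₂) (h₁ : IsStemExtension σ₁) (h₂ : IsStemExtension σ₂)
    (β : Q₁ →* Q₂ →* T) (hβ : ∀ H : Subgroup T, (∀ x y, β x y ∈ H) → H = ⊤) :
    ∃ (β' : Γ₁ →* Γ₂ →* T) (ξ : (Γ₁ × T) ⋊[twistAut β'] Γ₂ →* Q₁ × Q₂), IsStemExtension ξ ∧
      Nonempty (ξ.ker ≃* σ₁.ker × σ₂.ker × T) := by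
  let β' : Γ₁ →* Γ₂ →* T := (β.comp σ₁).compl₂ σ₂
  have hβ' : ∀ x y, β' x y = β (σ₁ x) (σ₂ y) := fun _ _ => rfl
  let ξ : (Γ₁ × T) ⋊[twistAut β'] Γ₂ →* Q₁ × Q₂ := MonoidHom.mk' (fun g => (σ₁ g.left.1, σ₂ g.right))
    fun g h => by simp [twistAut_apply]
  have hξ : ∀ g, g ∈ ξ.ker ↔ σ₁ g.left.1 = 1 ∧ σ₂ g.right = 1 := fun g => Prod.ext_iff
  refine ⟨β', ξ, ⟨?_, ?_, ?_⟩, ⟨?_⟩⟩
  · rintro ⟨x, y⟩
    obtain ⟨x, rfl⟩ := h₁.1 x
    obtain ⟨y, rfl⟩ := h₂.1 y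
    exact ⟨⟨(x, 1), y⟩, rfl⟩
  · rintro ⟨⟨x, t⟩, y⟩ hg
    obtain ⟨hx, hy⟩ := (hξ _).mp hg
    dsimp only at hx hy
    rw [mem_center_iff]
    rintro ⟨⟨x', t'⟩, y'⟩
    ext
    · simp [twistAut_apply, mem_center_iff.mp (h₁.2.1 hx) x']
    · simp [twistAut_apply, hβ', hx, hy, mul_comm]
    · simp [mem_center_iff.mp (h₂.2.1 hy) y']
  · rintro ⟨⟨x, t⟩, y⟩ hg
    obtain ⟨hx, hy⟩ := (hξ _).mp hg
    dsimp only at hx hy
    have e : (⟨(x, t), y⟩ : (Γ₁ × T) ⋊[twistAut β'] Γ₂) =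
        (SemidirectProduct.inl.comp (MonoidHom.inl Γ₁ T)) x *
          (SemidirectProduct.inl.comp (MonoidHom.inr Γ₁ T)) t * SemidirectProduct.inr y := by
      ext <;> simp
    rw [e]
    refine mul_mem (mul_mem ?_ ?_) ?_
    · exact map_commutator_le _ ⟨x, h₁.2.2 hx, rfl⟩
    · have := hβ ((commutator ((Γ₁ × T) ⋊[twistAut β'] Γ₂)).comap
        (SemidirectProduct.inl.comp (MonoidHom.inr Γ₁ T))) (by
          intro a b
          obtain ⟨a, rfl⟩ := h₁.1 a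
          obtain ⟨b, rfl⟩ := h₂.1 b
          have h3 : (SemidirectProduct.inl.comp (MonoidHom.inr Γ₁ T) : T →* (Γ₁ × T) ⋊[twistAut β'] Γ₂)
              (β (σ₁ a) (σ₂ b)) =
              ⁅(SemidirectProduct.inr b : (Γ₁ × T) ⋊[twistAut β'] Γ₂), 
                (SemidirectProduct.inl (a, (1 : T)) : (Γ₁ × T) ⋊[twistAut β'] Γ₂)⁆ := by
            rw [commutatorElement_def, ← map_inv, ← SemidirectProduct.inl_aut, ← map_inv, ← map_mul]
            simp [twistAut_apply, hβ']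
          rw [mem_comap, h3]
          exact commutator_mem_commutator (mem_top _) (mem_top _))
      exact this.ge (mem_top t)
    · exact map_commutator_le _ ⟨y, h₂.2.2 hy, rfl⟩
  · exact
      { toFun := fun g => (⟨g.1.left.1, ((hξ _).mp g.2).1⟩, ⟨g.1.right, ((hξ _).mp g.2).2⟩, g.1.left.2)
        invFun := fun p => ⟨⟨(p.1, p.2.2), p.2.1⟩, (hξ _).mpr ⟨p.1.2, p.2.1.2⟩⟩
        left_inv := fun g => rfl
        right_inv := fun p => rfl
        map_mul' := fun g h => by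
          ext
          · simp [twistAut_apply]
          · simp
          · simp [twistAut_apply, hβ', ((hξ _).mp h.2).1] }

theorem schur_prod {Q₁ : Type u} {Q₂ : Type v} [Group Q₁] [Group Q₂] {A B : Type*} [CommGroup A]
    [CommGroup B] (hA : HasSchurMultiplier Q₁ A) (hB : HasSchurMultiplier Q₂ B) :
    HasSchurMultiplier (Q₁ × Q₂) (A × B × AbTensor Q₁ Q₂) := by
  have := schur_finite_left hA
  have := schur_finite_left hB
  obtain ⟨Γ₁, _, _, σ₁, h₁, ⟨e₁⟩⟩ := hA.1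
  obtain ⟨Γ₂, _, _, σ₂, h₂, ⟨e₂⟩⟩ := hB.1
  obtain ⟨β', ξ, hξ, ⟨e⟩⟩ := exists_twisted_stem σ₁ σ₂ h₁ h₂ abTmul abTensor_induction
  let e' : ξ.ker ≃* A × B × AbTensor Q₁ Q₂ := e.trans (e₁.prodCongr (e₂.prodCongr (MulEquiv.refl _)))
  have : Finite (A × B × AbTensor Q₁ Q₂) := by
    obtain ⟨M, _, _, hM⟩ := exists_hasSchurMultiplier (Q₁ × Q₂)
    obtain ⟨π, hπ⟩ := schur_surj_stem hM ξ hξ
    exact Finite.of_surjective _ (e'.surjective.comp hπ)
  refine schur_of_stem_of_card_le ξ hξ e' fun Γ _ _ σ hσ => ?_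
  obtain ⟨π, hπ⟩ := prod_stem_surj hA hB σ hσ
  exact Nat.card_le_card_of_surjective π hπ

theorem abTensor_subsingleton {Q₁ : Type u} {Q₂ : Type v} [Group Q₁] [Group Q₂]
    (h : Nat.Coprime (Nat.card (Abelianization Q₁)) (Nat.card (Abelianization Q₂))) :
    Subsingleton (AbTensor Q₁ Q₂) := by
  have := abTensor_induction (Q₁ := Q₁) (Q₂ := Q₂) ⊥ fun x y => by
    rw [mem_bot, ← orderOf_eq_one_iff]
    apply Nat.eq_one_of_dvd_coprimes h
    · apply orderOf_dvd_of_pow_eq_one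
      change Multiplicative.ofAdd (_ ⊗ₜ[ℤ] _) ^ _ = 1
      rw [← ofAdd_nsmul, TensorProduct.smul_tmul', ← ofMul_pow, pow_card_eq_one']
      simp
    · apply orderOf_dvd_of_pow_eq_one
      change Multiplicative.ofAdd (_ ⊗ₜ[ℤ] _) ^ _ = 1
      rw [← ofAdd_nsmul, ← TensorProduct.tmul_smul, ← ofMul_pow, pow_card_eq_one']
      simp
  exact Subgroup.subsingleton_iff.mp (subsingleton_of_bot_eq_top this)

theorem schur_trivial_of_surjective_comm {G : Type u} {Q : Type v} [CommGroup G] [Group Q]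
    (hG : HasCyclicSchurMultiplier G 1) (π : G →* Q) (hπ : Function.Surjective π) :
    HasCyclicSchurMultiplier Q 1 := by
  have := schur_finite_left hG
  have : Finite Q := Finite.of_surjective π hπ
  refine schur_trivial_of_forall_stem fun Γ _ _ σ hσ => ?_
  have h0 := schur_trivial_central hG (pullFst π σ) (pullFst_surjective π σ hσ.1)
    (pullFst_ker_le_center π σ hσ.2.1)
  rw [inf_eq_right.mpr (Abelianization.commutator_subset_ker _)] at h0
  have h1 := map_commutator_of_surjective _ (pullSnd_surjective π σ hπ)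
  rw [h0, Subgroup.map_bot] at h1
  exact eq_bot_iff.mpr (h1 ▸ hσ.2.2)

end H21
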