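import Cfsg.Agent.H21.SchurTransfer
import Cfsg.Agent.H5.Char

/-! Projective representations and Schur covers: extension of homomorphisms into divisible groups
(`exists_extension_divisible`), lifting through central extensions with divisible kernel to a Schur cover
(`exists_lift_to_cover`), irreducible matrix representations over a central character with `n² |A| ≤ |Γ|`
(`exists_rep_over_central`), the converse (`card_le_of_projective_lifts`), `schur_exponent_sq_dvd`. -/

set_option autoImplicit false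

namespace H21

open Subgroup Cfsg
open scoped commutatorElement ComplexConjugate

universe u v w

/-- Homomorphisms to a divisible abelian group extend from a subgroup meeting the derived subgroup trivially. -/
theorem exists_extension_divisible {E D : Type*} [Group E] [CommGroup D]
    (hD : ∀ n : ℕ, n ≠ 0 → ∀ d : D, ∃ c : D, c ^ n = d) (S : Subgroup E) (hS : S ⊓ commutator E = ⊥)
    (ψ₀ : S →* D) : ∃ ψ : E →* D, ∀ s : S, ψ s = ψ₀ s := by
  let j : S →* Abelianization E := Abelianization.of.comp S.subtype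
  have hj : Function.Injective j := by
    rw [injective_iff_map_eq_one]
    intro s hs
    have : (s : E) ∈ S ⊓ commutator E := ⟨s.2, by rw [← Abelianization.ker_of]; exact hs⟩
    rw [hS] at this
    exact Subtype.ext this
  let e := MonoidHom.ofInjective hj
  letI : RootableBy D ℕ := rootableByOfPowLeftSurj D ℕ fun {n} hn d => hD n hn d
  letI : DivisibleBy (Additive D) ℕ :=
    { div := fun a n => Additive.ofMul (RootableBy.root a.toMul n)
      div_zero := fun a => congrArg Additive.ofMul (RootableBy.root_zero _)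
      div_cancel := fun a hn => congrArg Additive.ofMul (RootableBy.root_cancel _ hn) }
  letI : DivisibleBy (Additive D) ℤ := AddGroup.divisibleByIntOfDivisibleByNat _
  obtain ⟨h, hh⟩ := (Module.Baer.of_divisible (Additive D)).extension_property_addMonoidHom
    (MonoidHom.toAdditive j.range.subtype) Subtype.val_injective
    (MonoidHom.toAdditive (ψ₀.comp e.symm.toMonoidHom))
  refine ⟨(MonoidHom.toAdditive.symm h).comp Abelianization.of, fun s => ?_⟩
  have := DFunLike.congr_fun hh (Additive.ofMul (e s))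
  have h2 := congrArg Additive.toMul this
  simp only [AddMonoidHom.coe_comp, Function.comp_apply, MonoidHom.toAdditive_apply_apply, toMul_ofMul,
    MonoidHom.coe_comp, MulEquiv.toMonoidHom_eq_coe, MonoidHom.coe_coe, MulEquiv.symm_apply_apply] at h2
  exact h2

/-- Lifting to a Schur cover through a central extension with divisible kernel. -/
theorem exists_lift_to_cover {Q : Type u} [Group Q] {A : Type v} [CommGroup A] (hA : HasSchurMultiplier Q A)
    {Γ : Type*} [Group Γ] (σ : Γ →* Q) (hσ : IsStemExtension σ) (hk : Nat.card A ≤ Nat.card σ.ker)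
    {L P : Type*} [Group L] [Group P] (ξ : L →* P) (hξ : Function.Surjective ξ) (hc : ξ.ker ≤ center L)
    (hD : ∀ n : ℕ, n ≠ 0 → ∀ d ∈ ξ.ker, ∃ c ∈ ξ.ker, c ^ n = d) (γ : Q →* P) :
    ∃ ρ : Γ →* L, ξ.comp ρ = γ.comp σ := by
  have := schur_finite_left hA
  let f := stdPres Q
  have hf := stdPres_surjective Q
  obtain ⟨eA⟩ := schur_equiv_hopfM hA f hf
  obtain ⟨β, hβ⟩ := hopf_lift f σ hσ.1 hσ.2.1
  have hsurj : Function.Surjective (σ.comp β) := hβ ▸ hopfPi_surjective f hf
  have hβs := surjective_of_stem hσ.2.1 hσ.2.2 hsurj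
  have h := ker_inf_commutator_map_eq_of_central (φ := β) hσ.2.1 hsurj
  rw [hβ, inf_eq_left.mpr hσ.2.2] at h
  let g : hopfM f →* σ.ker := (β.comp (hopfM f).subtype).codRestrict _ fun x => h ▸ ⟨x, x.2, rfl⟩
  have hg : Function.Bijective g := by
    refine bijective_of_surjective_of_card_le _ ?_ ((Nat.card_congr eA.toEquiv) ▸ hk)
    rintro ⟨y, hy⟩
    rw [← h] at hy
    obtain ⟨x, hx, rfl⟩ := hy
    exact ⟨⟨x, hx⟩, rfl⟩
  have hker : β.ker ≤ (hopfPi f).ker := by
    intro x hx
    rw [← hβ, MonoidHom.mem_ker, MonoidHom.comp_apply, hx, map_one]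
  have hS : β.ker ⊓ commutator (HopfE f) = ⊥ := by
    rw [eq_bot_iff]
    rintro x ⟨hx1, hx2⟩
    have : g ⟨x, hker hx1, hx2⟩ = 1 := Subtype.ext hx1
    exact congrArg Subtype.val ((injective_iff_map_eq_one g).mp hg.1 _ this)
  obtain ⟨φ', hφ'⟩ := hopf_lift f (pullFst γ ξ) (pullFst_surjective γ ξ hξ) (pullFst_ker_le_center γ ξ hc)
  let φ : HopfE f →* L := (pullSnd γ ξ).comp φ'
  have hφ : ∀ x, ξ (φ x) = γ (hopfPi f x) := fun x => by
    rw [← hφ']; exact (φ' x).2.symm
  letI := commGroupOfLeCenter hc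
  obtain ⟨ψ, hψ⟩ := exists_extension_divisible (D := ξ.ker) (fun n hn d => by
      obtain ⟨c, hc, h⟩ := hD n hn d d.2
      exact ⟨⟨c, hc⟩, Subtype.ext h⟩) β.ker hS
    ((φ.comp β.ker.subtype).codRestrict _ fun x => by
      rw [MonoidHom.mem_ker, MonoidHom.comp_apply, hφ, Subgroup.subtype_apply,
        MonoidHom.mem_ker.mp (hker x.2), map_one])
  let θ : HopfE f →* L :=
    { toFun := fun x => φ x * ((ψ x : L))⁻¹
      map_one' := by simp
      map_mul' := fun x y => by
        have h1 := mem_center_iff.mp (inv_mem (hc (ψ x).2))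
        rw [map_mul, map_mul, Subgroup.coe_mul, mul_inv_rev, mul_assoc (φ x) (ψ x : L)⁻¹, ← h1]
        group }
  have hθ : β.ker ≤ θ.ker := by
    intro x hx
    have := congrArg Subtype.val (hψ ⟨x, hx⟩)
    change (ψ x : L) = φ x at this
    change φ x * ((ψ x : L))⁻¹ = 1
    rw [this, mul_inv_cancel]
  refine ⟨β.liftOfSurjective hβs ⟨θ, hθ⟩, ?_⟩
  ext y
  obtain ⟨x, rfl⟩ := hβs y
  rw [MonoidHom.comp_apply, MonoidHom.liftOfRightInverse_comp_apply]
  change ξ (φ x * ((ψ x : L))⁻¹) = _
  rw [map_mul, map_inv, MonoidHom.mem_ker.mp (ψ x).2, inv_one, mul_one, hφ, ← hβ]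
  rfl

theorem center_GL_divisible (n : ℕ) (k : ℕ) (hk : k ≠ 0) (d : GL (Fin n) ℂ) (hd : d ∈ center (GL (Fin n) ℂ)) :
    ∃ c ∈ center (GL (Fin n) ℂ), c ^ k = d := by
  rw [Matrix.GeneralLinearGroup.center_eq_range_scalar] at hd ⊢
  obtain ⟨a, rfl⟩ := hd
  obtain ⟨z, hz⟩ := IsAlgClosed.exists_pow_nat_eq (a : ℂ) (Nat.pos_of_ne_zero hk)
  have hz0 : z ≠ 0 := by
    rintro rfl
    rw [zero_pow hk] at hz
    exact a.ne_zero hz.symm
  refine ⟨_, ⟨Units.mk0 z hz0, rfl⟩, ?_⟩
  rw [← map_pow]
  congr 1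
  exact Units.ext hz

theorem exists_projective_lift_to_cover {Q : Type u} [Group Q] {A : Type v} [CommGroup A]
    (hA : HasSchurMultiplier Q A) {Γ : Type*} [Group Γ] (σ : Γ →* Q) (hσ : IsStemExtension σ)
    (hk : Nat.card A ≤ Nat.card σ.ker) (n : ℕ) (γ : Q →* (GL (Fin n) ℂ ⧸ center (GL (Fin n) ℂ))) :
    ∃ ρ : Γ →* GL (Fin n) ℂ, (QuotientGroup.mk' (center (GL (Fin n) ℂ))).comp ρ = γ.comp σ :=
  exists_lift_to_cover hA σ hσ hk _ (QuotientGroup.mk'_surjective _) (QuotientGroup.ker_mk' _).le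
    (by rw [QuotientGroup.ker_mk']; exact center_GL_divisible n) γ

/-- Right translation on functions. -/
def rightTrans (Γ : Type*) [Group Γ] : Representation ℂ Γ (Γ → ℂ) where
  toFun g := LinearMap.funLeft ℂ ℂ fun x => x * g
  map_one' := by ext; simp
  map_mul' g h := by ext; simp [mul_assoc]

theorem exists_rep_over_central {Γ : Type*} [Group Γ] [Finite Γ] (A : Subgroup Γ) (hA : A ≤ center Γ)
    (lam : A →* ℂˣ) : ∃ n : ℕ, 0 < n ∧ n ^ 2 * Nat.card A ≤ Nat.card Γ ∧ ∃ ρ : Γ →* GL (Fin n) ℂ,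
      ∀ a : A, ρ a = Matrix.GeneralLinearGroup.scalar (Fin n) (lam a) := by
  classical
  let U₀ : Subrepresentation (rightTrans Γ) :=
    { toSubmodule :=
        { carrier := {f | ∀ a : A, ∀ x, f (x * a) = lam a * f x}
          add_mem' := fun {f g} hf hg a x => by simp [hf a x, hg a x, mul_add]
          zero_mem' := fun a x => by simp
          smul_mem' := fun c f hf a x => by simp [hf a x, mul_left_comm] }
      apply_mem_toSubmodule := fun g f hf a x => by
        change f (x * a * g) = lam a * f (x * g)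
        rw [← hf a, mul_assoc, mul_assoc, mem_center_iff.mp (hA a.2) g] }
  have hU₀ : U₀.toSubmodule ≠ ⊥ := by
    rw [Submodule.ne_bot_iff]
    refine ⟨fun x => if h : x ∈ A then (lam ⟨x, h⟩ : ℂ) else 0, fun a x => ?_, fun h => ?_⟩
    · beta_reduce
      by_cases hx : x ∈ A
      · rw [dif_pos (mul_mem hx a.2), dif_pos hx, ← Units.val_mul, ← map_mul]
        congr 2
        exact Subtype.ext (mem_center_iff.mp (hA a.2) x)
      · rw [dif_neg hx, dif_neg (fun h => hx (by simpa using mul_mem h (inv_mem a.2))), mul_zero]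
    · have := congrFun h 1
      rw [dif_pos (one_mem A)] at this
      exact (lam _).ne_zero this
  obtain ⟨U, hU, hirr⟩ := H5.exists_irreducible_subrep_le U₀ hU₀
  set n := Module.finrank ℂ U.toSubmodule with hn
  have hsc : ∀ a : A, U.toRepresentation a = (lam a : ℂ) • LinearMap.id := by
    intro a
    ext v x
    exact hU v.2 a x
  refine ⟨n, H5.finrank_pos_of_isIrreducible U.toRepresentation, ?_, ?_⟩
  · have := Fintype.ofFinite Γ
    have hne : (Nat.card Γ : ℂ) ≠ 0 := by exact_mod_cast Nat.card_pos.ne'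
    letI : Invertible (Nat.card Γ : ℂ) := invertibleOfNonzero hne
    have h1 := Representation.char_orthonormal U.toRepresentation U.toRepresentation
    rw [if_pos ⟨Representation.Equiv.refl _⟩, inv_mul_eq_one₀ hne] at h1
    have hχ := H5.isCharacter_character U.toRepresentation
    have h2 : (Nat.card Γ : ℝ) = ∑ g : Γ, ‖U.toRepresentation.character g‖ ^ 2 := by
      apply Complex.ofReal_injective
      push_cast
      rw [h1]
      refine Finset.sum_congr rfl fun g _ => ?_
      rw [H5.Cfsg.IsCharacter.apply_inv hχ, Complex.mul_conj']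
    have h3 : ∑ g ∈ Finset.univ.filter (· ∈ A), ‖U.toRepresentation.character g‖ ^ 2
        = (n : ℝ) ^ 2 * Nat.card A := by
      rw [Finset.sum_congr rfl (g := fun _ => (n : ℝ) ^ 2), Finset.sum_const, nsmul_eq_mul, mul_comm]
      · congr 2
        rw [Nat.card_eq_fintype_card, Fintype.card_subtype]
      · intro g hg
        rw [Finset.mem_filter] at hg
        have h4 := hsc ⟨g, hg.2⟩
        have h5 : ‖(lam ⟨g, hg.2⟩ : ℂ)‖ = 1 := by
          apply Complex.norm_eq_one_of_pow_eq_one (n := Nat.card A) _ Nat.card_pos.ne'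
          rw [← Units.val_pow_eq_pow_val, ← map_pow, pow_card_eq_one', map_one, Units.val_one]
        simp only [Representation.character] 
        rw [h4, map_smul, LinearMap.trace_id, smul_eq_mul, norm_mul, h5, one_mul, Complex.norm_natCast]
    have h4 : (n : ℝ) ^ 2 * Nat.card A ≤ Nat.card Γ := by
      rw [← h3, h2]
      exact Finset.sum_le_sum_of_subset_of_nonneg (Finset.filter_subset _ _) fun _ _ _ => by positivity
    exact_mod_cast h4
  · let b := Module.finBasis ℂ U.toSubmodule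
    refine ⟨((LinearMap.toMatrixAlgEquiv b).toMulEquiv.toMonoidHom.comp U.toRepresentation).toHomUnits,
      fun a => Units.ext ?_⟩
    change LinearMap.toMatrixAlgEquiv b (U.toRepresentation a) = Matrix.scalar _ (lam a : ℂ)
    rw [hsc, map_smul, LinearMap.toMatrixAlgEquiv_id]
    ext i j
    simp [Matrix.one_apply, Matrix.diagonal_apply]

theorem scalar_GL_injective {n : ℕ} (hn : 0 < n) :
    Function.Injective (Matrix.GeneralLinearGroup.scalar (Fin n) : ℂˣ →* GL (Fin n) ℂ) := by
  intro a b h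
  have h' : Matrix.scalar (Fin n) (a : ℂ) = Matrix.scalar (Fin n) (b : ℂ) := congrArg Units.val h
  have := congrFun (congrFun h' ⟨0, hn⟩) ⟨0, hn⟩
  exact Units.ext (by simpa using this)

theorem card_le_of_projective_lifts {Q : Type u} [Group Q] {A : Type v} [CommGroup A]
    (hA : HasSchurMultiplier Q A) {Γ : Type*} [Group Γ] (σ : Γ →* Q) (hσ : IsStemExtension σ)
    (hlift : ∀ (n : ℕ) (γ : Q →* (GL (Fin n) ℂ ⧸ center (GL (Fin n) ℂ))),
      ∃ ρ : Γ →* GL (Fin n) ℂ, (QuotientGroup.mk' (center (GL (Fin n) ℂ))).comp ρ = γ.comp σ) :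
    ∃ π : σ.ker →* A, Function.Bijective π := by
  have := schur_finite_left hA
  have := schur_finite hA
  obtain ⟨Γ₀, _, _, σ₀, hσ₀, ⟨e⟩, β, hβ, hβσ⟩ :=
    hopf_exists_cover_over (stdPres Q) (stdPres_surjective Q) σ hσ
  obtain ⟨eA⟩ := schur_equiv_hopfM hA (stdPres Q) (stdPres_surjective Q)
  have hβσ' : ∀ x, σ (β x) = σ₀ x := fun x => DFunLike.congr_fun hβσ x
  let g : σ₀.ker →* σ.ker := (β.comp σ₀.ker.subtype).codRestrict _ fun x => by
    rw [MonoidHom.mem_ker, MonoidHom.comp_apply, hβσ']; exact x.2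
  have hg : Function.Bijective g := by
    constructor
    · rw [injective_iff_map_eq_one]
      intro m hm
      by_contra hne
      letI := commGroupOfLeCenter hσ₀.2.1
      have : NeZero (Monoid.exponent σ₀.ker) := ⟨Monoid.exponent_ne_zero_of_finite⟩
      obtain ⟨lam, hlam⟩ := CommGroup.exists_apply_ne_one_of_hasEnoughRootsOfUnity σ₀.ker ℂ hne
      obtain ⟨n, hn, -, ρ₀, hρ₀⟩ := exists_rep_over_central σ₀.ker hσ₀.2.1 lam
      have hk : σ₀.ker ≤ ((QuotientGroup.mk' (center (GL (Fin n) ℂ))).comp ρ₀).ker := by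
        intro x hx
        rw [MonoidHom.mem_ker, MonoidHom.comp_apply, QuotientGroup.mk'_apply, QuotientGroup.eq_one_iff,
          Matrix.GeneralLinearGroup.center_eq_range_scalar]
        exact ⟨_, (hρ₀ ⟨x, hx⟩).symm⟩
      obtain ⟨ρ, hρ⟩ := hlift n (σ₀.liftOfSurjective hσ₀.1 ⟨_, hk⟩)
      have h1 : (ρ.comp β) m = ρ₀ m := by
        refine eq_on_commutator_of_central (ξ := QuotientGroup.mk' (center (GL (Fin n) ℂ)))
          (QuotientGroup.ker_mk' _).le ?_ (hσ₀.2.2 m.2)
        rw [← MonoidHom.comp_assoc, hρ, MonoidHom.comp_assoc, hβσ, MonoidHom.liftOfRightInverse_comp]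
      have h2 : β m = 1 := congrArg Subtype.val hm
      rw [MonoidHom.comp_apply, h2, map_one, hρ₀] at h1
      exact hlam (scalar_GL_injective hn (by rw [← h1, map_one]))
    · rintro ⟨y, hy⟩
      obtain ⟨x, rfl⟩ := hβ y
      exact ⟨⟨x, by rw [MonoidHom.mem_ker, ← hβσ']; exact hy⟩, rfl⟩
  exact ⟨((MulEquiv.ofBijective g hg).symm.trans (e.trans eA.symm)).toMonoidHom, MulEquiv.bijective _⟩

/-- For a stem extension, a character of the kernel has order whose square is at most `|Q|`. -/
theorem orderOf_sq_le_of_stem {Γ Q : Type*} [Group Γ] [Finite Γ] [Group Q] (σ : Γ →* Q) (hσ : IsStemExtension σ)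
    (lam : σ.ker →* ℂˣ) (a : σ.ker) : orderOf (lam a) ^ 2 ≤ Nat.card Q := by
  obtain ⟨n, hn, hle, ρ, hρ⟩ := exists_rep_over_central σ.ker hσ.2.1 lam
  have h1 : (Matrix.GeneralLinearGroup.det.comp ρ) a = 1 :=
    Abelianization.commutator_subset_ker _ (hσ.2.2 a.2)
  have h2 : lam a ^ n = 1 := by
    rw [MonoidHom.comp_apply, hρ] at h1
    apply Units.ext
    have := congrArg Units.val h1
    simpa using this
  have h3 : orderOf (lam a) ≤ n := Nat.le_of_dvd hn (orderOf_dvd_of_pow_eq_one h2)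
  have h4 : Nat.card Γ = Nat.card Q * Nat.card σ.ker := by
    rw [card_eq_card_quotient_mul_card_subgroup σ.ker,
      Nat.card_congr (QuotientGroup.quotientKerEquivOfSurjective σ hσ.1).toEquiv]
  rw [h4] at hle
  exact (Nat.pow_le_pow_left h3 2).trans (Nat.le_of_mul_le_mul_right hle Nat.card_pos)

theorem schur_orderOf_sq_le {Q : Type u} [Group Q] {A : Type v} [CommGroup A] (hA : HasSchurMultiplier Q A)
    {p k : ℕ} [hp : Fact p.Prime] (a : A) (ha : orderOf a = p ^ k) : (p ^ k) ^ 2 ≤ Nat.card Q := by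
  obtain ⟨Γ, _, _, σ, hσ, ⟨e⟩⟩ := hA.1
  have := schur_finite_left hA
  have := schur_finite hA
  rcases k with _ | k
  · simpa using Nat.one_le_iff_ne_zero.mpr Nat.card_pos.ne'
  have : NeZero (Monoid.exponent A) := ⟨Monoid.exponent_ne_zero_of_finite⟩
  have hne : a ^ p ^ k ≠ 1 := pow_ne_one_of_lt_orderOf (pow_pos hp.out.pos _).ne'
    (by rw [ha]; exact Nat.pow_lt_pow_right hp.out.one_lt (Nat.lt_succ_self k))
  obtain ⟨lam, hlam⟩ := CommGroup.exists_apply_ne_one_of_hasEnoughRootsOfUnity A ℂ hne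
  have h1 := orderOf_sq_le_of_stem σ hσ (lam.comp e.toMonoidHom) (e.symm a)
  have h2 : orderOf (lam a) = p ^ (k + 1) :=
    orderOf_eq_prime_pow (by rwa [← map_pow]) (by rw [← map_pow, ← ha, pow_orderOf_eq_one, map_one])
  simpa [h2] using h1

theorem schur_exponent_sq_dvd {Q : Type u} [Group Q] {A : Type v} [CommGroup A] (hA : HasSchurMultiplier Q A) :
    Monoid.exponent A ^ 2 ∣ Nat.card Q := by
  have := schur_finite_left hA
  have := schur_finite hA
  have h0 : Monoid.exponent A ≠ 0 := Monoid.exponent_ne_zero_of_finite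
  rw [← Nat.factorization_prime_le_iff_dvd (pow_ne_zero _ h0) Nat.card_pos.ne']
  intro p hp
  have : Fact p.Prime := ⟨hp⟩
  obtain ⟨a, ha⟩ := Nat.Prime.exists_orderOf_eq_pow_factorization_exponent A hp
  obtain ⟨P⟩ : Nonempty (Sylow p Q) := inferInstance
  obtain ⟨B, _, _, hB⟩ := exists_hasSchurMultiplier (P : Subgroup Q)
  obtain ⟨C, D, -, -, ⟨e⟩⟩ := schur_primary_summand p P hA hB
  have h1 : orderOf ((e ⟨a, CommGroup.mem_primaryComponent_iff_orderOf.mpr ⟨_, ha⟩⟩ : C) : B) =
      p ^ (Monoid.exponent A).factorization p := by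
    rw [Subgroup.orderOf_coe, MulEquiv.orderOf_eq, ← Subgroup.orderOf_coe, ha]
  have h2 := schur_orderOf_sq_le hB _ h1
  rw [P.card_eq_multiplicity, ← pow_mul, Nat.pow_le_pow_iff_right hp.one_lt] at h2
  rw [Nat.factorization_pow]
  simpa [mul_comm] using h2

end H21
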