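import Cfsg.Agent.H11.JD2
import Cfsg.Agent.H11.Shp
import Cfsg.Agent.H29.As5
import Cfsg.Agent.H10.SL

/-! A common interface `LG U t` for `GL`, `GU` and `Sp` as matrix groups (eigenvalues are stable
under `z ↦ z ^ t`, semisimple classes are determined by the eigenvalues, adjoints `Aj`), existence
of elements `EX`, eigenvalue multisets `Ev` of matrices with a scalar power (`Rt`). -/

set_option autoImplicit false
set_option linter.unusedSectionVars false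

namespace H21.Xs

open Matrix Module Polynomial H11 H11.PForm Cfsg.Geo

universe u
variable {F : Type u} [Field F] {ι : Type} [Fintype ι] [DecidableEq ι] {U : Subgroup (GL ι F)}
  {x y : GL ι F} {m : ℕ} {c : F} {t : ℤ}

local notation "ψ" => algebraMap F (AC F)

/-- formal adjoints -/
inductive Aj (U : Subgroup (GL ι F)) : Matrix ι ι F → Matrix ι ι F → Prop
  | of {g : GL ι F} : g ∈ U → Aj U g.1 g⁻¹.1
  | add {a a' b b' : Matrix ι ι F} : Aj U a a' → Aj U b b' → Aj U (a + b) (a' + b')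
  | sub {a a' b b' : Matrix ι ι F} : Aj U a a' → Aj U b b' → Aj U (a - b) (a' - b')
  | mul {a a' b b' : Matrix ι ι F} : Aj U a a' → Aj U b b' → Aj U (a * b) (b' * a')

theorem Aj.one : Aj U 1 1 := by simpa using Aj.of U.one_mem

def AD (U : Subgroup (GL ι F)) : Prop := ∀ (u : GL ι F) (n : ℕ) (a b : Matrix ι ι F), Aj U a b →
  (n : F) ≠ 0 → (n : F) • u.1 = a → b * u.1 = (n : F) • 1 → u ∈ U

theorem ad_iso {σ : F →+* F} {ε : F} {G : Matrix ι ι F} (h : H29.HF σ ε G) : AD (H29.Iso σ G) := by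
  intro u n a b h1 h2 h3 h4
  have h5 : H29.adj σ G a = b := by
    clear h3 h4
    induction h1 with
    | of hg => exact h.adj_iso hg
    | add _ _ e e' => rw [H29.adj_add, e, e']
    | sub _ _ e e' => rw [H29.adj_sub, e, e']
    | mul _ _ e e' => rw [h.adj_mul, e, e']
  refine h.mem_Iso (smul_right_injective _ h2 ?_)
  rw [← h3, H29.adj_smul, map_natCast] at h5
  simp only [← h4, ← h5, smul_mul_assoc]

theorem mem_SL : x ∈ specialLinear ι F ↔ x.1.det = 1 := Units.ext_iff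

variable [Finite F]

/-- eigenvalues -/
noncomputable def Ev (x : GL ι F) : Multiset (AC F) := (JD (mE x.1)).map Prod.fst

structure Rt (x : GL ι F) (m : ℕ) (c : F) : Prop where
  ne : (m : F) ≠ 0
  pow : x.1 ^ m = c • 1

theorem tr_JD (A : Matrix ι ι F) : ψ A.trace = ((JD (mE A)).map fun e => e.2 • e.1).sum := by
  rw [trace_eq_neg_charpoly_nextCoeff, map_neg, ← nextCoeff_map (algebraMap F (AC F)).injective,
    ← charpoly_mE, ← JD_charpoly, Monic.nextCoeff_multiset_prod _ _ fun e _ => (monic_X_sub_C _).pow _,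
    ← Multiset.sum_map_neg]
  refine congrArg _ (Multiset.map_congr rfl fun e _ => ?_)
  rw [(monic_X_sub_C _).nextCoeff_pow, nextCoeff_X_sub_C, smul_neg, neg_neg]

theorem ev_ne {z : AC F} (h : z ∈ Ev x) : z ≠ 0 := by
  obtain ⟨e, he, rfl⟩ := Multiset.mem_map.1 h
  exact isUnit_iff_JD.1 (isUnit_mE_gl x) e he

theorem pow_iff (hm : (m : F) ≠ 0) (hc : c ≠ 0) :
    x.1 ^ m = c • 1 ↔ ∀ e ∈ JD (mE x.1), e.1 ^ m = ψ c ∧ e.2 = 1 := by
  obtain ⟨p, hp⟩ := CharP.exists F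
  haveI : Fact p.Prime := ⟨CharP.char_is_prime F p⟩
  have h0 : m ≠ 0 := by rintro rfl; simp at hm
  have h1 : ordProj[p] m = 1 := by
    rw [Nat.factorization_eq_zero_of_not_dvd fun h => hm ((CharP.cast_eq_zero_iff F p m).2 h), pow_zero]
  rw [← mE_inj, mE_pow, mE_smul, mE_one, pow_eq_smul_iff p h0 hc, h1]
  exact forall₂_congr fun e he => and_congr_right fun _ => by have := JD_pos he; omega

theorem ev_of {M : Multiset (AC F)} (h : JD (mE x.1) = M.map (·, 1)) : Ev x = M := by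
  simp [Ev, h]

theorem rt_of {M : Multiset (AC F)} (h : JD (mE x.1) = M.map (·, 1)) (hm : (m : F) ≠ 0) (hc : c ≠ 0)
    (h1 : ∀ z ∈ M, z ^ m = ψ c) : Rt x m c :=
  ⟨hm, (pow_iff hm hc).2 (by simpa [h] using h1)⟩

namespace Rt
variable [Nonempty ι] (h : Rt x m c)
include h

theorem c_ne : c ≠ 0 := fun e => (x.isUnit.pow m).ne_zero (by rw [h.pow, e, zero_smul])

theorem mem {z : AC F} (hz : z ∈ Ev x) : z ^ m = ψ c := by
  obtain ⟨e, he, rfl⟩ := Multiset.mem_map.1 hz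
  exact ((pow_iff h.ne h.c_ne).1 h.pow e he).1

theorem jd : JD (mE x.1) = (Ev x).map (·, 1) := by
  rw [Ev, Multiset.map_map]
  exact (Multiset.map_id _).symm.trans (Multiset.map_congr rfl fun e he =>
    Prod.ext rfl ((pow_iff h.ne h.c_ne).1 h.pow e he).2)

theorem card : (Ev x).card = Fintype.card ι := by
  have := dm_JD (mE x.1)
  simpa [h.jd, dm] using this

theorem prod : (Ev x).prod = ψ x.1.det := by
  have := pr_JD (mE x.1)
  simpa [h.jd, pr, det_mE] using this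

theorem sum : (Ev x).sum = ψ x.1.trace := by simp [tr_JD, h.jd]

theorem sum_pow {k : ℕ} (hk : (k : F) ≠ 0) : ((Ev x).map (· ^ k)).sum = ψ (x.1 ^ k).trace := by
  simp [tr_JD, mE_pow, JD_pow (isUnit_mE_gl x) hk, h.jd]

theorem ss : SS (mE x.1) :=
  ss_of_squarefree (separable_X_pow_sub_C c h.ne h.c_ne).squarefree (by
    rw [aeval_mE, mE_eq_zero]; simp [h.pow, Algebra.algebraMap_eq_smul_one])

theorem exists_mem : ∃ z, z ∈ Ev x :=
  Multiset.card_pos_iff_exists_mem.1 (h.card ▸ Fintype.card_pos)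

theorem scal {w : AC F} (h1 : ∀ z ∈ Ev x, z = w) : ∃ a : F, ψ a = w ∧ x.1 = a • 1 := by
  obtain ⟨z, hz⟩ := h.exists_mem
  have h2 := (st_JD (mE x.1)).mem (h.jd ▸ Multiset.mem_map_of_mem (·, 1) hz) 1
  rw [h.jd, pow_one, zpow_natCast] at h2
  obtain ⟨a, rfl⟩ := mem_range_of_pow (c := w) (by
    obtain ⟨v, hv, e⟩ := Multiset.mem_map.1 h2
    rw [← h1 z hz, ← (Prod.mk.inj e).1, h1 v hv, h1 z hz])
  have h3 : a ≠ 0 := fun e => ev_ne hz (by rw [h1 z hz, e, map_zero])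
  exact ⟨a, rfl, by simpa using (pow_iff (m := 1) (by simp) h3).2 (by simpa [h.jd] using h1)⟩

end Rt

structure LG (U : Subgroup (GL ι F)) (t : ℤ) : Prop where
  st : ∀ x ∈ U, St t (JD (mE x.1))
  cj : ∀ x ∈ U, ∀ y ∈ U, ∀ m c, Rt x m c → JD (mE x.1) = JD (mE y.1) →
    ∃ g ∈ U ⊓ specialLinear ι F, g⁻¹ * x * g = y
  ad : AD U

def EX (U : Subgroup (GL ι F)) (t : ℤ) : Prop :=
  ∀ J, Adm t J → dm J = Fintype.card ι → ∃ g ∈ U, JD (mE g.1) = J

variable [Nonempty ι]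

theorem LG.ev (h : LG U t) (hx : x ∈ U) (h1 : Rt x m c) : (Ev x).map (· ^ t) = Ev x := by
  have := congrArg (Multiset.map Prod.fst) (h.st x hx)
  simpa [h1.jd] using this

theorem LG.conj (h : LG U t) (hx : x ∈ U) (hy : y ∈ U) (h1 : Rt x m c) {k : ℕ} {d : F} (h2 : Rt y k d)
    (e : Ev x = Ev y) : ∃ g ∈ U ⊓ specialLinear ι F, g⁻¹ * x * g = y :=
  h.cj x hx y hy m c h1 (by rw [h1.jd, h2.jd, e])

theorem EX.ev (h : EX U t) {M : Multiset (AC F)} (h1 : M.map (· ^ t) = M) (h2 : 0 ∉ M)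
    (h3 : M.card = Fintype.card ι) : ∃ g ∈ U, JD (mE g.1) = M.map (·, 1) :=
  h _ ⟨by
    rw [St]
    conv_rhs => rw [← h1]
    simp, by simpa using fun a h (e : a = 0) => h2 (e ▸ h)⟩ (by simp [dm, h3])

theorem EX.sc (h : EX U t) {z : AC F} (h0 : z ≠ 0) (h1 : z ^ t = z) :
    ∃ g ∈ U, ∃ a : F, ψ a = z ∧ g.1 = a • 1 := by
  obtain ⟨g, hg, e⟩ := h.ev (M := .replicate (Fintype.card ι) z) (by simp [h1])
    (fun h => h0 (Multiset.eq_of_mem_replicate h).symm) (by simp)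
  have h2 := (st_JD (mE g.1)).mem (x := (z, 1)) (by simp [e, Multiset.mem_replicate]) 1
  obtain ⟨a, rfl⟩ := mem_range_of_pow (c := z) (by simpa [e, Multiset.mem_replicate] using h2)
  exact ⟨g, hg, a, rfl, by
    simpa using (rt_of e (m := 1) (c := a) (by simp) (by simpa using h0) (by simp [Multiset.mem_replicate])).pow⟩

theorem lg_top : LG (⊤ : Subgroup (GL ι F)) (Nat.card F) := by
  refine ⟨fun x _ => st_JD _, fun x _ y _ m c h e => ?_, fun _ _ _ _ _ _ _ _ => trivial⟩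
  obtain ⟨g, rfl⟩ := isConj_iff.1 (gl_isConj_iff.2 (sim_iff_JD.2 e))
  obtain ⟨k, h1, h2⟩ := exists_det_one_conj (fun a => h.ss.detC a) g
  exact ⟨k⁻¹, inv_mem ⟨trivial, mem_SL.2 h1⟩, by rw [inv_inv, h2]⟩

theorem ex_top : EX (⊤ : Subgroup (GL ι F)) (Nat.card F) := fun J h1 h2 =>
  ((gl_JD J).2 ⟨h1, h2, trivial⟩).imp fun _ h => ⟨trivial, h⟩

section
variable [Fintype F] {q n : ℕ} (hF : Fintype.card F = q ^ 2)
include hF

theorem ex_gu : EX (Cfsg.GU n F q) (-q) := fun J h1 h2 =>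
  ((gu_JD hF n J).2 ⟨h1, by simpa using h2, trivial⟩).elim fun g h => ⟨g, g.2, h⟩

theorem lg_gu [NeZero n] : LG (Cfsg.GU n F q) (-q) := by
  obtain ⟨σ, hq, hσ, hne⟩ := exists_frob hF
  have hS := stdUnit_nondeg hσ hne (Fin n)
  refine ⟨fun x hx => ((gu_JD hF n _).1 ⟨⟨x, hx⟩, rfl⟩).1.st, fun x hx y hy m c h e => ?_, ?_⟩
  · let φ := guEquiv hσ hne hq n
    obtain ⟨g, hg⟩ := isConj_iff.1 (isim_iff_isConj.1 (unit_isim hne hS hS (g := φ ⟨x, hx⟩)
      (k := φ ⟨y, hy⟩) (sim_iff_JD.2 (by rwa [iE_guEquiv, iE_guEquiv]))))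
    obtain ⟨z, hz⟩ := h.exists_mem
    obtain ⟨k, h1, h2⟩ := hS.unit_exists_det hne (g := φ ⟨x, hx⟩) (x := (z, 1))
      (by rw [iE_guEquiv, h.jd]; exact Multiset.mem_map_of_mem _ hz) ⟨_, hS.det_mem_normOne g⁻¹⟩
    refine ⟨(φ.symm (g * k)⁻¹ : _), ⟨Subtype.prop _, ?_⟩, ?_⟩
    · change GeneralLinearGroup.det _ = 1
      rw [← det_guEquiv hσ hne hq, MulEquiv.apply_symm_apply, map_inv, map_mul, h2]
      simp
    · have h3 : (φ.symm (g * k)⁻¹)⁻¹ * ⟨x, hx⟩ * φ.symm (g * k)⁻¹ = ⟨y, hy⟩ := φ.injective (by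
        rw [map_mul, map_mul, map_inv, MulEquiv.apply_symm_apply, inv_inv, ← hg, mul_assoc g,
          Subgroup.mem_centralizer_singleton_iff.1 h1]
        group)
      exact congrArg Subtype.val h3
  · have h1 : Cfsg.hermForm n F q = H29.fm σ 1 := by
      funext u v
      simp [H29.fm_eq, Cfsg.hermForm, dotProduct, hq]
    have h2 : Cfsg.GU n F q = H29.Iso σ 1 := by rw [Cfsg.GU, h1]; rfl
    exact h2 ▸ ad_iso (ε := 1) ⟨hσ, isUnit_one, by simp⟩

end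

theorem sp_le_SL {n : ℕ} : Cfsg.spGL n F ≤ specialLinear _ F := fun g hg =>
  mem_SL.2 (SymplecticGroup.det_eq_one (mem_symplecticGroup_iff_form.2 hg))

theorem iE_sp {n : ℕ} (g : Cfsg.spGL n F) : iE (spGLEquiv n F g) = mE g.1.1 :=
  LinearMap.ext (spGLEquiv_apply n g)

theorem lg_sp {n : ℕ} [NeZero n] : LG (Cfsg.spGL n F) (Nat.card F) ∧ LG (Cfsg.spGL n F) (-1) := by
  have hS := stdSymp_nondeg (F := F) n
  have h1 : ∀ x ∈ Cfsg.spGL n F, ∀ y ∈ Cfsg.spGL n F, ∀ m c, Rt x m c → JD (mE x.1) = JD (mE y.1) →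
      ∃ g ∈ Cfsg.spGL n F ⊓ specialLinear _ F, g⁻¹ * x * g = y := fun x hx y hy m c h e => by
    let φ := spGLEquiv n F
    obtain ⟨g, hg⟩ := isConj_iff.1 (φ.symm.toMonoidHom.map_isConj (isim_iff_isConj.1 (symp_isim hS hS
      (g := φ ⟨x, hx⟩) (k := φ ⟨y, hy⟩) (sim_iff_JD.2 (by rwa [iE_sp, iE_sp])) (by rw [iE_sp]; exact h.ss))))
    exact ⟨g.1⁻¹, inv_mem ⟨g.2, sp_le_SL (F := F) g.2⟩, by simpa using congrArg Subtype.val hg⟩
  have h2 : AD (Cfsg.spGL n F) := by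
    have h3 : Cfsg.spGL n F = H29.Iso (RingHom.id F) (J (Fin n) F) := by
      have : Cfsg.sympForm n F = H29.fm (RingHom.id F) (J (Fin n) F) := by
        funext u v; rw [H29.fm_eq]; rfl
      rw [Cfsg.spGL, this]; rfl
    exact h3 ▸ ad_iso (ε := -1) ⟨fun _ => rfl, ⟨⟨J _ F, -J _ F, by simp [J_squared], by simp [J_squared]⟩, rfl⟩,
      by simp⟩
  refine ⟨⟨fun x _ => st_JD _, h1, h2⟩, fun x hx => ?_, h1, h2⟩
  simpa [iE_sp] using (dl_iff_JD (fun _ => rfl) frob_id (isUnit_iE _)).1 (hS.dl (spGLEquiv n F ⟨x, hx⟩))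

theorem ex_sp {J : Multiset (AC F × ℕ)} (h1 : Adm (Nat.card F) J) (h2 : dm J = 2) (h3 : pr J = 1) :
    ∃ g ∈ Cfsg.spGL 2 F, JD (mE g.1) = J + {(1, 1), (1, 1)} := by
  obtain ⟨⟨A, this⟩, rfl⟩ := (sl_JD (ι := Fin 1 ⊕ Fin 1) J).2 ⟨h1, by simpa using h2, h3⟩
  have h4 : A ∈ symplecticGroup (Fin 1) F := by
    rw [← det_reindex_self finSumFinEquiv, det_fin_two] at this
    rw [SymplecticGroup.mem_iff]
    ext (i | i) (j | j) <;> fin_cases i <;> fin_cases j <;>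
      simp [Matrix.mul_apply, J, finSumFinEquiv, Fin.addCases] at this ⊢ <;>
      first | ring1 | linear_combination this | linear_combination -this
  obtain ⟨g, hg⟩ := symp_spl (stdSymp_nondeg (F := F) 2) (a := 1) (b := 1) (by simp) (spEquiv 1 F ⟨_, h4⟩) 1
  refine ⟨((spGLEquiv 2 F).symm g : _), Subtype.prop _, ?_⟩
  have h8 := sim_iff_JD.1 (ISim.sim hg)
  rw [iE_prodI, JD_prodMap, iE_spEquiv] at h8
  rw [← iE_sp, MulEquiv.apply_symm_apply, ← h8]
  congr 1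
  have h5 : Rt (1 : GL (Fin 1 ⊕ Fin 1) F) 1 1 := ⟨by simp, by simp⟩
  have h6 := Multiset.eq_replicate.2 ⟨h5.card, fun z hz => by simpa using h5.mem hz⟩
  have h7 := h5.jd
  rw [h6, Units.val_one, mE_one] at h7
  exact h7

end H21.Xs
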