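import Cfsg.Agent.H21.Xs1
import Cfsg.Agent.H21.ExtraClass

/-! Normalisers of absolutely irreducible groups that are abelian modulo scalars (`XR`): the trace
formula `XR.trace_formula`, counting fixed points (`fix_mod`); the two-groups `W R` (commutators
and squares `± 1`), the elements `1 + v` of the normaliser, pairs `Gm`, the restrictions `W.fix_k`
and `W.not_tv` on elements of odd prime order of the normaliser in dimension four. -/

set_option autoImplicit false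
set_option linter.unusedSectionVars false

namespace H21.Xs

open Matrix Module Polynomial H11 Cfsg.Geo Subgroup

universe u
variable {F : Type u} [Field F] {ι : Type} [Fintype ι] [DecidableEq ι] {U R A : Subgroup (GL ι F)}
  {x y v w a b c d : GL ι F} {r : ℕ} [Finite F]

theorem sc_comm {z : F} (h : x.1 = z • 1) (y : GL ι F) : x * y = y * x := Units.ext (by simp [h])

theorem fix_mod [Fact r.Prime] {z : F} (h : (x ^ r).1 = z • 1) {T : Set (GL ι F)}
    (hT : ∀ y ∈ T, x * y * x⁻¹ ∈ T) :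
    Nat.card T ≡ Nat.card {y // y ∈ T ∧ y * x = x * y} [MOD r] := by
  classical
  let f : Function.End T := fun y => ⟨_, hT y y.2⟩
  have h1 : ∀ k (y : T), ((f ^ k) y : GL ι F) = x ^ k * y * (x ^ k)⁻¹ := fun k => by
    induction k with
    | zero => intro y; rw [pow_zero, pow_zero, inv_one, one_mul, mul_one]; rfl
    | succ k ih =>
      intro y
      rw [pow_succ', pow_succ']
      change x * ((f ^ k) y : GL ι F) * x⁻¹ = _
      rw [ih]; group
  haveI := Fintype.ofFinite T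
  have h2 := Equiv.Perm.card_fixedPoints_modEq (f := f) (p := r) (n := 1) (funext fun y => Subtype.ext (by
    rw [pow_one, h1, sc_comm h, mul_inv_cancel_right]; rfl))
  rw [← Nat.card_eq_fintype_card, ← Nat.card_eq_fintype_card] at h2
  rwa [Nat.card_congr (β := {y // y ∈ T ∧ y * x = x * y}) ((Equiv.subtypeEquivRight fun y => ?_).trans
    (Equiv.subtypeSubtypeEquivSubtypeInter (· ∈ T) fun y => y * x = x * y))] at h2
  exact Subtype.ext_iff.trans (mul_inv_eq_iff_eq_mul.trans eq_comm)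

theorem mem_N (h : ∀ y ∈ R, x * y * x⁻¹ ∈ R) : x ∈ subgroupNormalizer R := mem_normalizer_fintype h

theorem N_conj (h : x ∈ subgroupNormalizer R) (hy : y ∈ R) : x * y * x⁻¹ ∈ R :=
  (mem_normalizer_iff.1 h y).1 hy

theorem sc_mem_N {z : F} (h : x.1 = z • 1) : x ∈ subgroupNormalizer R :=
  mem_N fun y hy => by rwa [sc_comm h, mul_inv_cancel_right]

theorem tr_conj (y : GL ι F) (M : Matrix ι ι F) : (y.1 * M * y⁻¹.1).trace = M.trace := by
  rw [trace_mul_cycle, Units.inv_mul, one_mul]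

theorem tr0 {M : Matrix ι ι F} {z : F} (hz : z ≠ 1) (h : M * y.1 = z • (y.1 * M)) : M.trace = 0 := by
  have h1 : M = z • (y.1 * M * y⁻¹.1) := by rw [← smul_mul_assoc, ← h, Units.mul_inv_cancel_right]
  have h2 := congrArg trace h1
  rw [trace_smul, tr_conj, smul_eq_mul] at h2
  exact (mul_eq_zero.1 (show (z - 1) * M.trace = 0 by linear_combination -h2)).resolve_left (sub_ne_zero.2 hz)

structure XR (R : Subgroup (GL ι F)) : Prop where
  sc : ∀ M : Matrix ι ι F, (∀ y ∈ R, M * y.1 = y.1 * M) → ∃ z : F, M = z • 1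
  cm : ∀ x ∈ R, ∀ y ∈ R, ∃ z : F, x.1 * y.1 = z • (y.1 * x.1)

theorem XR.tr (h : XR R) (hx : x ∈ R) (h1 : ∀ z : F, x.1 ≠ z • 1) : x.1.trace = 0 := by
  by_contra h2
  refine (h.sc x fun y hy => ?_).elim h1
  obtain ⟨z, hz⟩ := h.cm x hx y hy
  by_cases e : z = 1
  · rw [hz, e, one_smul]
  · exact (h2 (tr0 e hz)).elim

theorem XR.trace_formula (h : XR R) (hx : x ∈ subgroupNormalizer R)
    (h1 : ∀ y ∈ R, ∀ z : F, (y * x * y⁻¹ * x⁻¹).1 = z • 1 → y * x = x * y) :
    (Fintype.card ι : F) ^ 2 * Nat.card (R ⊓ centralizer {x} : Subgroup _) =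
      Nat.card R * (x.1.trace * x⁻¹.1.trace) := by
  classical
  obtain ⟨s, hs⟩ := h.sc (∑ y ∈ fs R, (y * x * y⁻¹).1) fun g hg => by
    conv_lhs => rw [← sum_fs_mul_left hg]
    rw [Finset.sum_mul, Finset.mul_sum]
    exact Finset.sum_congr rfl fun y _ => by rw [← Units.val_mul, ← Units.val_mul]; congr 1; group
  have h2 := congrArg trace hs
  have h3 := congrArg (fun M => trace (M * x⁻¹.1)) hs
  simp only [trace_sum, Units.val_mul, tr_conj, Finset.sum_const, card_fs, trace_smul, trace_one,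
    nsmul_eq_mul, smul_eq_mul] at h2
  have h4 : ∀ y ∈ fs R, ((y * x * y⁻¹).1 * x⁻¹.1).trace =
      if y ∈ centralizer {x} then (Fintype.card ι : F) else 0 := fun y hy => by
    rw [← Units.val_mul, mem_centralizer_singleton_iff]
    split_ifs with e
    · simp [e]
    · refine h.tr ?_ fun z hz => e (h1 y (mem_fs.1 hy) z hz)
      rw [mul_assoc, mul_assoc, ← mul_assoc x]
      exact mul_mem (mem_fs.1 hy) (N_conj hx (inv_mem (mem_fs.1 hy)))
  simp only [Finset.sum_mul, trace_sum, smul_mul_assoc, one_mul, trace_smul, smul_eq_mul] at h3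
  rw [Finset.sum_congr rfl h4, sum_fs_ite, Finset.sum_const, card_fs, nsmul_eq_mul] at h3
  linear_combination (Fintype.card ι : F) * h3 - x⁻¹.1.trace * h2

structure W (R : Subgroup (GL ι F)) : Prop where
  sc : ∀ M : Matrix ι ι F, (∀ y ∈ R, M * y.1 = y.1 * M) → ∃ z : F, M = z • 1
  neg : -1 ∈ R
  cm : ∀ x ∈ R, ∀ y ∈ R, x * y = y * x ∨ x * y = -(y * x)
  sq : ∀ x ∈ R, x * x = 1 ∨ x * x = -1
  two : (2 : F) ≠ 0

theorem W.xr (h : W R) : XR R := ⟨h.sc, fun x hx y hy => (h.cm x hx y hy).elim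
  (fun e => ⟨1, by simpa using congrArg Units.val e⟩) fun e => ⟨-1, by simpa using congrArg Units.val e⟩⟩

theorem W.neg_mem (h : W R) (hx : x ∈ R) : -x ∈ R := by simpa using mul_mem h.neg hx

theorem W.anti (h : W R) (hx : x ∈ R) (h1 : ∀ z : F, x.1 ≠ z • 1) : ∃ y ∈ R, x * y = -(y * x) := by
  by_contra! h2
  exact (h.sc x fun y hy => congrArg Units.val ((h.cm x hx y hy).resolve_right (h2 y hy))).elim h1

variable [Nonempty ι]

theorem ne_neg (h2 : (2 : F) ≠ 0) (x : GL ι F) : x ≠ -x := fun e => x.ne_zero (by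
  refine smul_right_injective _ h2 ?_
  have := congrArg Units.val e
  simp only [two_smul, smul_zero]
  exact add_eq_zero_iff_eq_neg.2 this)

theorem ns_of_anti (h2 : (2 : F) ≠ 0) (h : x * y = -(y * x)) (z : F) : x.1 ≠ z • 1 := fun e =>
  ne_neg h2 _ (h.trans (by rw [sc_comm e]))

theorem mem_sc : x ∈ scalars ι F ↔ ∃ z : F, x.1 = z • 1 :=
  (mem_scalars_iff x).trans ⟨fun ⟨c, h⟩ => ⟨c, h⟩, fun ⟨c, h⟩ =>
    ⟨Units.mk0 c fun e => x.ne_zero (by rw [h, e, zero_smul]), h⟩⟩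

theorem W.card_two (h : W R) (hA : A ≤ R) (hy : y ∈ R) (ha : a ∈ A) (e : a * y = -(y * a)) :
    Nat.card A = 2 * Nat.card (A ⊓ centralizer {y} : Subgroup _) := by
  have h1 : (centralizer {y}).relIndex A = 2 := relIndex_eq_two_iff.2 ⟨a, ha, fun b hb => by
    simp only [mem_centralizer_singleton_iff]
    rcases h.cm b (hA hb) y hy with h1 | h1
    · exact Or.inr ⟨h1, fun h2 => ne_neg h.two _ (h2.symm.trans (by rw [mul_assoc, e, mul_neg, ← mul_assoc, h1, mul_assoc]))⟩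
    · exact Or.inl ⟨by rw [mul_assoc, e, mul_neg, ← mul_assoc, h1, neg_mul, neg_neg, mul_assoc],
        fun h2 => ne_neg h.two _ (h2.symm.trans h1)⟩⟩
  rw [← h1, ← relIndex_bot_left, ← relIndex_bot_left, ← inf_relIndex_left A (centralizer _), mul_comm,
    relIndex_mul_relIndex _ _ _ bot_le inf_le_left]

theorem W.pairs (h : W R) (h1 : 4 * Nat.card (R ⊓ scalars ι F : Subgroup _) < Nat.card R) :
    ∃ a ∈ R, ∃ b ∈ R, ∃ c ∈ R, ∃ d ∈ R, b * a = -(a * b) ∧ d * c = -(c * d) ∧ c * a = a * c ∧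
      c * b = b * c ∧ d * a = a * d ∧ d * b = b * d := by
  have h2 : ∀ A ≤ R, Nat.card (R ⊓ scalars ι F : Subgroup _) < Nat.card A → ∃ a ∈ A, ∃ b ∈ R,
      a * b = -(b * a) := fun A hA e => by
    obtain ⟨a, ha, h3⟩ := SetLike.not_le_iff_exists.1 fun h3 => e.not_ge (card_le_of_le (le_inf hA h3))
    exact ⟨a, ha, h.anti (hA ha) fun z hz => h3 (mem_sc.2 ⟨z, hz⟩)⟩
  obtain ⟨b, hb, a, ha, e⟩ := h2 R le_rfl (by omega)
  have e' : a * b = -(b * a) := by rw [e, neg_neg]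
  have h3 := h.card_two le_rfl ha hb e
  have h4 := h.card_two (A := R ⊓ centralizer {a}) inf_le_left hb ⟨ha, mem_centralizer_singleton_iff.2 rfl⟩ e'
  obtain ⟨c, ⟨⟨hc, h5⟩, h6⟩, d, hd, h7⟩ := h2 (R ⊓ centralizer {a} ⊓ centralizer {b})
    (inf_le_left.trans inf_le_left) (by omega)
  have h8 : c * a = a * c := mem_centralizer_singleton_iff.1 h5
  have h9 : c * b = b * c := mem_centralizer_singleton_iff.1 h6
  have h10 : d * c = -(c * d) := by rw [h7, neg_neg]
  have l : ∀ {x y z : GL ι F}, x * y = z → ∀ w, x * (y * w) = z * w := fun e w => by rw [← mul_assoc, e]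
  refine ⟨a, ha, b, hb, c, hc, ?_⟩
  rcases h.cm d hd a ha with k | k <;> rcases h.cm d hd b hb with k' | k'
  · exact ⟨d, hd, e, h10, h8, h9, k, k'⟩
  · refine ⟨a * d, mul_mem ha hd, e, ?_, h8, h9, ?_, ?_⟩ <;>
      simp [mul_assoc, h10, l h8, k, k', l e]
  · refine ⟨b * d, mul_mem hb hd, e, ?_, h8, h9, ?_, ?_⟩ <;>
      simp [mul_assoc, h10, l h9, k, k', l e]
  · refine ⟨a * b * d, mul_mem (mul_mem ha hb) hd, e, ?_, h8, h9, ?_, ?_⟩ <;>
      simp [mul_assoc, h10, l h8, l h9, k, k', l e]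

structure Gm (R : Subgroup (GL ι F)) (a b c d : GL ι F) : Prop where
  ha : a ∈ R
  hb : b ∈ R
  hc : c ∈ R
  hd : d ∈ R
  aa : a * a = 1
  bb : b * b = 1
  cc : c * c = -1
  dd : d * d = -1
  ba : b * a = -(a * b)
  dc : d * c = -(c * d)
  ca : c * a = a * c
  cb : c * b = b * c
  da : d * a = a * d
  db : d * b = b * d

theorem W.exists_gm (h : W R) (h1 : 4 * Nat.card (R ⊓ scalars ι F : Subgroup _) < Nat.card R)
    {I : GL ι F} (hI : I ∈ R) {i : F} (h2 : I.1 = i • 1) (h3 : I * I = -1) : ∃ a b c d, Gm R a b c d := by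
  obtain ⟨a, ha, b, hb, c, hc, d, hd, e1, e2, e3, e4, e5, e6⟩ := h.pairs h1
  have k : ∀ x ∈ R, ∀ ε : GL ι F, ε = 1 ∨ ε = -1 → ∃ s ∈ R, (∀ y, y * s = s * y) ∧ s * x * (s * x) = ε := by
    intro x hx ε hε
    have k1 : I * x * (I * x) = -(x * x) := by
      rw [mul_assoc, ← mul_assoc x, ← sc_comm h2, mul_assoc, ← mul_assoc I, h3, neg_one_mul]
    rcases h.sq x hx with e | e <;> rcases hε with rfl | rfl
    exacts [⟨1, one_mem _, by simp, by simpa⟩, ⟨I, hI, fun y => (sc_comm h2 y).symm, by rw [k1, e]⟩,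
      ⟨I, hI, fun y => (sc_comm h2 y).symm, by rw [k1, e, neg_neg]⟩, ⟨1, one_mem _, by simp, by simpa⟩]
  obtain ⟨s, s1, s2, s3⟩ := k a ha 1 (Or.inl rfl)
  obtain ⟨t, t1, t2, t3⟩ := k b hb 1 (Or.inl rfl)
  obtain ⟨u, u1, u2, u3⟩ := k c hc (-1) (Or.inr rfl)
  obtain ⟨v, v1, v2, v3⟩ := k d hd (-1) (Or.inr rfl)
  have l : ∀ {s t : GL ι F}, (∀ y, y * s = s * y) → (∀ y, y * t = t * y) → ∀ x y,
      s * x * (t * y) = s * t * (x * y) ∧ t * y * (s * x) = s * t * (y * x) := fun {s t} h h' x y =>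
    ⟨by rw [mul_assoc, ← mul_assoc x, h', mul_assoc, mul_assoc],
      by rw [mul_assoc, ← mul_assoc y, h, mul_assoc, ← mul_assoc, h]⟩
  exact ⟨_, _, _, _, mul_mem s1 ha, mul_mem t1 hb, mul_mem u1 hc, mul_mem v1 hd, s3, t3, u3, v3,
    by rw [(l s2 t2 _ _).1, (l s2 t2 _ _).2, e1, mul_neg], by rw [(l u2 v2 _ _).1, (l u2 v2 _ _).2, e2, mul_neg],
    by rw [(l s2 u2 _ _).1, (l s2 u2 _ _).2, e3], by rw [(l t2 u2 _ _).1, (l t2 u2 _ _).2, e4],
    by rw [(l s2 v2 _ _).1, (l s2 v2 _ _).2, e5], by rw [(l t2 v2 _ _).1, (l t2 v2 _ _).2, e6]⟩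

/-- conjugation by `1 + v` -/
def TP (s v : GL ι F) : Prop :=
  (∀ r, r * v = v * r → s * r * s⁻¹ = r) ∧ ∀ r, r * v = -(v * r) → s * r * s⁻¹ = -(r * v)

theorem exists_T (h2 : (2 : F) ≠ 0) (hv : v * v = -1) : ∃ s : GL ι F, s.1 = 1 + v.1 ∧ TP s v := by
  have h1 : v.1 * v.1 = -1 := congrArg Units.val hv
  have h3 : (2⁻¹ : F) • (1 + 1 : Matrix ι ι F) = 1 := by rw [← two_smul F, smul_smul, inv_mul_cancel₀ h2, one_smul]
  refine ⟨⟨1 + v.1, (2⁻¹ : F) • (1 - v.1), ?_, ?_⟩, rfl, fun r e => ?_, fun r e => ?_⟩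
  · rw [mul_smul_comm]; convert h3 using 2; simp [mul_sub, add_mul, h1]; abel
  · rw [smul_mul_assoc]; convert h3 using 2; simp [sub_mul, mul_add, h1]; abel
  · have e' : r.1 * v.1 = v.1 * r.1 := congrArg Units.val e
    exact mul_inv_eq_iff_eq_mul.2 (Units.ext (by simp [mul_add, add_mul, e']))
  · have e' : v.1 * r.1 = -(r.1 * v.1) := by simpa using congrArg (fun x => -Units.val x) e.symm
    exact mul_inv_eq_iff_eq_mul.2 (Units.ext (by simp [mul_add, add_mul, e', mul_assoc, h1, add_comm]))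

theorem W.tp_mem (h : W R) (hv : v ∈ R) {s : GL ι F} (hs : TP s v) : s ∈ subgroupNormalizer R :=
  mem_N fun y hy => (h.cm y hy v hv).elim (fun e => (hs.1 y e).symm ▸ hy)
    fun e => (hs.2 y e).symm ▸ h.neg_mem (mul_mem hy hv)

theorem inv_of_neg (hv : v * v = -1) : v⁻¹.1 = -v.1 := by
  rw [← Units.val_neg, inv_eq_of_mul_eq_one_right (show v * -v = 1 by rw [mul_neg, hv, neg_neg])]

theorem W.exists_H (h : W R) (hU : AD U) (hR : R ≤ U) (hv : v ∈ R) (hw : w ∈ R) (e : v * v = -1)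
    (e' : w * w = -1) : ∃ g ∈ U ⊓ subgroupNormalizer R, (2 : F) • g.1 = (1 + v.1) * (1 + w.1) ∧
      ∃ s t, TP s v ∧ TP t w ∧ ∀ r, g * r * g⁻¹ = s * (t * r * t⁻¹) * s⁻¹ := by
  obtain ⟨s, s1, s2⟩ := exists_T h.two e
  obtain ⟨t, t1, t2⟩ := exists_T h.two e'
  let z : GL ι F := H29.scU (Units.mk0 2 h.two)⁻¹
  have h1 : (2 : F) • (z * (s * t)).1 = (1 + v.1) * (1 + w.1) := by
    simp [z, s1, t1, smul_smul, h.two]
  have h3 : v.1 * v.1 = -1 := congrArg Units.val e
  have h4 : w.1 * w.1 = -1 := congrArg Units.val e'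
  refine ⟨z * (s * t), ⟨hU _ 2 _ _ ((Aj.one.add (.of (hR hv))).mul (Aj.one.add (.of (hR hw))))
    (by simpa using h.two) (by simpa using h1) (smul_right_injective _ h.two ?_),
    mul_mem (sc_mem_N (H29.coe_scU _)) (mul_mem (h.tp_mem hv s2) (h.tp_mem hw t2))⟩, h1, s, t, s2, t2,
    fun r => ?_⟩
  · simp only [← mul_smul_comm, h1, inv_of_neg e, inv_of_neg e']
    have h5 : ∀ M, v.1 * (v.1 * M) = -M := fun M => by rw [← mul_assoc, h3, neg_one_mul]
    simp only [mul_add, add_mul, mul_one, one_mul, neg_mul, mul_neg, h3, h4, h5, mul_assoc,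
      neg_neg, Nat.cast_ofNat]
    module
  · rw [sc_comm (H29.coe_scU _) (s * t), mul_assoc (s * t), sc_comm (H29.coe_scU _) r]; group

theorem card_fix (A : Subgroup (GL ι F)) (x : GL ι F) : Nat.card {y // y ∈ (A : Set (GL ι F)) ∧ y * x = x * y} =
    Nat.card (A ⊓ centralizer {x} : Subgroup _) :=
  Nat.card_congr (Equiv.subtypeEquivRight fun _ => and_congr_right fun _ => mem_centralizer_singleton_iff.symm)

theorem sc_le (x : GL ι F) : R ⊓ scalars ι F ≤ R ⊓ centralizer {x} :=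
  inf_le_inf_left _ fun y hy => (mem_sc.1 hy).elim fun _ e => mem_centralizer_singleton_iff.2 (sc_comm e x)

theorem W.fix_k (h : W R) (hn : Fintype.card ι = 4) {z : ℕ} (hz : Nat.card (R ⊓ scalars ι F : Subgroup _) = z)
    (hz4 : z ∣ 4) (hR : Nat.card R = 16 * z) [hr : Fact r.Prime] (h2 : r ≠ 2) (hx : x ∈ subgroupNormalizer R)
    {e : F} (h3 : (x ^ r).1 = e • 1) (h4 : ∀ e : F, x.1 ≠ e • 1) :
    r = 3 ∧ (x.1.trace * x⁻¹.1.trace = 1 ∧ R ⊓ centralizer {x} ≤ scalars ι F ∨ x.1.trace * x⁻¹.1.trace = 4) ∨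
      r = 5 ∧ x.1.trace * x⁻¹.1.trace = 1 := by
  have c2 : r.Coprime 4 := ((Nat.coprime_primes hr.out Nat.prime_two).2 h2).pow_right 2
  have h5 := h.xr.trace_formula hx fun y hy c hc => by
    have k1 : y * x * y⁻¹ * x⁻¹ ∈ R := by
      rw [mul_assoc, mul_assoc, ← mul_assoc x]; exact mul_mem hy (N_conj hx (inv_mem hy))
    obtain ⟨w, hw⟩ : ∃ w, w = y * x * y⁻¹ * x⁻¹ := ⟨_, rfl⟩
    rw [← hw] at hc k1
    have k2 : w ^ 4 = 1 := by
      rw [show 4 = 2 * 2 from rfl, pow_mul, pow_two w]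
      rcases h.sq w k1 with e | e <;> simp [e]
    have k3 : w ^ r * x ^ r = 1 * x ^ r := by
      rw [← Commute.mul_pow (sc_comm hc x), hw, inv_mul_cancel_right, conj_pow, ← sc_comm h3]; simp
    have k4 := (pow_eq_one_iff_of_coprime c2).1 ⟨mul_right_cancel k3, k2⟩
    rwa [hw, mul_inv_eq_one, mul_inv_eq_iff_eq_mul] at k4
  have z0 : 0 < z := hz ▸ Nat.card_pos
  obtain ⟨k, hk⟩ : z ∣ Nat.card (R ⊓ centralizer {x} : Subgroup _) := hz ▸ card_dvd_of_le (sc_le x)
  have h6 : k ∣ 16 := Nat.dvd_of_mul_dvd_mul_left z0 (by rw [← hk, mul_comm, ← hR]; exact card_dvd_of_le inf_le_left)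
  have h7 : k ≠ 16 := fun e => (h.sc x fun y hy => congrArg Units.val (mem_centralizer_singleton_iff.1
    ((eq_of_le_of_card_ge inf_le_left (by rw [hk, hR, e, mul_comm])).ge hy).2).symm).elim h4
  have cz : r.Coprime z := c2.coprime_dvd_right hz4
  have h8 := fix_mod h3 (T := R) fun y hy => N_conj hx hy
  rw [card_fix, hk, SetLike.coe_sort_coe, hR, mul_comm z] at h8
  have h9 := (Nat.ModEq.cancel_right_of_coprime cz h8).symm
  have h10 : (16 * z : F) ≠ 0 := by
    obtain ⟨j, hj⟩ := hz4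
    have : (4 : F) ≠ 0 := by convert pow_ne_zero 2 h.two using 1; norm_num
    refine mul_ne_zero (by convert pow_ne_zero 2 this using 1; norm_num) fun e => this ?_
    exact_mod_cast (show ((4 : ℕ) : F) = 0 by rw [hj, Nat.cast_mul, e, zero_mul])
  have h11 : x.1.trace * x⁻¹.1.trace = k := mul_left_cancel₀ h10 (by
    rw [hn, hk, hR, Nat.cast_mul, Nat.cast_mul, Nat.cast_ofNat, Nat.cast_ofNat] at h5; linear_combination -h5)
  have h12 := Nat.le_of_dvd (by norm_num) h6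
  have h13 := (Nat.modEq_iff_dvd' h12).1 h9
  have h14 : ∀ {a b : ℕ}, a.Prime → r ∣ a ^ b → r = a := fun ha e =>
    (Nat.prime_dvd_prime_iff_eq hr.out ha).1 (hr.out.dvd_of_dvd_pow e)
  interval_cases k <;> simp at h6 h7 h13
  · have h15 : R ⊓ centralizer {x} ≤ scalars ι F :=
      (eq_of_le_of_card_ge (sc_le x) (by rw [hk, hz, mul_one])).ge.trans inf_le_right
    rcases (hr.out.dvd_mul (m := 3) (n := 5)).1 h13 with e | e
    · exact Or.inl ⟨h14 Nat.prime_three (b := 1) e, Or.inl ⟨by simpa using h11, h15⟩⟩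
    · exact Or.inr ⟨h14 Nat.prime_five (b := 1) e, by simpa using h11⟩
  · exfalso
    obtain ⟨y, ⟨hy, k1⟩, k2⟩ := SetLike.not_le_iff_exists.1 fun e : R ⊓ centralizer {x} ≤ scalars ι F =>
      (card_le_of_le (le_inf inf_le_left e)).not_gt (by omega)
    obtain ⟨a, ha, k3⟩ := h.anti hy fun c e => k2 (mem_sc.2 ⟨c, e⟩)
    have k4 := h.card_two le_rfl hy ha (by rw [k3, neg_neg])
    have k5 : y * x = x * y := mem_centralizer_singleton_iff.1 k1
    have k6 := fix_mod h3 (T := (R ⊓ centralizer {y} : Subgroup _)) fun u hu => 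
      have : x ∈ centralizer {y} := mem_centralizer_singleton_iff.2 k5.symm
      mem_inf.2 ⟨N_conj hx hu.1, mul_mem (mul_mem this (mem_inf.1 hu).2) (inv_mem this)⟩
    have k7 : R ⊓ scalars ι F ≤ R ⊓ centralizer {y} ⊓ centralizer {x} := le_inf (sc_le y) ((sc_le x).trans inf_le_right)
    obtain ⟨j, hj⟩ := hz ▸ card_dvd_of_le k7
    have k8 : j ∣ 2 := Nat.dvd_of_mul_dvd_mul_left z0 (by
      rw [← hk, ← hj]; exact card_dvd_of_le (inf_le_inf_right _ inf_le_left))
    have k9 : j ≠ 1 := fun e => k2 ((eq_of_le_of_card_ge k7 (by rw [hj, hz, e, mul_one])).ge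
      ⟨⟨hy, mem_centralizer_singleton_iff.2 rfl⟩, k1⟩).2
    obtain rfl := ((Nat.dvd_prime Nat.prime_two).1 k8).resolve_left k9
    rw [card_fix, hj, SetLike.coe_sort_coe, show Nat.card (R ⊓ centralizer {y} : Subgroup _) = 8 * z by omega,
      mul_comm z] at k6
    have k10 := (Nat.modEq_iff_dvd' (by norm_num)).1 (Nat.ModEq.cancel_right_of_coprime cz k6).symm
    exact h2 (h14 Nat.prime_two (b := 1) (by simpa using Nat.dvd_gcd h13 k10))
  · rcases (hr.out.dvd_mul (m := 3) (n := 2 ^ 2)).1 h13 with e | e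
    · exact Or.inl ⟨h14 Nat.prime_three (b := 1) e, Or.inr (by simpa using h11)⟩
    · exact (h2 (h14 Nat.prime_two e)).elim
  · exact (h2 (h14 Nat.prime_two (b := 3) h13)).elim

theorem W.not_tv (h : W R) (hn : Fintype.card ι = 4) (hx : x ∈ subgroupNormalizer R) :
    JD (mE x.1) ≠ {(1, 2), (1, 1), (1, 1)} := by
  intro e
  obtain ⟨a, ha⟩ : ∃ a, x.1 = 1 + a := ⟨x.1 - 1, by simp⟩
  have h1 : a * a = 0 := by
    have := (aeval_eq_zero_iff_JD (f := mE x.1) (Q := (X - 1) ^ 2)).2 (by simp [e, dvd_pow_self])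
    rw [aeval_mE, mE_eq_zero] at this
    simpa [ha, pow_two] using this
  have h2 : a.rank = 1 := by
    have h2 := finrank_ker_JD (mE x.1) (Q := X - C 1) (X_sub_C_ne_zero 1)
    have h3 := rank_add_ker a
    rw [aeval_mE, e, Polynomial.map_sub, map_X, map_C, map_one (algebraMap F (AC F))] at h2
    simp only [Multiset.insert_eq_cons, Multiset.map_cons, Multiset.map_singleton, rootMultiplicity_X_sub_C_self] at h2
    rw [show aeval x.1 (X - C 1 : F[X]) = a by rw [map_sub, aeval_X, aeval_C, map_one, ha, add_sub_cancel_left]] at h2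
    rw [h2, hn] at h3
    simpa using (Nat.add_right_cancel (m := 3) h3 : a.rank = 1)
  have h3 : x⁻¹.1 = 1 - a := Units.inv_eq_of_mul_eq_one_right (by simp [ha, mul_sub, add_mul, h1])
  obtain ⟨z, hz⟩ := h.sc x fun y hy => by
    obtain ⟨b, hb⟩ : ∃ b, b = -(y.1 * a * y⁻¹.1) := ⟨_, rfl⟩
    have k1 : b * b = 0 := by simp [hb, mul_assoc, ← mul_assoc a, h1]
    have k2 : x * y * x⁻¹ * y⁻¹ ∈ R := mul_mem (N_conj hx hy) (inv_mem hy)
    have k3 : (x * y * x⁻¹ * y⁻¹).1 = (1 + a) * (1 + b) := by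
      simp only [Units.val_mul, h3, ha, hb, mul_assoc, mul_sub, sub_mul, one_mul, Units.mul_inv, mul_add, mul_one,
        mul_neg]
      abel
    have l1 : ∀ M, a * (a * M) = 0 := fun M => by rw [← mul_assoc, h1, zero_mul]
    have l2 : ∀ M, b * (b * M) = 0 := fun M => by rw [← mul_assoc, k1, zero_mul]
    have k4 : ∀ s : F, (x * y * x⁻¹ * y⁻¹).1 * (x * y * x⁻¹ * y⁻¹).1 = s • 1 →
        (1 + a) * (1 + b) = s • ((1 - b) * (1 - a)) := fun s e => by
      have := congrArg (· * ((1 - b) * (1 - a))) e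
      simp only [k3, smul_mul_assoc, one_mul] at this
      rw [← this]
      simp only [mul_add, add_mul, mul_sub, sub_mul, mul_one, one_mul, mul_assoc, h1, k1, l1, l2, mul_zero, zero_mul]
      abel
    rcases h.sq _ k2 with k | k
    · have k5 := k4 1 (by simpa using congrArg Units.val k)
      have k6 : (2 : F) • (a + b) = b * a - a * b := by
        rw [← sub_eq_zero] at k5 ⊢; rw [← k5]; simp only [mul_add, add_mul, mul_sub, sub_mul, mul_one, one_mul]; module
      have k7 : a * (b * a) = 0 := smul_right_injective _ h.two (by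
        simpa [mul_add, add_mul, mul_sub, sub_mul, mul_assoc, h1, l1] using congrArg (a * · * a) k6)
      have k8 : a * b = 0 := smul_right_injective _ h.two (by
        simpa [mul_add, mul_sub, h1, l1, k7] using congrArg (a * ·) k6)
      have k9 : b * a = 0 := smul_right_injective _ h.two (by
        simpa [add_mul, sub_mul, mul_assoc, h1, k7] using congrArg (· * a) k6)
      have k10 : a + b = 0 := smul_right_injective _ h.two (by simpa [k8, k9] using k6)
      have k11 : x * y * x⁻¹ * y⁻¹ = 1 := Units.ext (by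
        rw [k3, mul_add, add_mul, add_mul, k8, mul_one, mul_one, one_mul, add_zero, add_assoc, k10, add_zero]; rfl)
      rw [mul_inv_eq_one, mul_inv_eq_iff_eq_mul] at k11
      exact congrArg Units.val k11
    · exfalso
      have k5 := k4 (-1) (by simpa using congrArg Units.val k)
      have k6 : a * b + b * a = (-2 : F) • 1 := by
        rw [← sub_eq_zero] at k5 ⊢; rw [← k5]; simp only [mul_add, add_mul, mul_sub, sub_mul, mul_one, one_mul]; module
      have k7 : b.rank ≤ 1 := by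
        rw [hb, ← neg_mul, ← neg_mul, ← h2]; exact (rank_mul_le_left _ _).trans (rank_mul_le_right _ _)
      have k8 := Submodule.finrank_sup_add_finrank_inf_eq (LinearMap.ker (mE a)) (LinearMap.ker (mE b))
      have k9 := Submodule.finrank_le (LinearMap.ker (mE a) ⊔ LinearMap.ker (mE b))
      have k10 := rank_add_ker a
      have k11 := rank_add_ker b
      rw [finrank_fintype_fun_eq_card] at k9
      obtain ⟨v, ⟨v1, v2⟩, v0⟩ := (Submodule.ne_bot_iff _).1 (Submodule.finrank_eq_zero.not.1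
        (show finrank F (LinearMap.ker (mE a) ⊓ LinearMap.ker (mE b) : Submodule F _) ≠ 0 by omega))
      have k12 := congrArg (· *ᵥ v) k6
      change a *ᵥ v = 0 at v1
      change b *ᵥ v = 0 at v2
      simp [add_mulVec, ← mulVec_mulVec, v1, v2, neg_mulVec, smul_mulVec, h.two, v0] at k12
  obtain rfl : a = (z - 1) • 1 := by rw [sub_smul, ← hz, ha]; simp
  have h4 : z - 1 = 0 := by simpa [smul_smul] using h1
  simp [h4] at h2

theorem l_assoc {G : Type*} [Monoid G] {x y z : G} (e : x * y = z) (w : G) : x * (y * w) = z * w := by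
  rw [← mul_assoc, e]

theorem W.five (h : W R) (hU : AD U) (hR : R ≤ U) (k : Gm R a b c d) :
    ∃ y ∈ U ⊓ subgroupNormalizer R, y ^ 5 = 1 ∧ y ≠ 1 := by
  obtain ⟨γ, h1, h2, h3⟩ : ∃ γ : Fin 5 → GL ι F, (∀ i, γ i ∈ R) ∧ (∀ i, γ i * γ i = 1) ∧
      ∀ i j, i ≠ j → γ i * γ j = -(γ j * γ i) := by
    refine ⟨![a, b, a * (b * c), a * (b * d), a * (b * (c * d))], fun i => ?_, fun i => ?_, fun i j e => ?_⟩
    · fin_cases i
      exacts [k.ha, k.hb, mul_mem k.ha (mul_mem k.hb k.hc), mul_mem k.ha (mul_mem k.hb k.hd),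
        mul_mem k.ha (mul_mem k.hb (mul_mem k.hc k.hd))]
    all_goals
      fin_cases i <;> try fin_cases j
      all_goals simp [mul_assoc, k.aa, k.bb, k.cc, k.dd, k.ba, k.dc, k.ca, k.cb, k.da, k.db, l_assoc k.aa,
        l_assoc k.bb, l_assoc k.cc, l_assoc k.dd, l_assoc k.ba, l_assoc k.dc, l_assoc k.ca, l_assoc k.cb,
        l_assoc k.da, l_assoc k.db] at *
  have h4 : ∀ i j, i ≠ j → γ i * γ j * (γ i * γ j) = -1 := fun i j e => by
    rw [mul_assoc, l_assoc (h3 j i e.symm), neg_mul, mul_assoc, h2, mul_one, mul_neg, h2]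
  have h5 : ∀ i j, i ≠ j → ∀ s, TP s (γ i * γ j) → ∀ k, s * γ k * s⁻¹ =
      if k = i then -γ j else if k = j then γ i else γ k := fun i j e s hs k => by
    split_ifs with e1 e2
    · rw [e1, hs.2 _ (by rw [mul_assoc, h3 j i e.symm, mul_neg, neg_neg]), l_assoc (h2 i), one_mul]
    · rw [e2, hs.2 _ (by rw [l_assoc (h3 j i e.symm), neg_mul]), l_assoc (h3 j i e.symm), neg_mul, neg_neg,
        mul_assoc, h2, mul_one]
    · exact hs.1 _ (by rw [l_assoc (h3 k i e1), neg_mul, mul_assoc, h3 k j e2, mul_neg, neg_neg, mul_assoc])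
  obtain ⟨g, g1, -, s, t, hs, ht, g2⟩ := h.exists_H hU hR (mul_mem (h1 0) (h1 1)) (mul_mem (h1 1) (h1 2))
    (h4 _ _ (by decide)) (h4 _ _ (by decide))
  obtain ⟨g', g1', -, s', t', hs', ht', g2'⟩ := h.exists_H hU hR (mul_mem (h1 2) (h1 3)) (mul_mem (h1 3) (h1 4))
    (h4 _ _ (by decide)) (h4 _ _ (by decide))
  let f : GL ι F → GL ι F := fun r => g * g' * r * (g * g')⁻¹
  have f1 : ∀ r, f r = s * (t * (s' * (t' * r * t'⁻¹) * s'⁻¹) * t⁻¹) * s⁻¹ := fun r => by
    rw [← g2', ← g2]; simp only [f]; group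
  have f2 : ∀ r, f (-r) = -f r := fun r => by simp [f]
  have f3 : f (γ 0) = -γ 1 ∧ f (γ 1) = -γ 2 ∧ f (γ 2) = -γ 3 ∧ f (γ 3) = -γ 4 ∧ f (γ 4) = γ 0 := by
    simp [f1, h5 _ _ (by decide) _ hs, h5 _ _ (by decide) _ ht, h5 _ _ (by decide) _ hs', h5 _ _ (by decide) _ ht']
  haveI : Fact (Nat.Prime 5) := ⟨Nat.prime_five⟩
  have f4 : Function.minimalPeriod f (γ 0) = 5 := Function.minimalPeriod_eq_prime
    (by simp [Function.IsPeriodicPt, Function.IsFixedPt, f2, f3]) fun e => ne_neg h.two (γ 0 * γ 1) (by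
      refine (h3 0 1 (by decide)).trans ?_
      rw [← show -γ 1 = γ 0 from f3.1 ▸ e]; simp)
  have f5 : ∀ n r, f^[n] r = (g * g') ^ n * r * ((g * g') ^ n)⁻¹ := fun n r => by
    induction n with
    | zero => simp
    | succ n ih => rw [Function.iterate_succ_apply', ih, pow_succ']; simp only [f, _root_.mul_inv_rev, mul_assoc]
  have f6 : 5 ∣ orderOf (g * g') := f4 ▸ Function.isPeriodicPt_iff_minimalPeriod_dvd.1 (by
    simp [Function.IsPeriodicPt, Function.IsFixedPt, f5])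
  have f7 := orderOf_pow_orderOf_div (orderOf_pos _).ne' f6
  exact ⟨_, pow_mem (mul_mem g1 g1') _, f7 ▸ pow_orderOf_eq_one _, fun e => by simp [e] at f7⟩

end H21.Xs
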