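import Cfsg.Agent.H21.Xs2
import Cfsg.Agent.S3762

/-! Elements of prime order conjugate into the normaliser of a two-group of symplectic type in
dimension four: the predicate `El`, the reductions `El.of_one`, `not_el`, eigenvalues of elements of
order two, three and five, and the theorems `four` (linear, unitary) and `four_sp`. -/

set_option autoImplicit false
set_option linter.unusedSectionVars false

namespace H21.Xs

open Matrix Module Polynomial H11 Cfsg.Geo Subgroup Multiset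

universe u
variable {F : Type u} [Field F] {ι : Type} [Fintype ι] [DecidableEq ι] {U R G : Subgroup (GL ι F)}
  {x y a b c d : GL ι F} {r : ℕ} [Finite F] [Nonempty ι] {t : ℤ} {z : F}

local notation "ψ" => algebraMap F (AC F)
local notation "N" => subgroupNormalizer

def El (G M : Subgroup (GL ι F)) (r : ℕ) : Prop := ∀ x ∈ G, (∃ z : F, (x ^ r).1 = z • 1) →
  (∀ z : F, x.1 ≠ z • 1) → ∃ g ∈ G, g⁻¹ * x * g ∈ M

theorem pow_card_of_det (hx : x ∈ specialLinear ι F) (h : (x ^ r).1 = z • 1) : z ^ Fintype.card ι = 1 := by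
  have := congrArg det h
  rwa [mem_SL.1 (pow_mem hx r), det_smul, det_one, mul_one, eq_comm] at this

theorem El.of_one (k : ℕ) (hG : G ≤ specialLinear ι F) (hk : Fintype.card ι ∣ 1 + k * r)
    (h : ∀ x ∈ G, x ^ r = 1 → (∀ z : F, x.1 ≠ z • 1) → ∃ g ∈ G, g⁻¹ * x * g ∈ N R) : El G (N R) r := by
  rintro x hx ⟨z, hz⟩ h1
  have h2 : ((x ^ r) ^ k).1 = z ^ k • 1 := by rw [Units.val_pow_eq_pow_val, hz, _root_.smul_pow, one_pow]
  obtain ⟨j, hj⟩ := hk
  obtain ⟨g, hg, h3⟩ := h (x * (x ^ r) ^ k) (mul_mem hx (pow_mem (pow_mem hx _) _)) (Units.ext (by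
    rw [Commute.mul_pow (sc_comm h2 x).symm, ← pow_mul, ← pow_succ', Units.val_pow_eq_pow_val, hz, _root_.smul_pow,
      add_comm, hj, pow_mul, pow_card_of_det (hG hx) hz]; simp)) fun w e => h1 ((z ^ k)⁻¹ * w) (by
    have h4 : z ^ k ≠ 0 := fun e => ((x ^ r) ^ k).ne_zero (by rw [h2, e, zero_smul])
    rw [Units.val_mul, h2, mul_smul_comm, mul_one] at e
    rw [mul_smul, ← e, inv_smul_smul₀ h4])
  rw [mul_assoc, mul_assoc, sc_comm h2, ← mul_assoc, ← mul_assoc] at h3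
  exact ⟨g, hg, (mul_mem_cancel_right (sc_mem_N h2)).1 h3⟩

theorem jd_conj (g x : GL ι F) : JD (mE (g⁻¹ * x * g).1) = JD (mE x.1) :=
  sim_iff_JD.1 (gl_isConj_iff.1 (isConj_iff.2 ⟨g, by group⟩))

theorem not_el (hx : x ∈ G) (h : x ^ r = 1) (hb : ∀ y ∈ N R, JD (mE y.1) ≠ JD (mE x.1)) : ¬ El G (N R) r :=
  fun h1 => (h1 x hx ⟨1, by simp [h]⟩ fun _ e => hb x (sc_mem_N e) rfl).elim fun g h2 => hb _ h2.2 (jd_conj g x)

theorem not_el_of_dvd [hr : Fact r.Prime] (hG : G ≤ specialLinear ι F) (h1 : r.Coprime (Fintype.card ι))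
    (h : r ∣ (N R).relIndex G) (hb : ∀ y ∈ N R, y ^ r = 1 → ∃ z : F, y.1 = z • 1) : ¬ El G (N R) r := by
  obtain ⟨⟨x, hx⟩, ho⟩ := exists_prime_orderOf_dvd_card' (G := G) r (h.trans (index_dvd_card _))
  rw [← orderOf_coe] at ho
  have h2 : x ^ r = 1 := ho ▸ pow_orderOf_eq_one x
  have h3 : ∀ z : F, x.1 ≠ z • 1 := fun z e => by
    have h4 := pow_card_of_det (r := 1) (hG hx) (by simpa using e)
    have h5 : x ^ Fintype.card ι = 1 := Units.ext (by simp [e, _root_.smul_pow, h4])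
    simp [(pow_eq_one_iff_of_coprime h1).1 ⟨h2, h5⟩, hr.out.one_lt.ne] at ho
  intro h4
  obtain ⟨g, -, h5⟩ := h4 x hx ⟨1, by simp [h2]⟩ h3
  obtain ⟨z, hz⟩ := hb _ h5 (by simpa [h2] using conj_pow (a := g⁻¹) (b := x) (i := r))
  exact h3 z (by rw [← hz, ← mul_inv_cancel_right (g⁻¹ * x * g) g, sc_comm hz g]; congr 1; group)

theorem el_conj (hU : LG U t) {m k : ℕ} {w : F} (hx : x ∈ U) (hy : y ∈ U ⊓ N R) (h1 : Rt x m z) (h2 : Rt y k w)
    (e : Ev x = Ev y) : ∃ g ∈ U ⊓ specialLinear ι F, g⁻¹ * x * g ∈ N R :=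
  (hU.conj hx hy.1 h1 h2 e).imp fun _ h => ⟨h.1, by rw [h.2]; exact hy.2⟩

theorem ms3 {α : Type*} {M : Multiset α} {u v w : α} (h : ∀ z ∈ M, z = u ∨ z = v ∨ z = w) :
    ∃ a b c, M = replicate a u + replicate b v + replicate c w := by
  induction M using Multiset.induction with
  | empty => exact ⟨0, 0, 0, rfl⟩
  | cons z M ih =>
    obtain ⟨a, b, c, rfl⟩ := ih fun y hy => h y (mem_cons_of_mem hy)
    rcases h z (mem_cons_self _ _) with rfl | rfl | rfl
    exacts [⟨a + 1, b, c, by simp [replicate_succ]⟩, ⟨a, b + 1, c, by simp [replicate_succ]⟩,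
      ⟨a, b, c + 1, by simp [replicate_succ]⟩]

theorem ns_of_ev {u v : AC F} (hu : u ∈ Ev x) (hv : v ∈ Ev x) (h : u ≠ v) (z : F) : x.1 ≠ z • 1 := fun e =>
  have h1 : Rt x 1 z := ⟨by simp, by simpa⟩
  h (by simpa using (h1.mem hu).trans (h1.mem hv).symm)

theorem Rt.two (h : Rt x 2 z) (h1 : ∀ z : F, x.1 ≠ z • 1) {ζ : AC F} (h2 : ζ ^ 2 = ψ z) :
    ∃ a b, a ≠ 0 ∧ b ≠ 0 ∧ a + b = Fintype.card ι ∧ Ev x = replicate a ζ + replicate b (-ζ) := by
  obtain ⟨a, b, c, e⟩ := ms3 (M := Ev x) (u := ζ) (v := -ζ) (w := -ζ) fun w hw =>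
    (sq_eq_sq_iff_eq_or_eq_neg.1 ((h.mem hw).trans h2.symm)).imp_right Or.inl
  rw [add_assoc, ← replicate_add] at e
  refine ⟨a, b + c, fun e' => ?_, fun e' => ?_, by simpa [e] using h.card, e⟩
  · exact (h.scal (w := -ζ) fun w hw => eq_of_mem_replicate (by simpa [e, e'] using hw)).elim fun a e => h1 a e.2
  · exact (h.scal (w := ζ) fun w hw => eq_of_mem_replicate (by simpa [e, e'] using hw)).elim fun a e => h1 a e.2

theorem psi_ne {n : ℕ} (h : (n : F) ≠ 0) : (n : AC F) ≠ 0 := by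
  rwa [← map_natCast ψ, _root_.map_ne_zero]

theorem zpow_eq {K : Type*} [Field K] {w : K} {n k : ℕ} (h : w ^ n = 1) (h0 : n ≠ 0) (e : t % n = k) :
    w ^ t = w ^ k := by
  have h1 : w ≠ 0 := by rintro rfl; simp [h0] at h
  rw [← Int.mul_ediv_add_emod t n, zpow_add₀ h1, _root_.zpow_mul, zpow_natCast, h, e, _root_.one_zpow, one_mul, zpow_natCast]

theorem exists_root (h : (r : F) ≠ 0) (hr : r.Prime) : ∃ w : AC F, w ^ r = 1 ∧ w ≠ 1 := by
  obtain ⟨p, hp⟩ := CharP.exists (AC F)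
  obtain ⟨w, -, h1⟩ := exists_ord (AC F) p (A := r) fun e => psi_ne h ((CharP.cast_eq_zero_iff _ p r).2 e)
  refine ⟨w, by simpa using (h1 r).2 dvd_rfl, fun e => hr.one_lt.ne' ?_⟩
  exact_mod_cast Int.eq_one_of_dvd_one (by simp) ((h1 1).1 (by simp [e]))

theorem cube_root {K : Type*} [Field K] {w : K} (h : w ^ 3 = 1) (h1 : w ≠ 1) : w ^ 2 + w + 1 = 0 :=
  mul_left_cancel₀ (sub_ne_zero.2 h1) (by linear_combination h)

theorem Rt.three (h : Rt x 3 z) {ζ w : AC F} (h2 : ζ ^ 3 = ψ z) (h3 : w ^ 2 + w + 1 = 0) :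
    ∃ a b c, a + b + c = Fintype.card ι ∧ Ev x = replicate a ζ + replicate b (ζ * w) + replicate c (ζ * w ^ 2) := by
  obtain ⟨a, b, c, e⟩ := ms3 (M := Ev x) (u := ζ) (v := ζ * w) (w := ζ * w ^ 2) fun v hv => by
    have h4 : (v - ζ) * ((v - ζ * w) * (v - ζ * w ^ 2)) = 0 := by
      linear_combination h.mem hv - h2 + (-v ^ 2 * ζ + v * ζ ^ 2 * w - ζ ^ 3 * (w - 1)) * h3
    simpa [sub_eq_zero] using h4
  exact ⟨a, b, c, by simpa [e] using h.card, e⟩

theorem rt_one (h : x ^ r = 1) (h1 : (r : F) ≠ 0) : Rt x r 1 := ⟨h1, by simpa using congrArg Units.val h⟩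

theorem Rt.ne_one {m : ℕ} (h : Rt x m z) (h1 : x ≠ 1) : ∃ w ∈ Ev x, w ≠ 1 := by
  by_contra! h2
  obtain ⟨a, h3, h4⟩ := h.scal h2
  exact h1 (Units.ext (by simp [h4, (map_eq_one_iff _ (algebraMap F (AC F)).injective).1 h3]))

variable (hn : Fintype.card ι = 4)
include hn

theorem two_eq (h : Rt x 2 z) (h1 : ∀ z : F, x.1 ≠ z • 1) (h' : Rt y 2 z) (h1' : ∀ z : F, y.1 ≠ z • 1)
    (e : x.1.trace = y.1.trace) : Ev x = Ev y := by
  obtain ⟨ζ, hζ⟩ := h.exists_mem
  obtain ⟨a, b, a0, b0, h2, h3⟩ := h.two h1 (h.mem hζ)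
  obtain ⟨a', b', a0', b0', h2', h3'⟩ := h'.two h1' (h.mem hζ)
  have h4 := h.sum.trans ((congrArg _ e).trans h'.sum.symm)
  have h5 : (2 : AC F) * ζ ≠ 0 := mul_ne_zero (psi_ne h.ne) (ev_ne hζ)
  have h6 := mul_ne_zero (psi_ne h.ne) h5
  rw [h3, h3'] at h4 ⊢
  obtain rfl : b = 4 - a := by omega
  obtain rfl : b' = 4 - a' := by omega
  have : a < 4 := by omega
  have : a' < 4 := by omega
  interval_cases a <;> interval_cases a' <;> simp at a0 a0' h4 ⊢ <;> exfalso <;>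
    first | exact h5 (by linear_combination h4) | exact h5 (by linear_combination -h4) |
      exact h6 (by push_cast; linear_combination h4) | exact h6 (by push_cast; linear_combination -h4)

theorem el_two (h : W R) (hU : LG U t) (hR : R ≤ U) (k : Gm R a b c d)
    (hB : ∀ η : AC F, η ^ t = η → η ^ 4 = -1 → ∃ y ∈ U ⊓ N R, ∃ e : F, ψ e = η ∧ Rt y 2 (e ^ 2) ∧
      y.1.trace = 2 * e ∧ ∀ w : F, y.1 ≠ w • 1) : El (U ⊓ specialLinear ι F) (N R) 2 := by
  classical
  rintro x hx ⟨z, hz⟩ h1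
  have h0 : ((2 : ℕ) : F) ≠ 0 := by simpa using h.two
  have h2 : Rt x 2 z := ⟨h0, hz⟩
  have h3 : ∀ η, η ^ 2 = ψ z → Ev x = replicate 3 η + replicate 1 (-η) →
      ∃ g ∈ U ⊓ specialLinear ι F, g⁻¹ * x * g ∈ N R := fun η e1 e2 => by
    have k0 : η ≠ 0 := ev_ne (x := x) (by simp [e2])
    have k1 : η ≠ -η := fun e => mul_ne_zero (psi_ne h0) k0 (by push_cast; linear_combination e)
    have k2 := hU.ev hx.1 h2
    have k3 := h2.prod
    have k4 := h2.sum
    rw [mem_SL.1 hx.2] at k3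
    rw [e2] at k2 k3 k4
    obtain ⟨y, hy, e, rfl, k5, k6, k7⟩ := hB η (by
      by_contra e
      have := congrArg (count (η ^ t)) k2
      simp only [Multiset.map_add, map_replicate, count_add, count_replicate_self, count_replicate, if_neg (Ne.symm e)] at this
      split_ifs at this <;> omega) (by simp at k3; linear_combination -k3)
    obtain rfl : z = e ^ 2 := (algebraMap F (AC F)).injective (by rw [← e1, map_pow])
    refine el_conj hU hx.1 hy h2 k5 (two_eq hn h2 h1 k5 k7 ((algebraMap F (AC F)).injective ?_))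
    rw [← k4, k6, map_mul, map_ofNat]; simp; ring
  obtain ⟨ζ, hζ⟩ := h2.exists_mem
  obtain ⟨i, j, a0, b0, h4, h5⟩ := h2.two h1 (h2.mem hζ)
  have : i < 4 := by omega
  obtain rfl : j = 4 - i := by omega
  interval_cases i
  · simp at a0
  · exact h3 (-ζ) (by rw [neg_sq, h2.mem hζ]) (by rw [h5, neg_neg, add_comm])
  · have k3 := h2.prod
    have k4 := h2.sum
    rw [h5] at k3 k4
    have k5 : x.1.trace = 0 := (map_eq_zero ψ).1 (by rw [← k4]; simp)
    have k6 : z ^ 2 = 1 ^ 2 := (algebraMap F (AC F)).injective (by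
      rw [mem_SL.1 hx.2, map_one, prod_add, prod_replicate, prod_replicate] at k3
      rw [map_pow, ← h2.mem hζ, one_pow, map_one]; linear_combination k3)
    have k7 : ∀ {u v : GL ι F}, u ∈ R → v * u = -(u * v) → u.1 ^ 2 = z • 1 →
        ∃ g ∈ U ⊓ specialLinear ι F, g⁻¹ * x * g ∈ N R := fun {u v} hu e e' => by
      have e'' : u * v = -(v * u) := by rw [e, neg_neg]
      exact el_conj hU hx.1 ⟨hR hu, le_normalizer hu⟩ h2 ⟨h0, e'⟩ (two_eq hn h2 h1 ⟨h0, e'⟩ (ns_of_anti h.two e'')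
        (k5.trans (h.xr.tr hu (ns_of_anti h.two e'')).symm))
    rcases sq_eq_sq_iff_eq_or_eq_neg.1 k6 with rfl | rfl
    · exact k7 k.ha k.ba (by simpa [pow_two] using congrArg Units.val k.aa)
    · exact k7 k.hc k.dc (by simpa [pow_two] using congrArg Units.val k.cc)
  · exact h3 ζ (h2.mem hζ) h5

theorem five_eq (hU : LG U t) (ht : t % 5 = 2 ∨ t % 5 = 3) (h5 : ((5 : ℕ) : F) ≠ 0) (hx : x ∈ U) (hy : y ∈ U)
    (h : x ^ 5 = 1) (h' : y ^ 5 = 1) (h1 : x ≠ 1) (h1' : y ≠ 1) : Ev x = Ev y := by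
  haveI : Fact (Nat.Prime 5) := ⟨Nat.prime_five⟩
  have pr : ∀ {w : AC F}, w ^ 5 = 1 → w ≠ 1 → IsPrimitiveRoot w 5 := fun e e' =>
    IsPrimitiveRoot.iff_orderOf.2 (orderOf_eq_prime e e')
  obtain ⟨w, w1, w2⟩ := exists_root h5 Nat.prime_five
  have k : ∀ x ∈ U, x ^ 5 = 1 → x ≠ 1 → Ev x = (Finset.Ico 1 5).val.map (w ^ ·) := fun x hx h h1 => by
    have h2 := rt_one h h5
    have h3 : ∀ v ∈ Ev x, v ^ t ∈ Ev x := fun v hv => hU.ev hx h2 ▸ mem_map_of_mem _ hv
    have h4 : ∀ v ∈ Ev x, v ^ 2 ∈ Ev x := fun v hv => by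
      have h4 : v ^ 5 = 1 := by simpa using h2.mem hv
      rcases ht with e | e
      · exact zpow_eq h4 (by simp) e ▸ h3 v hv
      · have h6 : ∀ v ∈ Ev x, v ^ 3 ∈ Ev x := fun v hv =>
          zpow_eq (n := 5) (by simpa using h2.mem hv) (by simp) e ▸ h3 v hv
        convert h6 _ (h6 _ (h6 _ hv)) using 1
        rw [← pow_mul, ← pow_mul, show 3 * (3 * 3) = 5 * 5 + 2 from rfl, pow_add, pow_mul, h4]; simp
    obtain ⟨v, hv, v1⟩ := h2.ne_one h1
    have v2 : v ^ 5 = 1 := by simpa using h2.mem hv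
    refine (eq_of_le_of_card_le ((le_iff_subset (Nodup.map_on (fun i hi j hj e => (pr w1 w2).pow_inj
      (Finset.mem_Ico.1 hi).2 (Finset.mem_Ico.1 hj).2 e) (Finset.nodup _))).2 fun u hu => ?_)
      (by simp [h2.card, hn])).symm
    obtain ⟨i, hi, rfl⟩ := mem_map.1 hu
    obtain ⟨j, hj, e⟩ := (pr v2 v1).eq_pow_of_pow_eq_one (ξ := w ^ i) (by rw [← pow_mul, mul_comm, pow_mul, w1, one_pow])
    rw [← e]
    interval_cases j
    · exact ((pr w1 w2).pow_ne_one_of_pos_of_lt (Nat.one_le_iff_ne_zero.1 (Finset.mem_Ico.1 hi).1) (Finset.mem_Ico.1 hi).2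
        (by simpa using e.symm)).elim
    · simpa using hv
    · exact h4 v hv
    · convert h4 _ (h4 _ (h4 v hv)) using 1
      linear_combination (-v ^ 3) * v2
    · convert h4 _ (h4 v hv) using 1; ring
  rw [k x hx h h1, k y hy h' h1']

theorem el_five (h : W R) (hU : LG U t) (hR : R ≤ U) (k : Gm R a b c d) (ht : t % 5 = 2 ∨ t % 5 = 3)
    (h5 : ((5 : ℕ) : F) ≠ 0) : El (U ⊓ specialLinear ι F) (N R) 5 := by
  obtain ⟨y, hy, h1, h2⟩ := h.five hU.ad hR k
  exact El.of_one 3 inf_le_right (by simp [hn]) fun x hx h3 h4 => el_conj hU hx.1 hy (rt_one h3 h5) (rt_one h1 h5)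
    (five_eq hn hU ht h5 hx.1 hy.1 h3 h1 (fun e => h4 1 (by simp [e])) h2)

theorem three_ev (hU : LG U t) (ht : t % 3 = 2) (h3 : ((3 : ℕ) : F) ≠ 0) {w : AC F} (w1 : w ^ 3 = 1) (w2 : w ≠ 1)
    (hx : x ∈ U) (h : x ^ 3 = 1) (h1 : x ≠ 1) :
    x.1.trace = 1 ∧ Ev x = {1, 1, w, w ^ 2} ∨ x.1.trace = -2 ∧ Ev x = {w, w, w ^ 2, w ^ 2} := by
  classical
  have h2 := rt_one h h3
  have w3 := cube_root w1 w2
  obtain ⟨i, j, k, h4, h5⟩ := h2.three (ζ := 1) (by simp) w3
  have h6 := hU.ev hx h2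
  have h7 := h2.sum
  have w4 : w ^ 2 ≠ w := fun e => w2 (by linear_combination w1 - (w + 1) * e)
  have w5 : w ^ t = w ^ 2 := zpow_eq w1 (by simp) ht
  have w6 : (w ^ 2) ^ t = w := by
    rw [zpow_eq (n := 3) (k := 2) (by linear_combination (w ^ 3 + 1) * w1) (by simp) ht]; linear_combination w * w1
  simp only [one_mul] at h5
  rw [h5] at h6 h7
  obtain rfl : k = j := by
    simpa [count_replicate, w5, w6, w4, w4.symm, w2, w2.symm] using congrArg (count w) h6
  obtain ⟨v, hv, v1⟩ := h2.ne_one h1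
  have : k ≤ 2 := by omega
  obtain rfl : i = 4 - 2 * k := by omega
  interval_cases k
  · exact (v1 (by simpa [h5] using hv)).elim
  · exact Or.inl ⟨(algebraMap F (AC F)).injective (by rw [← h7]; simp; linear_combination w3), h5⟩
  · exact Or.inr ⟨(algebraMap F (AC F)).injective (by
      rw [← h7, map_neg, map_ofNat]; simp; linear_combination 2 * w3), h5⟩

omit hn in
theorem quat_cube (h2 : (2 : F) ≠ 0) (e : (2 : F) • x.1 = (1 + c.1) * (1 + d.1)) (cc : c * c = -1) (dd : d * d = -1)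
    (dc : d * c = -(c * d)) : x ^ 3 = -1 := by
  have c1 : c.1 * c.1 = -1 := congrArg Units.val cc
  have c2 : d.1 * d.1 = -1 := congrArg Units.val dd
  have c3 : d.1 * c.1 = -(c.1 * d.1) := congrArg Units.val dc
  refine Units.ext (smul_right_injective _ (pow_ne_zero 3 h2) ?_)
  simp only [Units.val_pow_eq_pow_val, ← _root_.smul_pow, e]
  simp only [pow_succ, pow_zero, mul_add, add_mul, one_mul, mul_one, mul_assoc, c1, c2, c3, l_assoc c1, l_assoc c2,
    l_assoc c3, neg_mul, mul_neg, neg_neg, Units.val_neg, Units.val_one]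
  module

omit hn in
theorem tr_anti (h2 : (2 : F) ≠ 0) {M : Matrix ι ι F} (e : y.1 * M = -(M * y.1)) : M.trace = 0 :=
  tr0 (y := y) (z := -1) (fun e => h2 (by linear_combination -e)) (by simp [e])

theorem el_three (h : W R) (hU : LG U t) (hR : R ≤ U) (k : Gm R a b c d) {I : GL ι F} (hI : I ∈ R) {i : F}
    (h1 : I.1 = i • 1) (h2 : I * I = -1) (ht : t % 3 = 2) (h3 : ((3 : ℕ) : F) ≠ 0) :
    El (U ⊓ specialLinear ι F) (N R) 3 := by
  have sq : ∀ {a : GL ι F}, a * a = 1 → I * a * (I * a) = -1 := fun {a} e => by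
    rw [mul_assoc, ← mul_assoc a, ← sc_comm h1, mul_assoc, e, mul_one, h2]
  obtain ⟨g, g1, g2, -⟩ := h.exists_H hU.ad hR k.hc k.hd k.cc k.dd
  obtain ⟨g', g1', g2', -⟩ := h.exists_H hU.ad hR (mul_mem hI k.ha) (mul_mem hI k.hb) (sq k.aa) (sq k.bb)
  have g3 := quat_cube h.two g2 k.cc k.dd k.dc
  have g3' := quat_cube h.two g2' (sq k.aa) (sq k.bb) (by
    rw [mul_assoc, mul_assoc, ← mul_assoc b, ← mul_assoc a, ← sc_comm h1, ← sc_comm h1, mul_assoc, mul_assoc, k.ba]
    simp)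
  have ba : b.1 * a.1 = -(a.1 * b.1) := congrArg Units.val k.ba
  have dc : d.1 * c.1 = -(c.1 * d.1) := congrArg Units.val k.dc
  have ga : ∀ {a : GL ι F}, c * a = a * c → d * a = a * d → a.1 * g.1 = g.1 * a.1 := fun {a} e e' =>
    smul_right_injective _ h.two (by
      have e1 : c.1 * a.1 = a.1 * c.1 := congrArg Units.val e
      have e2 : d.1 * a.1 = a.1 * d.1 := congrArg Units.val e'
      change (2 : F) • _ = (2 : F) • _
      rw [← mul_smul_comm, ← smul_mul_assoc, g2]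
      simp only [mul_add, add_mul, mul_one, one_mul, mul_assoc, e1, e2, l_assoc e1])
  have ga1 := ga k.ca k.da
  have ga2 := ga k.cb k.db
  have t1 : g.1.trace = 2 := mul_left_cancel₀ h.two (by
    have := congrArg trace g2
    simp only [trace_smul, smul_eq_mul, mul_add, add_mul, mul_one, one_mul, trace_add, trace_one, hn,
      tr_anti h.two dc, tr_anti (y := c) (M := d.1) h.two (by simp [dc]),
      tr_anti (y := c) (M := c.1 * d.1) h.two (by simp [mul_assoc, dc])] at this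
    rw [this]; norm_num)
  have t2 : (g * g').1.trace = 1 := mul_left_cancel₀ h.two (by
    have := congrArg (fun M => trace (g.1 * M)) g2'
    simp only [Units.val_mul, h1, mul_smul_comm, smul_mul_assoc, trace_smul, smul_eq_mul, mul_add, add_mul, mul_one,
      one_mul, trace_add, t1, tr_anti (y := b) (M := g.1 * a.1) h.two (by simp [l_assoc ga2, mul_assoc, ba]),
      tr_anti (y := a) (M := g.1 * b.1) h.two (by simp [l_assoc ga1, mul_assoc, ba]),
      tr_anti (y := a) (M := g.1 * (a.1 * b.1)) h.two (by simp [l_assoc ga1, mul_assoc, ba])] at this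
    rw [Units.val_mul, this]; ring)
  have gg : Commute g g' := Units.ext (smul_right_injective _ h.two (by
    change (2 : F) • (_ * _) = (2 : F) • (_ * _)
    rw [← mul_smul_comm, ← smul_mul_assoc, g2']
    simp only [Units.val_mul, h1, mul_add, add_mul, mul_one, one_mul, mul_smul_comm, smul_mul_assoc, mul_assoc, ga1, ga2, l_assoc ga1]))
  obtain ⟨w, w1, w2⟩ := exists_root h3 Nat.prime_three
  have n3 : (1 : F) ≠ -2 := fun e => h3 (by push_cast; linear_combination e)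
  refine El.of_one 1 inf_le_right (by simp [hn]) fun x hx e e' => ?_
  have fin : ∀ y ∈ U ⊓ N R, y ^ 3 = 1 → y ≠ 1 → x.1.trace = y.1.trace →
      ∃ g ∈ U ⊓ specialLinear ι F, g⁻¹ * x * g ∈ N R := fun y hy y1 y2 y3 => by
    refine el_conj hU hx.1 hy (rt_one e h3) (rt_one y1 h3) ?_
    rcases three_ev hn hU ht h3 w1 w2 hx.1 e (fun e => e' 1 (by simp [e])) with u | u <;>
      rcases three_ev hn hU ht h3 w1 w2 hy.1 y1 y2 with u' | u'
    exacts [u.2.trans u'.2.symm, (n3 (by rw [← u.1, y3, u'.1])).elim, (n3 (by rw [← u.1, y3, u'.1])).elim,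
      u.2.trans u'.2.symm]
  rcases three_ev hn hU ht h3 w1 w2 hx.1 e (fun e => e' 1 (by simp [e])) with u | u
  · exact fin _ (mul_mem g1 g1') (by rw [gg.mul_pow, g3, g3']; simp) (fun e => h3 (by
      simp [e, hn] at t2; push_cast; linear_combination t2)) (u.1.trans t2.symm)
  · refine fin (-1 * g) (mul_mem ⟨hR h.neg, le_normalizer h.neg⟩ g1) (by rw [neg_one_mul, Odd.neg_pow (by decide), g3, neg_neg]) (fun e => mul_ne_zero h.two h3 ?_)
      (by simp [u.1, t1])
    have := congrArg (fun x : GL ι F => x.1.trace) e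
    simp [t1, hn] at this; push_cast; linear_combination -this

theorem exists_cz (h : W R) (hU : AD U) (hR : R ≤ U) (k : Gm R a b c d) {I : GL ι F} (hI : I ∈ R) {i : F}
    (h1 : I.1 = i • 1) (h2 : I * I = -1) : ∃ y ∈ U ⊓ N R, y.1 * y.1 = 1 ∧ y.1.trace = 2 ∧ ∀ w : F, y.1 ≠ w • 1 := by
  obtain ⟨g, g1, g2, -⟩ := h.exists_H hU hR (mul_mem hI k.ha) (h.neg_mem k.hc) (by
    rw [mul_assoc, ← mul_assoc a, ← sc_comm h1, mul_assoc, k.aa, mul_one, h2]) (by simp [k.cc])
  obtain ⟨g', g1', g2', -⟩ := h.exists_H hU hR (mul_mem k.ha k.hc) (h.neg_mem hI) (by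
    simp [mul_assoc, l_assoc k.ca, l_assoc k.aa, k.cc, k.aa]) (by simp [h2])
  have aa : a.1 * a.1 = 1 := congrArg Units.val k.aa
  have cc : c.1 * c.1 = -1 := congrArg Units.val k.cc
  have ca : c.1 * a.1 = a.1 * c.1 := congrArg Units.val k.ca
  have cb : c.1 * b.1 = b.1 * c.1 := congrArg Units.val k.cb
  have ba : b.1 * a.1 = -(a.1 * b.1) := congrArg Units.val k.ba
  have dc : d.1 * c.1 = -(c.1 * d.1) := congrArg Units.val k.dc
  have ii : i * i = -1 := by
    have := congrArg (fun x : GL ι F => x.1 (Classical.arbitrary ι) (Classical.arbitrary ι)) h2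
    simpa [h1, smul_smul] using this
  have e : (2 : F) • (g * g').1 = 1 + a.1 + i • c.1 - i • (a.1 * c.1) := smul_right_injective _ h.two (by
    change (2 : F) • (2 : F) • (_ * _) = (2 : F) • _
    rw [← mul_smul_comm, ← smul_mul_assoc, g2', g2]
    simp only [Units.val_mul, Units.val_neg, h1, mul_add, add_mul, mul_one, one_mul, mul_smul_comm, smul_mul_assoc,
      mul_assoc, mul_neg, neg_mul, aa, cc, ca, l_assoc aa, l_assoc cc, l_assoc ca, neg_neg]
    match_scalars <;> first | ring1 | linear_combination ii | linear_combination -ii)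
  have t1 := tr_anti h.two ba
  have t2 := tr_anti h.two dc
  have t3 := tr_anti (y := b) (M := a.1 * c.1) h.two (by simp [l_assoc ba, mul_assoc, cb])
  refine ⟨_, mul_mem g1 g1', smul_right_injective _ (mul_ne_zero h.two h.two) ?_, mul_left_cancel₀ h.two ?_,
    fun w e' => mul_ne_zero h.two h.two ?_⟩
  · change ((2 : F) * 2) • (_ * _) = ((2 : F) * 2) • _
    rw [← smul_mul_smul_comm, e]
    simp only [mul_add, add_mul, mul_sub, sub_mul, mul_one, one_mul, mul_smul_comm, smul_mul_assoc,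
      mul_assoc, mul_neg, neg_mul, aa, cc, ca, l_assoc aa, l_assoc cc, l_assoc ca, neg_neg]
    match_scalars <;> first | ring1 | linear_combination 2 * ii | linear_combination -2 * ii
  · have := congrArg trace e
    simp only [trace_smul, trace_add, trace_sub, t1, t2, t3, trace_one, hn, smul_eq_mul] at this
    rw [this]; norm_num
  · have := congrArg (fun M => trace (a.1 * M)) e
    simp only [e', mul_add, mul_sub, mul_one, mul_smul_comm, aa, l_assoc aa, one_mul, trace_smul, trace_add, trace_sub,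
      t1, t2, t3, trace_one, hn, smul_eq_mul] at this
    linear_combination -this

theorem bad_tv (h : W R) (p : ℕ) [hp : Fact p.Prime] [CharP F p] (hx : x ∈ G)
    (e : JD (mE x.1) = {(1, 2), (1, 1), (1, 1)}) : ¬ El G (N R) p :=
  not_el hx (Units.ext (mE_inj.1 (by
    rw [Units.val_pow_eq_pow_val, mE_pow, Units.val_one, mE_one, pow_eq_one_iff_JD p hp.out.ne_zero]
    simp [e, hp.out.factorization_self, hp.out.two_le, hp.out.one_le]))) fun y hy => e ▸ h.not_tv hn hy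

omit hn in
theorem tr_tr [hr : Fact r.Prime] {M : Multiset (AC F)} (e : JD (mE x.1) = M.map (·, 1)) (h0 : (r : F) ≠ 0)
    (h1 : ∀ z ∈ M, z ^ r = 1) (h2 : ((r - 1 : ℕ) : F) ≠ 0) : x ^ r = 1 ∧ Ev x = M ∧
      ψ (x.1.trace * x⁻¹.1.trace) = M.sum * (M.map (· ^ (r - 1))).sum := by
  have h3 := rt_of e h0 one_ne_zero (by simpa using h1)
  have h4 : x ^ r = 1 := Units.ext (by simpa using h3.pow)
  have h5 : x⁻¹ = x ^ (r - 1) := inv_eq_of_mul_eq_one_right (by
    rw [← pow_succ', Nat.sub_add_cancel hr.out.one_le, h4])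
  exact ⟨h4, ev_of e, by rw [map_mul, h5, Units.val_pow_eq_pow_val, ← h3.sum_pow h2, ← h3.sum, ev_of e]⟩

variable {m : ℕ} (h : W R) (hz : Nat.card (R ⊓ scalars ι F : Subgroup _) = m) (hz4 : m ∣ 4)
  (hR : Nat.card R = 16 * m)
include h hz hz4 hR

theorem bad_big [hr : Fact r.Prime] (hG : G ≤ specialLinear ι F) (h2 : r ≠ 2) (h3 : r ≠ 3) (h5 : r ≠ 5)
    (h1 : r ∣ (N R).relIndex G) : ¬ El G (N R) r :=
  not_el_of_dvd hG (hn ▸ ((Nat.coprime_primes hr.out Nat.prime_two).2 h2).pow_right 2) h1 fun y hy e => by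
    by_contra! h6
    rcases h.fix_k hn hz hz4 hR h2 hy (e := 1) (by simp [e]) h6 with k | k
    exacts [h3 k.1, h5 k.1]

theorem bad_five (h5 : ((5 : ℕ) : F) ≠ 0) {w : AC F} (w1 : w ^ 5 = 1) (w2 : w ≠ 1) (hx : x ∈ G)
    (e : JD (mE x.1) = Multiset.map (·, 1) {w, w ^ 4, 1, 1}) : ¬ El G (N R) 5 := by
  haveI : Fact (Nat.Prime 5) := ⟨Nat.prime_five⟩
  have h4 : ((5 - 1 : ℕ) : F) ≠ 0 := by convert pow_ne_zero 2 h.two using 1; norm_num
  have h6 : ∀ z ∈ ({w, w ^ 4, 1, 1} : Multiset (AC F)), z ^ 5 = 1 := by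
    simpa [w1] using (show (w ^ 4) ^ 5 = 1 by rw [← pow_mul, mul_comm, pow_mul, w1, one_pow])
  refine not_el hx (tr_tr e h5 h6 h4).1 fun y hy e' => ?_
  obtain ⟨k1, k2, k3⟩ := tr_tr (e'.trans e) h5 h6 h4
  have k4 := ((h.fix_k (r := 5) hn hz hz4 hR (by norm_num) hy (e := 1) (by simp [k1])
    (ns_of_ev (u := w) (v := 1) (by simp [k2]) (by simp [k2]) w2)).resolve_left (by simp)).2
  have k5 : w ^ 4 + w ^ 3 + w ^ 2 + w + 1 = 0 := mul_left_cancel₀ (sub_ne_zero.2 w2) (by linear_combination w1)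
  have k6 : (w ^ 4) ^ 4 = w := by linear_combination (w ^ 11 + w ^ 6 + w) * w1
  rw [k4] at k3
  simp [k6] at k3
  have k7 : (w + w ^ 4) ^ 2 + (w + w ^ 4) - 1 = 0 := by linear_combination k5 + (w ^ 3 + 2) * w1
  exact psi_ne h5 (by
    push_cast
    linear_combination (3 * (w + w ^ 4) - 1) * (-k3 - k7) - 9 * k7)

theorem four (p : ℕ) [hp : Fact p.Prime] [CharP F p] (hU : LG U t) (hE : EX U t) (hRU : R ≤ U) (hm : m = 4)
    (ht : t = p ∨ t = -p) [hr : Fact r.Prime] (hΩ : r ∣ (N R).relIndex (U ⊓ specialLinear ι F)) :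
    El (U ⊓ specialLinear ι F) (N R) r ↔ r = 2 ∨ r = 3 ∧ t % 3 = 2 ∨ r = 5 ∧ (t % 5 = 2 ∨ t % 5 = 3) := by
  subst hm
  obtain ⟨I, hI, i, h1, h2⟩ : ∃ I ∈ R, ∃ i : F, I.1 = i • 1 ∧ I * I = -1 := by
    by_contra! k
    have k1 : (R ⊓ scalars ι F : Subgroup _) ≤ zpowers (-1) := fun x hx => by
      obtain ⟨z, e⟩ := mem_sc.1 hx.2
      have k2 := (h.sq x hx.1).resolve_right (k x hx.1 z e)
      have k3 : z * z = 1 := by
        simpa [e, smul_smul] using congrArg (fun x : GL ι F => x.1 (Classical.arbitrary ι) (Classical.arbitrary ι)) k2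
      rcases mul_self_eq_one_iff.1 k3 with rfl | rfl
      · rw [show x = 1 from Units.ext (by simpa using e)]; exact one_mem _
      · rw [show x = -1 from Units.ext (by simpa using e)]; exact mem_zpowers _
    have k2 := card_le_of_le k1
    have k3 : orderOf (-1 : GL ι F) ≤ 2 := orderOf_le_of_pow_eq_one two_pos (by simp)
    rw [hz, Nat.card_zpowers] at k2
    omega
  obtain ⟨a, b, c, d, k⟩ := h.exists_gm (by omega) hI h1 h2
  have hp' : ∀ {s : ℕ}, s.Prime → t % s ≠ 0 → (s : F) ≠ 0 := fun {s} hs e e' => e (by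
    obtain rfl := (Nat.prime_dvd_prime_iff_eq hp.out hs).1 ((CharP.cast_eq_zero_iff F p s).1 e')
    rcases ht with rfl | rfl <;> simp)
  have ex : ∀ J, Adm t J → dm J = 4 → pr J = 1 → ∃ g ∈ U ⊓ specialLinear ι F, JD (mE g.1) = J := fun J j1 j2 j3 => by
    obtain ⟨g, hg, rfl⟩ := hE J j1 (j2.trans hn.symm)
    exact ⟨g, ⟨hg, mem_SL.2 (det_mE g.1 ▸ det_eq_one_iff_JD.2 j3)⟩, rfl⟩
  have tv : t % r = 0 → ¬ El (U ⊓ specialLinear ι F) (N R) r := fun e => by
    obtain rfl : r = p := (Nat.prime_dvd_prime_iff_eq hr.out hp.out).1 (by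
      have := Int.dvd_of_emod_eq_zero e
      rcases ht with rfl | rfl <;> simpa [Int.natCast_dvd_natCast] using this)
    obtain ⟨g, hg, e⟩ := ex {(1, 2), (1, 1), (1, 1)} ⟨by simp [St], by simp⟩ (by simp) (by simp)
    exact bad_tv hn h r hg e
  constructor
  · intro hh
    by_contra! hc
    by_cases e3 : r = 3
    · subst e3
      have k1 : t % 3 = 1 := by have := hc.2.1 rfl; have : t % 3 ≠ 0 := fun e => tv e hh; omega
      have k2 := hp' Nat.prime_three (by omega)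
      obtain ⟨w, w1, w2⟩ := exists_root k2 Nat.prime_three
      have w3 := cube_root w1 w2
      have w4 : w ^ t = w := by simpa using zpow_eq (k := 1) w1 (by simp) k1
      have w0 : w ≠ 0 := by rintro rfl; simp at w1
      obtain ⟨g, hg, e⟩ := ex (Multiset.map (·, 1) {w, w, w, 1}) ⟨by simp [St, w4], by simp [w0]⟩ (by simp)
        (by simp; linear_combination w1)
      have k3 : ∀ z ∈ ({w, w, w, 1} : Multiset (AC F)), z ^ 3 = 1 := by simp [w1]
      refine not_el hg (tr_tr e k2 k3 (by simpa using h.two)).1 (fun y hy e' => ?_) hh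
      obtain ⟨k4, k5, k6⟩ := tr_tr (e'.trans e) k2 k3 (by simpa using h.two)
      have k7 := ((h.fix_k (r := 3) hn hz hz4 hR (by norm_num) hy (e := 1) (by simp [k4])
        (ns_of_ev (u := w) (v := 1) (by simp [k5]) (by simp [k5]) w2)).resolve_right (by simp)).2
      rcases k7 with k7 | k7
      · rw [k7.1] at k6
        simp at k6
        exact mul_ne_zero (psi_ne (n := 2) (by simpa using h.two)) (psi_ne k2) (by
          push_cast; linear_combination -k6 - 3 * w3 - 9 * w1)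
      · rw [k7, map_ofNat] at k6
        simp at k6
        exact psi_ne k2 (by push_cast; linear_combination -k6 - 3 * w3 - 9 * w1)
    by_cases e5 : r = 5
    · subst e5
      have k1 : t % 5 = 1 ∨ t % 5 = 4 := by have := hc.2.2 rfl; have : t % 5 ≠ 0 := fun e => tv e hh; omega
      have k2 := hp' Nat.prime_five (by omega)
      obtain ⟨w, w1, w2⟩ := exists_root k2 Nat.prime_five
      have w0 : w ≠ 0 := by rintro rfl; simp at w1
      have w3 : (w ^ 4) ^ 5 = 1 := by rw [← pow_mul, mul_comm, pow_mul, w1, one_pow]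
      have w4 : (w ^ 4) ^ 4 = w := by linear_combination (w ^ 11 + w ^ 6 + w) * w1
      obtain ⟨g, hg, e⟩ := ex (Multiset.map (·, 1) {w, w ^ 4, 1, 1}) ⟨by
        rcases k1 with k1 | k1
        · simp [St, zpow_eq (k := 1) w1 (by simp) k1, zpow_eq (k := 1) w3 (by simp) k1]
        · simp [St, zpow_eq (k := 4) w1 (by simp) k1, zpow_eq (k := 4) w3 (by simp) k1, w4, Multiset.cons_swap],
        by simp [w0]⟩ (by simp) (by simp; linear_combination w1)
      exact bad_five hn h hz hz4 hR k2 w1 w2 hg e hh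
    exact bad_big hn h hz hz4 hR inf_le_right hc.1 e3 e5 hΩ hh
  · rintro (rfl | ⟨rfl, e⟩ | ⟨rfl, e⟩)
    · refine el_two hn h hU hRU k fun η e1 e2 => ?_
      obtain ⟨g, hg, s, rfl, e3⟩ := hE.sc (by rintro rfl; simp at e2) e1
      obtain ⟨y, hy, y1, y2, y3⟩ := exists_cz hn h hU.ad hRU k hI h1 h2
      have s0 : s ≠ 0 := by rintro rfl; simp at e2
      refine ⟨g * y, mul_mem ⟨hg, sc_mem_N e3⟩ hy, s, rfl, ⟨by simpa using h.two, ?_⟩, by simp [e3, y2, mul_comm],
        fun w e => y3 (s⁻¹ * w) ?_⟩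
      · simp [e3, pow_two, y1, smul_smul]
      · rw [mul_smul, ← e]; simp [e3, smul_smul, s0]
    · exact el_three hn h hU hRU k hI h1 h2 e (hp' Nat.prime_three (by omega))
    · exact el_five hn h hU hRU k e (hp' Nat.prime_five (by omega))

end H21.Xs

namespace H21.Xs

open Matrix Module H11 Cfsg.Geo Subgroup H18
open scoped commutatorElement

universe u
variable {F : Type u} [Field F] {ι : Type} [Fintype ι] [DecidableEq ι] {R : Subgroup (GL ι F)}
  {x : GL ι F} {r : ℕ} [Finite F] [Nonempty ι]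

theorem pm_one {z : F} (h : x.1 = z • 1) (h1 : x * x = 1) : x = 1 ∨ x = -1 := by
  have k3 : z * z = 1 := by
    simpa [h, smul_smul] using congrArg (fun x : GL ι F => x.1 (Classical.arbitrary ι) (Classical.arbitrary ι)) h1
  exact (mul_self_eq_one_iff.1 k3).imp (fun e => Units.ext (by simpa [e] using h)) fun e => Units.ext (by simpa [e] using h)

theorem w_of_symp (h : IsSymplecticTypeGroup 2 R) (h1 : ActsAbsolutelyIrreducibly (matrixSet R))
    (h2 : (2 : F) ≠ 0) : W R := by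
  have sc : ∀ M : Matrix ι ι F, (∀ y ∈ R, M * y.1 = y.1 * M) → ∃ z : F, M = z • 1 := fun M hM =>
    h1.2 M (by rintro _ ⟨y, hy, rfl⟩; exact hM y hy)
  have e4 : Monoid.exponent R = 4 := h.exponent_eq
  have p4 : ∀ x : R, x ^ 4 = 1 := fun x => e4 ▸ Monoid.pow_exponent_eq_one x
  obtain ⟨E, S, k1, k2, k3, k4⟩ := Cfsg.Agent.S3762.result h.pGroup h.cyclic_of_characteristic
  have o4 : ∀ {H : Type} [Group H], Nonempty (S ≃* H) → ∀ y : H, orderOf y ≤ 4 := fun ⟨e⟩ y =>
    orderOf_le_of_pow_eq_one (by norm_num) (e.symm.injective (Subtype.ext (by simpa using p4 _)))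
  have k5 : IsCyclic S := k4.resolve_right (by
    rintro ⟨-, k5, ⟨m, e⟩ | ⟨m, e⟩ | ⟨n, n3, -, x, -, k6, -⟩⟩
    · have := o4 e (DihedralGroup.r 1)
      rw [Nat.card_congr e.some.toEquiv, DihedralGroup.nat_card] at k5
      rw [DihedralGroup.orderOf_r_one] at this
      omega
    · rcases m with _ | m
      · have := (isOfFinOrder_of_finite (e.some.symm (.a 1))).orderOf_pos
        simp [QuaternionGroup.orderOf_a_one] at this
      have := o4 e (QuaternionGroup.a 1)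
      rw [Nat.card_congr e.some.toEquiv, Nat.card_eq_fintype_card, QuaternionGroup.card] at k5
      rw [QuaternionGroup.orderOf_a_one] at this
      omega
    · have := orderOf_le_of_pow_eq_one (x := x) (by norm_num) (Subtype.ext (p4 x))
      have := Nat.pow_le_pow_right two_pos n3
      omega)
  have k6 : S ≤ center R := by
    rw [← C_top, ← k2]
    exact cent_sup (cent_symm (cent_iff.2 k1)) (abel_of_comm inferInstance)
  have k7 : ∀ x : R, ∃ e ∈ E, ∃ s ∈ center R, e * s = x := fun x =>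
    haveI := normal_of_le_center k6
    (mem_sup_of_normal_right.1 (k2.ge (mem_top x))).imp fun e ⟨he, s, hs, e'⟩ => ⟨he, s, k6 hs, e'⟩
  have cm : ∀ x ∈ R, ∀ y ∈ R, x * y = y * x ∨ x * y = -(y * x) := fun x hx y hy => by
    have k8 : ⁅(⟨x, hx⟩ : R), (⟨y, hy⟩ : R)⁆ ∈ center R ∧ ⁅(⟨x, hx⟩ : R), (⟨y, hy⟩ : R)⁆ ^ 2 = 1 := by
      obtain ⟨e, he, s, hs, e1⟩ := k7 ⟨x, hx⟩
      obtain ⟨e', he', s', hs', e2⟩ := k7 ⟨y, hy⟩
      rw [← e1, ← e2, comm_mul_left_of_commute (mem_center_iff.1 hs _).symm,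
        comm_mul_right_of_commute (mem_center_iff.1 hs' _).symm]
      rcases k3 with rfl | k3
      · simp [mem_bot.1 he]
      have k9 := ((isExtraspecial_iff Nat.prime_two).1 k3).1
      refine ⟨?_, k9.pow_Z (k9.comm_mem he he')⟩
      rw [← C_top, ← k2]
      exact cent_sup inf_le_right (inf_le_left.trans (cent_iff.2 k1)) (k9.comm_mem he he')
    obtain ⟨z, hz⟩ := sc ⁅x, y⁆.1 fun g hg =>
      congrArg (fun g : R => g.1.1) (mem_center_iff.1 k8.1 ⟨g, hg⟩).symm
    refine (pm_one hz (pow_two ⁅x, y⁆ ▸ congrArg Subtype.val k8.2)).imp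
      commutatorElement_eq_one_iff_mul_comm.1 fun e => ?_
    rwa [commutatorElement_def, mul_inv_eq_iff_eq_mul, mul_inv_eq_iff_eq_mul, neg_one_mul, neg_mul] at e
  have sq : ∀ x ∈ R, x * x = 1 ∨ x * x = -1 := fun x hx => by
    obtain ⟨z, hz⟩ := sc (x * x).1 fun y hy => by
      rw [← Units.val_mul, ← Units.val_mul]
      rcases cm x hx y hy with e | e <;> simp [mul_assoc, e, l_assoc e]
    exact pm_one hz (by simpa [pow_succ, mul_assoc] using congrArg Subtype.val (p4 ⟨x, hx⟩))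
  refine ⟨sc, ?_, cm, sq, h2⟩
  by_contra k8
  have := Monoid.exponent_dvd_of_forall_pow_eq_one (G := R) (n := 2) fun x => Subtype.ext (by
    simpa [pow_two] using (sq x x.2).resolve_right fun e => k8 (e ▸ mul_mem x.2 x.2))
  simp [e4] at this

theorem W.Z_eq (h : W R) : Z(R) = R ⊓ scalars ι F := le_antisymm
  (fun x hx => ⟨hx.1, mem_sc.2 (h.sc _ fun y hy => congrArg Units.val (mem_C.1 hx.2 y hy).symm)⟩)
  fun x hx => ⟨hx.1, (mem_sc.1 hx.2).elim fun _ e => mem_C.2 fun y _ => (sc_comm e y).symm⟩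

theorem W.card_center (h : W R) : Nat.card (R ⊓ scalars ι F : Subgroup _) = Nat.card (center R) := by
  rw [← h.Z_eq, ← map_center, card_map_of_injective R.subtype_injective]

theorem W.minus (h : W R) (h1 : Nat.card R = 2 ^ 5) (h2 : Nat.card (center R) = 2) (h3 : IsOfMinusType 2 R) :
    Nat.card {y // y ∈ R ∧ y * y = 1} = 12 ∧ ∃ a b c d, Gm R a b c d := by
  classical
  have hp := Nat.prime_two
  have cm : ∀ {x y}, x ∈ R → y ∈ R → ⁅x, y⁆ ≠ 1 → y * x = -(x * y) := fun hx hy e =>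
    (h.cm _ hy _ hx).resolve_left fun e' => e (commutatorElement_eq_one_iff_mul_comm.2 e'.symm)
  have es : ES 2 R := ⟨by rw [h.Z_eq, h.card_center, h2], commutator_le.2 fun x hx y hy => by
    rcases h.cm x hx y hy with e | e
    · rw [commutatorElement_eq_one_iff_mul_comm.2 e]; exact one_mem _
    · simp [commutatorElement_def, e, mul_assoc, mem_C]⟩
  have s1 : ssum R = -2 ^ (2 + 1) := (es.ssum_eq h1).resolve_left fun e => by
    obtain ⟨A, hA⟩ := (es.ssum_pos_iff (n := 2) h1).1 (by rw [e]; norm_num)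
    have := h3 (A.subgroupOf R) ⟨⟨fun x y => Subtype.ext (Subtype.ext (comm_of_cent hA.abel x.2 y.2))⟩⟩
      fun x hx => Subtype.ext (by simpa [pow_two] using hA.elem.pow x hx)
    rw [Nat.card_congr (subgroupOfEquivOfLe hA.le).toEquiv, hA.card] at this
    exact this.false
  refine ⟨?_, ?_⟩
  · have := ssum_eq_filter (H := R)
    rw [s1, h1, ← Fintype.card_coe, ← Nat.card_eq_fintype_card,
      Nat.card_congr (β := {y // y ∈ R ∧ y * y = 1}) (Equiv.subtypeEquivRight (by simp [pow_two]))] at this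
    omega
  obtain ⟨a, ha, a2, a3⟩ : ∃ a ∈ R, a ^ 2 = 1 ∧ a ∉ C(R) := by
    by_contra! k
    have := es.ssum_eq_iff.2 k
    rw [s1, h1] at this
    norm_num at this
  have n1 : (-1 : GL ι F) ≠ 1 := (ne_neg h.two 1).symm
  obtain ⟨b, hb, b1, b2⟩ := es.exists_inv_pair (z := -1) ⟨h.neg, by simp [mem_C]⟩ n1 ha a3 a2
  have e : ⁅a, b⁆ ≠ 1 := b1 ▸ n1
  have q1 := es.pair_es hp ha hb e
  have q2 := es.pair_card' hp ha hb e (n := 1) h1
  have q3 := q1.ssum_eq_iff.1 (by have := es.ssum_pair ha hb e a2; rw [q2]; omega)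
  obtain ⟨c, hc, c1⟩ := exists_not_mem_C ((q1.abel_iff_card hp q2).not.2 one_ne_zero)
  obtain ⟨d, hd, d1⟩ : ∃ d ∈ R ⊓ C1(a) ⊓ C1(b), d * c ≠ c * d := by by_contra! k; exact c1 (mem_C.2 k)
  exact ⟨a, b, c, d, ha, hb, hc.1.1, hd.1.1, by rwa [← pow_two], by rwa [← pow_two],
    (h.sq c hc.1.1).resolve_left fun k => c1 (q3 c hc (by rwa [pow_two])),
    (h.sq d hd.1.1).resolve_left fun k => d1 (mem_C.1 (q3 d hd (by rwa [pow_two])) c hc).symm, cm ha hb e,
    (h.cm d hd.1.1 c hc.1.1).resolve_left d1, mem_C1.1 hc.1.2, mem_C1.1 hc.2, mem_C1.1 hd.1.2, mem_C1.1 hd.2⟩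

theorem four_sp {R : Subgroup (GL (Fin 2 ⊕ Fin 2) F)} (h : W R) (h1 : Nat.card R = 2 ^ 5)
    (h2 : Nat.card (center R) = 2) (h3 : IsOfMinusType 2 R) (p : ℕ) [hp : Fact p.Prime] [CharP F p]
    (hF : Nat.card F = p) (hR : R ≤ Cfsg.spGL 2 F) [hr : Fact r.Prime]
    (hΩ : r ∣ (subgroupNormalizer R).relIndex (Cfsg.spGL 2 F)) :
    El (Cfsg.spGL 2 F) (subgroupNormalizer R) r ↔ r = 2 ∨ r = 5 ∧ ((p : ℤ) % 5 = 2 ∨ (p : ℤ) % 5 = 3) := by
  obtain ⟨h4, a, b, c, d, k⟩ := h.minus h1 h2 h3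
  have hn : Fintype.card (Fin 2 ⊕ Fin 2) = 4 := by simp
  have hz := h.card_center.trans h2
  have hz4 : 2 ∣ 4 := by norm_num
  have hU := lg_sp (F := F) (n := 2)
  have ex := fun J => ex_sp (F := F) (J := J)
  rw [hF] at hU ex
  have e0 : Cfsg.spGL 2 F ⊓ specialLinear _ F = Cfsg.spGL 2 F := inf_eq_left.2 sp_le_SL
  have hp' : ∀ {s : ℕ}, s.Prime → (p : ℤ) % s ≠ 0 → (s : F) ≠ 0 := fun {s} hs e e' => e (by
    obtain rfl := (Nat.prime_dvd_prime_iff_eq hp.out hs).1 ((CharP.cast_eq_zero_iff F p s).1 e')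
    simp)
  have tv : (p : ℤ) % r = 0 → ¬ El (Cfsg.spGL 2 F) (subgroupNormalizer R) r := fun e => by
    obtain rfl : r = p := (Nat.prime_dvd_prime_iff_eq hr.out hp.out).1 (by
      simpa [Int.natCast_dvd_natCast] using Int.dvd_of_emod_eq_zero e)
    obtain ⟨g, hg, e⟩ := ex {(1, 2)} ⟨by simp [St], by simp⟩ (by simp) (by simp)
    exact bad_tv hn h r hg e
  have ex' : ∀ (s : ℕ) (w : AC F), w ^ (s + 2) = 1 → (w ^ (s + 1)) ^ (s + 1) = w → (p : ℤ) % (s + 2 : ℕ) = (1 : ℕ) ∨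
      (p : ℤ) % (s + 2 : ℕ) = (s + 1 : ℕ) →
      ∃ g ∈ Cfsg.spGL 2 F, JD (mE g.1) = Multiset.map (·, 1) {w, w ^ (s + 1), 1, 1} := fun s w w1 w2 e => by
    have w0 : w ≠ 0 := by rintro rfl; simp at w1
    have w3 : (w ^ (s + 1)) ^ (s + 2) = 1 := by rw [← pow_mul, mul_comm, pow_mul, w1, one_pow]
    refine ex {(w, 1), (w ^ (s + 1), 1)} ⟨?_, by simp [w0]⟩ (by simp) (by simp [← pow_succ', w1])
    rcases e with e | e
    · simp [St, zpow_eq w1 (by simp) e, zpow_eq w3 (by simp) e, -zpow_natCast]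
    · simpa [St, zpow_eq w1 (by simp) e, zpow_eq w3 (by simp) e, w2, -zpow_natCast] using Multiset.pair_comm _ _
  constructor
  · intro hh
    by_contra! hc
    by_cases e3 : r = 3
    · subst e3
      have k1 : (p : ℤ) % 3 ≠ 0 := fun e => tv e hh
      have k2 := hp' Nat.prime_three k1
      obtain ⟨w, w1, w2⟩ := exists_root k2 Nat.prime_three
      have w3 := cube_root w1 w2
      have w4 : (w ^ 2) ^ 2 = w := by linear_combination w * w1
      obtain ⟨g, hg, e⟩ := ex' 1 w w1 w4 (by omega)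
      have k3 : ∀ z ∈ ({w, w ^ 2, 1, 1} : Multiset (AC F)), z ^ 3 = 1 := by
        simpa [w1] using (show (w ^ 2) ^ 3 = 1 by rw [← pow_mul, mul_comm, pow_mul, w1, one_pow])
      refine not_el hg (tr_tr e k2 k3 (by simpa using h.two)).1 (fun y hy e' => ?_) hh
      obtain ⟨k4, k5, k6⟩ := tr_tr (e'.trans e) k2 k3 (by simpa using h.two)
      have k7 := ((h.fix_k (r := 3) hn hz hz4 h1 (by norm_num) hy (e := 1) (by simp [k4])
        (ns_of_ev (u := w) (v := 1) (by simp [k5]) (by simp [k5]) w2)).resolve_right (by simp)).2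
      rcases k7 with k7 | k7
      · have k8 := fix_mod (r := 3) (z := 1) (x := y) (by simp [k4]) (T := {y | y ∈ R ∧ y * y = 1}) fun u hu =>
          ⟨N_conj hy hu.1, by simp [mul_assoc, l_assoc hu.2]⟩
        have k9 : Nat.card {u // u ∈ {y | y ∈ R ∧ y * y = 1} ∧ u * y = y * u} =
            Nat.card (R ⊓ scalars _ F : Subgroup _) := Nat.card_congr (Equiv.subtypeEquivRight fun u =>
          ⟨fun hu => ⟨hu.1.1, k7.2 ⟨hu.1.1, mem_C1.2 hu.2⟩⟩, fun hu => ⟨⟨hu.1, by
            have := pow_card_eq_one' (x := (⟨u, hu⟩ : (R ⊓ scalars _ F : Subgroup _)))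
            rw [hz, pow_two] at this
            exact congrArg Subtype.val this⟩,
            (mem_sc.1 hu.2).elim fun _ e => sc_comm e y⟩⟩)
        rw [k9, hz, show Nat.card {y | y ∈ R ∧ y * y = 1} = 12 from h4] at k8
        exact absurd k8 (by decide)
      · rw [k7, map_ofNat] at k6
        simp [w4] at k6
        exact psi_ne k2 (by push_cast; linear_combination k6 + (w ^ 2 + w + 3) * w3)
    by_cases e5 : r = 5
    · subst e5
      have k1 : (p : ℤ) % 5 ≠ 0 := fun e => tv e hh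
      have k2 := hp' Nat.prime_five k1
      obtain ⟨w, w1, w2⟩ := exists_root k2 Nat.prime_five
      obtain ⟨g, hg, e⟩ := ex' 3 w w1 (by linear_combination (w ^ 11 + w ^ 6 + w) * w1) (by have := hc.2 rfl; omega)
      exact bad_five hn h hz hz4 h1 k2 w1 w2 hg e hh
    exact bad_big hn h hz hz4 h1 sp_le_SL hc.1 e3 e5 hΩ hh
  · rw [← e0]
    rintro (rfl | ⟨rfl, e⟩)
    · refine el_two hn h hU.2 hR k fun η e1 e2 => (psi_ne (n := 2) (by simpa using h.two) ?_).elim
      have e3 : η ≠ 0 := by rintro rfl; simp at e2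
      have e4 : η * η = 1 := by rw [_root_.zpow_neg_one] at e1; nth_rw 1 [← e1]; exact inv_mul_cancel₀ e3
      push_cast
      linear_combination e2 - (η * η + 1) * e4
    · exact el_five hn h hU.1 hR k e (hp' Nat.prime_five (by omega))

theorem ord_five (p : ℕ) : orderOf (p : ZMod 5) = 4 ↔ (p : ℤ) % 5 = 2 ∨ (p : ℤ) % 5 = 3 := by
  haveI : Fact (Nat.Prime 2) := ⟨Nat.prime_two⟩
  have h : ∀ x : ZMod 5, orderOf x = 4 ↔ x = 2 ∨ x = 3 := fun x => by
    rw [orderOf_eq_iff (by norm_num)]; revert x; decide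
  rw [h, show (2 : ZMod 5) = (2 : ℕ) from rfl, show (3 : ZMod 5) = (3 : ℕ) from rfl, ZMod.natCast_eq_natCast_iff',
    ZMod.natCast_eq_natCast_iff']
  omega

end H21.Xs
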