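import Cfsg.Agent.H21.Xs3
import Cfsg.Agent.H3.BG4b

/-! Elements of prime order conjugate into the normaliser of an extraspecial group of order `27`
in dimension three: the structure `Hs` and the theorem `three`. -/

set_option autoImplicit false
set_option linter.unusedSectionVars false

namespace H21.Xs

open Matrix Module H11 Cfsg.Geo Subgroup Multiset H18
open scoped commutatorElement

universe u
variable {F : Type u} [Field F] {ι : Type} [Fintype ι] [DecidableEq ι] {U R G : Subgroup (GL ι F)}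
  {x y X Y : GL ι F} {r : ℕ} [Finite F] [Nonempty ι] {t : ℤ} {z w : F}

local notation "ψ" => algebraMap F (AC F)
local notation "𝐍" => subgroupNormalizer

theorem cube_cases {K : Type*} [Field K] {w s : K} (h : w ^ 2 + w + 1 = 0) (h1 : s ^ 3 = 1) :
    s = 1 ∨ s = w ∨ s = w ^ 2 := by
  have : (s - 1) * ((s - w) * (s - w ^ 2)) = 0 := by
    linear_combination h1 + (-s ^ 2 + s * w - (w - 1)) * h
  simpa [sub_eq_zero] using this

theorem scal_of_comm (hn : Fintype.card ι = 3) {Z : GL ι F} (h1 : Y * X = Z * (X * Y)) (h2 : Z * X = X * Z)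
    (h3 : Z * Y = Y * Z) (h4 : w ^ 3 = 1) (h5 : w ≠ 1) (h6 : (Z.1 - w • 1).det = 0) : Z.1 = w • 1 := by
  let V := LinearMap.ker (mE (Z.1 - w • 1))
  have mem : ∀ v, v ∈ V ↔ Z.1 *ᵥ v = w • v := fun v => by
    simp [V, mE_apply, sub_mulVec, smul_mulVec, sub_eq_zero]
  have inv : ∀ {X : GL ι F}, Z * X = X * Z → ∀ v ∈ V, mE X.1 v ∈ V := fun {X} e v hv => by
    rw [mem, mE_apply, mulVec_mulVec, ← Units.val_mul, e, Units.val_mul, ← mulVec_mulVec, (mem v).1 hv, mulVec_smul]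
  have nz : ∀ {X : GL ι F} (e : Z * X = X * Z), LinearMap.det ((mE X.1).restrict (inv e)) ≠ 0 := fun {X} e => by
    rw [Ne, LinearMap.det_eq_zero_iff_ker_ne_bot, not_not, LinearMap.ker_eq_bot]
    exact fun u v h => Subtype.ext ((Module.End.isUnit_iff _).1 (isUnit_mE_gl X) |>.1 (congrArg Subtype.val h))
  have k1 : (mE Y.1).restrict (inv h3) * (mE X.1).restrict (inv h2) =
      w • ((mE X.1).restrict (inv h2) * (mE Y.1).restrict (inv h3)) := LinearMap.ext fun v => Subtype.ext (by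
    have := (mem _).1 (inv h2 _ (inv h3 v v.2))
    change Y.1 *ᵥ (X.1 *ᵥ v.1) = w • (X.1 *ᵥ (Y.1 *ᵥ v.1))
    rw [mulVec_mulVec, ← Units.val_mul, h1, Units.val_mul, Units.val_mul, ← mulVec_mulVec, ← mulVec_mulVec]
    exact this)
  have k2 := congrArg LinearMap.det k1
  rw [LinearMap.det_smul, map_mul, map_mul, mul_comm] at k2
  have k3 : w ^ finrank F V = 1 := (mul_eq_right₀ (mul_ne_zero (nz h2) (nz h3))).1 k2.symm
  obtain ⟨v, v0, hv⟩ := exists_mulVec_eq_zero_iff.2 h6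
  have k4 : finrank F V ≠ 0 := Submodule.finrank_eq_zero.not.2 ((Submodule.ne_bot_iff _).2 ⟨v, hv, v0⟩)
  have k5 := Submodule.finrank_le V
  rw [finrank_fintype_fun_eq_card, hn] at k5
  have k6 : V = ⊤ := Submodule.eq_top_of_finrank_eq (by
    rw [finrank_fintype_fun_eq_card, hn]
    interval_cases finrank F V
    exacts [(k4 rfl).elim, (h5 (by simpa using k3)).elim, (h5 (by linear_combination h4 - w * k3)).elim, rfl])
  rwa [LinearMap.ker_eq_top, mE_eq_zero, sub_eq_zero] at k6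

structure Hs (R : Subgroup (GL ι F)) (X Y : GL ι F) (w : F) : Prop where
  xr : XR R
  hX : X ∈ R
  hY : Y ∈ R
  cube : ∀ x ∈ R, x ^ 3 = 1
  ww : w ^ 2 + w + 1 = 0
  yx : Y.1 * X.1 = w • (X.1 * Y.1)
  gen : ∀ K, X ∈ K → Y ∈ K → R ≤ K
  cz : Nat.card (R ⊓ scalars ι F : Subgroup _) = 3

theorem exists_hs (hn : Fintype.card ι = 3) (h3 : (3 : F) ≠ 0) (hw : w ^ 2 + w + 1 = 0) (h1 : Nat.card R = 27)
    (h2 : Monoid.exponent R = 3) (h4 : ¬ IsMulCommutative R) : ∃ X Y w, Hs R X Y w := by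
  have hp := Nat.prime_three
  have na : ¬ Abel R := fun h => h4 h.comm
  have k1 := H3.Z_eq_der_of_card_cube hp h1 na
  have es : ES 3 R := ⟨k1 ▸ H3.card_der_of_card_cube hp h1 na, k1.ge.trans inf_le_right⟩
  have cube : ∀ x ∈ R, x ^ 3 = 1 := fun x hx =>
    congrArg Subtype.val (h2 ▸ Monoid.pow_exponent_eq_one (⟨x, hx⟩ : R))
  obtain ⟨Y, hY, k2⟩ := exists_not_mem_C na
  obtain ⟨X, hX, k3⟩ : ∃ X ∈ R, X * Y ≠ Y * X := by by_contra! k; exact k2 (mem_C.2 k)
  have e : ⁅Y, X⁆ ≠ 1 := fun e => k3 (commutatorElement_eq_one_iff_mul_comm.1 e).symm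
  have k4 := es.comm_mem hY hX
  have k5 : Y * X = ⁅Y, X⁆ * (X * Y) := by group
  obtain ⟨s, s1, s2⟩ : ∃ s : F, s ^ 2 + s + 1 = 0 ∧ ⁅Y, X⁆.1 = s • 1 := by
    have w1 : w ≠ 1 := by rintro rfl; exact h3 (by linear_combination hw)
    have w3 : w ^ 3 = 1 := by linear_combination (w - 1) * hw
    by_cases k : (⁅Y, X⁆.1 - w • 1).det = 0
    · exact ⟨w, hw, scal_of_comm hn k5 (mem_C.1 k4.2 X hX).symm (mem_C.1 k4.2 Y hY).symm w3 w1 k⟩
    refine ⟨w ^ 2, by linear_combination hw + w * w3, scal_of_comm hn k5 (mem_C.1 k4.2 X hX).symm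
      (mem_C.1 k4.2 Y hY).symm (by linear_combination (w ^ 3 + 1) * w3)
      (fun e => w1 (by linear_combination w3 - w * e)) (by_contra fun k' => e (Units.ext ?_))⟩
    have k6 : ⁅Y, X⁆.1 * (⁅Y, X⁆.1 * ⁅Y, X⁆.1) = 1 := by
      simpa [pow_succ, mul_assoc] using congrArg Units.val (cube _ k4.1)
    rw [← sub_eq_zero, ← (((isUnit_iff_isUnit_det _).2 (Ne.isUnit k)).mul
      ((isUnit_iff_isUnit_det _).2 (Ne.isUnit k'))).mul_right_eq_zero]
    simp only [mul_sub, sub_mul, mul_assoc, k6, smul_mul_assoc, mul_smul_comm, one_mul, mul_one, Units.val_one]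
    match_scalars <;> grind
  have zs : Z(R) ≤ scalars ι F := by
    rw [← es.zpowers_eq hp k4 e, zpowers_le]; exact mem_sc.2 ⟨s, s2⟩
  have cm : ∀ x ∈ R, ∀ y ∈ R, ∃ z : F, ⁅x, y⁆.1 = z • 1 ∧ x.1 * y.1 = z • (y.1 * x.1) := fun x hx y hy =>
    (mem_sc.1 (zs (es.comm_mem hx hy))).imp fun z e => ⟨e, by
      rw [← one_mul (y.1 * _), ← smul_mul_assoc, ← e, ← Units.val_mul, ← Units.val_mul, ← Units.val_mul]
      congr 1; group⟩
  refine ⟨X, Y, s, ⟨fun M hM => ?_, fun x hx y hy => (cm x hx y hy).imp fun _ h => h.2⟩, hX, hY, cube, s1,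
    by simpa [s2] using congrArg Units.val k5, fun K hx hy => ?_, ?_⟩
  · haveI := Fintype.ofFinite (R ⧸ center R)
    have li : LinearIndependent F fun k : R ⧸ center R => k.out.1.1 := Fintype.linearIndependent_iff.2 fun c hc k => by
      have k6 := congrArg (fun M => trace (k.out⁻¹.1.1 * M)) hc
      simp only [Finset.mul_sum, mul_smul_comm, trace_sum, trace_smul, mul_zero, trace_zero] at k6
      rw [Finset.sum_eq_single k (fun l _ e => ?_) (by simp)] at k6
      · simpa [hn, h3] using k6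
      obtain ⟨g, hg⟩ : ∃ g : R, g * (k.out⁻¹ * l.out) ≠ k.out⁻¹ * l.out * g := by
        by_contra! k7
        exact e (by rw [← l.out_eq', ← k.out_eq', eq_comm, QuotientGroup.eq]; exact mem_center_iff.2 k7)
      obtain ⟨z, z1, z2⟩ := cm _ (k.out⁻¹ * l.out).2 g g.2
      have : z ≠ 1 := fun e => hg (Subtype.ext (Units.ext (by simpa [e] using z2.symm)))
      rw [show k.out⁻¹.1.1 * l.out.1.1 = (k.out⁻¹ * l.out).1.1 from rfl, tr0 this z2, smul_zero]
    have k6 := card_eq_card_quotient_mul_card_subgroup (center R)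
    rw [h1, ← card_map_of_injective R.subtype_injective, map_center, es.card, Nat.card_eq_fintype_card] at k6
    have k7 := li.span_eq_top_of_card_eq_finrank' (by rw [finrank_matrix, hn, finrank_self]; omega)
    refine H29.sc_of_comm fun b => ?_
    induction k7.ge (Submodule.mem_top (x := b)) using Submodule.span_induction with
    | mem _ h => obtain ⟨k, rfl⟩ := h; exact hM _ k.out.2
    | zero => simp
    | add _ _ _ _ h h' => rw [mul_add, add_mul, h, h']
    | smul _ _ _ h => rw [mul_smul_comm, smul_mul_assoc, h]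
  · rw [← es.pair_sup hp hY hX e, ← eq_of_le_of_card_ge (le_inf (le_inf inf_le_left fun g hg => mem_C1.2
      (mem_C.1 hg.2 Y hY).symm) fun g hg => mem_C1.2 (mem_C.1 hg.2 X hX).symm : Z(R) ≤ _)
      (by rw [es.pair_card' hp hY hX e (n := 0) h1, es.card]; rfl), ← es.zpowers_eq hp k4 e]
    exact sup_le (sup_le (zpowers_le.2 (mul_mem (mul_mem (mul_mem hy hx) (inv_mem hy)) (inv_mem hx)))
      (zpowers_le.2 hy)) (zpowers_le.2 hx)
  · rw [← es.card]
    exact congrArg (fun K : Subgroup _ => Nat.card K) (le_antisymm (fun x hx => ⟨hx.1,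
      (mem_sc.1 hx.2).elim fun _ e => mem_C.2 fun y _ => (sc_comm e y).symm⟩) (le_inf inf_le_left zs))

theorem cast_inj3 {K : Type*} [Field K] (h2 : (2 : K) ≠ 0) (h3 : (3 : K) ≠ 0) {a b : ℕ} (ha : a ≤ 3) (hb : b ≤ 3)
    (e : (a : K) = b) : a = b := by
  interval_cases a <;> interval_cases b <;> first | rfl | (exfalso; push_cast at e; grind)

variable (hn : Fintype.card ι = 3) (h2 : (2 : F) ≠ 0) (h3 : (3 : F) ≠ 0)
include hn h2 h3

theorem three_tr (h : Rt x 3 z) (h' : Rt y 3 z) (e : x.1.trace = y.1.trace) (e' : (x.1 ^ 2).trace = (y.1 ^ 2).trace) :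
    Ev x = Ev y := by
  obtain ⟨v, v1, v2⟩ := exists_root h.ne Nat.prime_three
  have v3 := cube_root v1 v2
  obtain ⟨ζ, hζ⟩ := h.exists_mem
  obtain ⟨a, b, c, k1, k2⟩ := h.three (h.mem hζ) v3
  obtain ⟨a', b', c', k1', k2'⟩ := h'.three (h.mem hζ) v3
  have k3 := h.sum.trans ((congrArg _ e).trans h'.sum.symm)
  have k0 : ((2 : ℕ) : F) ≠ 0 := by simpa using h2
  have k4 := (h.sum_pow k0).trans ((congrArg _ e').trans (h'.sum_pow k0).symm)
  have k5 := congrArg (Nat.cast : ℕ → AC F) (k1.trans k1'.symm)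
  have z0 := ev_ne hζ
  have p2 : (2 : AC F) ≠ 0 := by simpa using psi_ne k0
  have p3 : (3 : AC F) ≠ 0 := by simpa using psi_ne h.ne
  rw [k2, k2'] at k3 k4 ⊢
  simp only [Multiset.map_add, map_replicate, sum_add, sum_replicate, nsmul_eq_mul, Nat.cast_add] at k3 k4 k5
  have k6 : (a : AC F) + b * v + c * v ^ 2 = a' + b' * v + c' * v ^ 2 := mul_left_cancel₀ z0 (by linear_combination k3)
  have k7 : (a : AC F) + b * v ^ 2 + c * v = a' + b' * v ^ 2 + c' * v := mul_left_cancel₀ (pow_ne_zero 2 z0) (by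
    linear_combination k4 - ζ ^ 2 * v * (c - c') * v1)
  obtain rfl : a = a' := cast_inj3 p2 p3 (by omega) (by omega) (mul_left_cancel₀ p3 (by
    linear_combination k5 + k6 + k7 - (b + c - b' - c') * v3))
  obtain rfl : b = b' := cast_inj3 p2 p3 (by omega) (by omega) (mul_left_cancel₀ p3 (by
    linear_combination k5 + v ^ 2 * k6 + v * k7 - (c - c') * v3 - (2 * (b - b') + (c - c') * v) * v1))
  rw [show c = c' by omega]

namespace Hs
variable (h : Hs R X Y w)
include h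

theorem w3 : w ^ 3 = 1 := by linear_combination (w - 1) * h.ww

theorem w1 : w ≠ 1 := by rintro rfl; exact h3 (by linear_combination h.ww)

theorem sc {s : F} (hs : s ^ 3 = 1) : ∃ S ∈ R, S.1 = s • 1 := by
  have k : (Y * X * Y⁻¹ * X⁻¹).1 = w • 1 := by
    rw [Units.val_mul, Units.val_mul, Units.val_mul, h.yx]; simp [mul_assoc]
  have k' := mul_mem (mul_mem (mul_mem h.hY h.hX) (inv_mem h.hY)) (inv_mem h.hX)
  rcases cube_cases h.ww hs with rfl | rfl | rfl
  exacts [⟨1, one_mem _, by simp⟩, ⟨_, k', k⟩,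
    ⟨_, pow_mem k' 2, by rw [Units.val_pow_eq_pow_val, k, _root_.smul_pow, one_pow]⟩]

theorem tr (hx : x ∈ R) (h1 : ∀ z : F, x.1 ≠ z • 1) : x.1.trace = 0 ∧ (x.1 ^ 2).trace = 0 :=
  ⟨h.xr.tr hx h1, h.xr.tr (pow_mem hx 2) fun z e => h1 (z ^ 2) (by
    rw [show x = (x ^ 2) ^ 2 by rw [← pow_mul, show 2 * 2 = 3 + 1 from rfl, pow_succ, h.cube x hx, one_mul],
      Units.val_pow_eq_pow_val, e, _root_.smul_pow, one_pow])⟩

theorem ns (z : F) : X.1 ≠ z • 1 := fun e => h.w1 hn h2 h3 (by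
  have := h.yx
  rw [← Units.val_mul, ← Units.val_mul, ← sc_comm e] at this
  exact (smul_left_injective F (X * Y).ne_zero ((one_smul _ _).trans this)).symm)

theorem le_SL : R ≤ specialLinear ι F := fun x hx => mem_SL.2 (by
  have k1 := rt_one (h.cube x hx) (by simpa)
  by_cases e : ∃ z : F, x.1 = z • 1
  · obtain ⟨z, e⟩ := e
    have := k1.pow
    rw [e, _root_.smul_pow, one_pow] at this
    rw [e, det_smul, hn, smul_left_injective F one_ne_zero this]; simp
  push Not at e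
  obtain ⟨v, v1, v2⟩ := exists_root k1.ne Nat.prime_three
  have v3 := cube_root v1 v2
  obtain ⟨a, b, c, k2, k3⟩ := k1.three (ζ := 1) (by simp) v3
  have k0 : ((2 : ℕ) : F) ≠ 0 := by simpa using h2
  have k4 := k1.sum
  have k5 := k1.sum_pow k0
  have k6 := k1.prod
  have k7 := congrArg (Nat.cast : ℕ → AC F) (k2.trans hn)
  have p2 : (2 : AC F) ≠ 0 := by simpa using psi_ne k0
  have p3 : (3 : AC F) ≠ 0 := by simpa using psi_ne k1.ne
  rw [k3] at k4 k5 k6
  simp only [(h.tr hn h2 h3 hx e).1, (h.tr hn h2 h3 hx e).2, Multiset.map_add, map_replicate, sum_add, sum_replicate,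
    nsmul_eq_mul, Nat.cast_add, map_zero, Nat.cast_ofNat] at k4 k5 k7
  obtain rfl : a = 1 := cast_inj3 p2 p3 (by omega) (by omega) (by grind)
  obtain rfl : b = 1 := cast_inj3 p2 p3 (by omega) (by omega) (by grind)
  obtain rfl : c = 1 := by omega
  exact (map_eq_one_iff _ (algebraMap F (AC F)).injective).1 (by rw [← k6]; simp; grind))

theorem exists_D (hU : AD U) (hR : R ≤ U) {s : F} (hs : s ^ 2 + s + 1 = 0) : ∃ D ∈ U ⊓ 𝐍 R,
    D ^ 3 = 1 ∧ D.1.trace = 2 + s ∧ (D.1 ^ 2).trace = 2 + s ^ 2 := by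
  have s3 : s ^ 3 = 1 := by linear_combination (s - 1) * hs
  obtain ⟨S, S1, S2⟩ := h.sc hn h2 h3 s3
  have x3 : X.1 * (X.1 * X.1) = 1 := by simpa [pow_succ, mul_assoc] using congrArg Units.val (h.cube X h.hX)
  have x4 : ∀ M, X.1 * (X.1 * (X.1 * M)) = M := fun M => by rw [← mul_assoc X.1 X.1, ← mul_assoc, mul_assoc X.1, x3, one_mul]
  let P : F → F → Matrix ι ι F := fun s c => 1 + (3⁻¹ * (s - 1)) • (1 + c • X.1 + c ^ 2 • (X.1 * X.1))
  have i3 : (3 : F) * 3⁻¹ = 1 := mul_inv_cancel₀ h3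
  have p1 : ∀ a b, P a 1 * P b 1 = P (a * b) 1 := fun a b => by
    simp only [P, mul_add, add_mul, mul_one, one_mul, mul_smul_comm, smul_mul_assoc, mul_assoc, x3, x4]
    match_scalars <;> grind
  have p2 : P 1 1 = 1 := by simp [P]
  let D : GL ι F := ⟨P s 1, P (s ^ 2) 1, by rw [p1, ← pow_succ', s3, p2], by rw [p1, ← pow_succ, s3, p2]⟩
  have xi : X⁻¹.1 = X.1 * X.1 := Units.inv_eq_of_mul_eq_one_right x3
  have si : S⁻¹.1 = s ^ 2 • 1 := Units.inv_eq_of_mul_eq_one_right (by simp [S2, smul_smul, ← pow_succ, s3])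
  have t0 := h.tr hn h2 h3 h.hX (h.ns hn h2 h3)
  have t1 : ∀ a, (P a 1).trace = 2 + a := fun a => by
    simp only [P, trace_add, trace_smul, t0.1, ← pow_two, t0.2, trace_one, hn, smul_eq_mul]; grind
  refine ⟨D, ⟨hU D 3 _ _ (((Aj.one.add .one).add .one).add (((Aj.of (hR S1)).sub .one).mul
    ((Aj.one.add (.of (hR h.hX))).add ((Aj.of (hR h.hX)).mul (.of (hR h.hX)))))) (by simpa) ?_ ?_,
    mem_N fun y hy => ?_⟩, Units.ext ?_, t1 s, ?_⟩
  · simp only [D, P, S2, sub_mul, smul_mul_assoc, one_mul]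
    match_scalars <;> grind
  · simp only [D, P, xi, si, mul_add, add_mul, mul_sub, sub_mul, mul_one, one_mul, mul_smul_comm, smul_mul_assoc,
      mul_assoc, x3, x4]
    match_scalars <;> grind
  · obtain ⟨c, hc⟩ := h.xr.cm X h.hX y hy
    have k1 : ∀ M, X.1 * (y.1 * M) = c • (y.1 * (X.1 * M)) := fun M => by rw [← mul_assoc, hc, smul_mul_assoc, mul_assoc]
    have k2 : c ^ 3 = 1 := smul_left_injective F y.ne_zero (by
      have := x4 y.1
      simp only [hc, k1, mul_smul_comm, x3, mul_one, smul_smul] at this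
      simpa [pow_succ, mul_assoc] using this)
    have k3 : D.1 * y.1 = y.1 * P s c := by
      simp only [D, P, mul_add, add_mul, mul_one, one_mul, mul_smul_comm, smul_mul_assoc, mul_assoc, hc, k1]
      match_scalars <;> ring
    have k4 : ∀ g ∈ R, P s c = g.1 * D.1 → D * y * D⁻¹ ∈ R := fun g hg e => by
      rw [show D * y = y * g * D from Units.ext (by simp [k3, e, mul_assoc]), mul_inv_cancel_right]
      exact mul_mem hy hg
    rcases cube_cases hs k2 with rfl | rfl | rfl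
    · exact k4 1 (one_mem _) (one_mul _).symm
    · refine k4 (S * S * X) (mul_mem (mul_mem S1 S1) h.hX) ?_
      simp only [D, P, S2, Units.val_mul, mul_add, mul_one, one_mul, mul_smul_comm, smul_mul_assoc, x3]
      match_scalars <;> grind
    · refine k4 (S * S * (X * X)) (mul_mem (mul_mem S1 S1) (mul_mem h.hX h.hX)) ?_
      simp only [D, P, S2, Units.val_mul, mul_add, mul_one, one_mul, mul_smul_comm, smul_mul_assoc, mul_assoc, x3, x4]
      match_scalars <;> grind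
  · change D.1 ^ 3 = 1
    rw [pow_succ, pow_two, p1, p1, ← pow_two, ← pow_succ, s3, p2]
  · rw [pow_two, p1, t1, pow_two]

theorem exists_inv (hU : AD U) (hR : R ≤ U) : ∃ D ∈ U ⊓ 𝐍 R,
    D.1 ^ 2 = 1 ∧ D.1.trace = -1 ∧ ∀ z : F, D.1 ≠ z • 1 := by
  have ww := h.ww
  have x3 : X.1 * (X.1 * X.1) = 1 := by simpa [pow_succ, mul_assoc] using congrArg Units.val (h.cube X h.hX)
  have y3 : Y.1 * (Y.1 * Y.1) = 1 := by simpa [pow_succ, mul_assoc] using congrArg Units.val (h.cube Y h.hY)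
  have x4 : ∀ M, X.1 * (X.1 * (X.1 * M)) = M := fun M => by rw [← mul_assoc X.1 X.1, ← mul_assoc, mul_assoc X.1, x3, one_mul]
  have y4 : ∀ M, Y.1 * (Y.1 * (Y.1 * M)) = M := fun M => by rw [← mul_assoc Y.1 Y.1, ← mul_assoc, mul_assoc Y.1, y3, one_mul]
  have yx : ∀ M, Y.1 * (X.1 * M) = w • (X.1 * (Y.1 * M)) := fun M => by rw [← mul_assoc, h.yx, smul_mul_assoc, mul_assoc]
  have xi : X⁻¹.1 = X.1 * X.1 := Units.inv_eq_of_mul_eq_one_right x3
  have yi : Y⁻¹.1 = Y.1 * Y.1 := Units.inv_eq_of_mul_eq_one_right y3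
  have i3 : (3 : F) * 3⁻¹ = 1 := mul_inv_cancel₀ h3
  obtain ⟨A, hA⟩ : ∃ A, A = 1 + X.1 + X.1 * X.1 := ⟨_, rfl⟩
  obtain ⟨B, hB⟩ : ∃ B, B = A + Y.1 * (A * Y.1) + Y.1 * (Y.1 * (A * Y.1) * Y.1) := ⟨_, rfl⟩
  have b1 : B * B = (9 : F) • 1 := by
    simp only [hA, hB, mul_add, add_mul, mul_one, one_mul, mul_smul_comm, smul_mul_assoc, mul_assoc, x3, x4, y3, y4,
      h.yx, yx]
    match_scalars <;> grind
  have b2 : (-3⁻¹ : F) • B * (-3⁻¹ : F) • B = 1 := by
    rw [smul_mul_smul_comm, b1, smul_smul]; convert one_smul F _; grind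
  let D : GL ι F := ⟨_, _, b2, b2⟩
  have a1 : Aj U A A := by
    convert (Aj.one.add (.of (hR h.hX))).add ((Aj.of (hR h.hX)).mul (.of (hR h.hX))) using 1
    simp only [hA, xi, mul_assoc, x4]; abel
  have a2 := Aj.of (hR h.hY)
  have a3 : Aj U (0 - B) (0 - B) := by
    convert (Aj.one.sub .one).sub ((a1.add (a2.mul (a1.mul a2))).add (a2.mul ((a2.mul (a1.mul a2)).mul a2))) using 1
    · rw [sub_self, hB]
    · simp only [hB, yi, mul_assoc, y4, y3, mul_one]; abel
  have d1 : D * X = X * X * D := Units.ext (by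
    simp only [D, hA, hB, Units.val_mul, mul_add, add_mul, mul_one, one_mul, mul_smul_comm, smul_mul_assoc, mul_assoc,
      x3, x4, h.yx, yx]
    match_scalars <;> grind)
  have d2 : D * Y = Y * Y * D := Units.ext (by
    simp only [D, hB, Units.val_mul, mul_add, add_mul, mul_one, mul_smul_comm, smul_mul_assoc, mul_assoc, y3, y4]
    module)
  have t1 : ∀ M, X.1 * M = M * X.1 → (M * Y.1).trace = 0 ∧ (M * (Y.1 * Y.1)).trace = 0 := fun M e =>
    ⟨tr0 (y := X) (h.w1 hn h2 h3) (by rw [mul_assoc, h.yx, mul_smul_comm, ← mul_assoc, ← e, mul_assoc]),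
      tr0 (y := X) (z := w * w) (fun e => h3 (by grind)) (by
        simp only [mul_assoc, h.yx, yx, mul_smul_comm, smul_smul]; rw [← mul_assoc, ← e, mul_assoc])⟩
  have t2 := t1 A (by simp [hA, mul_add, add_mul, mul_assoc])
  have t0 := h.tr hn h2 h3 h.hX (h.ns hn h2 h3)
  refine ⟨D, ⟨hU D 3 _ _ a3 (by simpa) (by simp [D, smul_smul, i3]) ?_, mem_N fun y hy =>
    h.gen (R.comap (MulAut.conj D).toMonoidHom) ?_ ?_ hy⟩, by rw [pow_two, b2], ?_, fun z e => ?_⟩
  · simp only [D, zero_sub, neg_mul, mul_smul_comm, b1]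
    match_scalars; grind
  · simpa [d1] using mul_mem h.hX h.hX
  · simpa [d2] using mul_mem h.hY h.hY
  · have k1 : (Y.1 * (A * Y.1)).trace = 0 := by rw [trace_mul_comm, mul_assoc, t2.2]
    have k2 : (Y.1 * (Y.1 * (A * Y.1) * Y.1)).trace = 0 := by
      rw [trace_mul_comm, mul_assoc, mul_assoc, mul_assoc, y3, mul_one, trace_mul_comm, t2.1]
    simp only [D, hB, trace_smul, trace_add, k1, k2]
    simp only [hA, trace_add, trace_one, hn, t0.1, ← pow_two, t0.2, smul_eq_mul]; grind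
  · rw [sc_comm e] at d1
    exact h.ns hn h2 h3 1 (by simp [show X = 1 by simpa using d1.symm])

end Hs

theorem three (hU : LG U t) (hE : EX U t) (hRU : R ≤ U) (ht : t % 3 = 1) (h1 : Nat.card R = 27)
    (he : Monoid.exponent R = 3) (h4 : ¬ IsMulCommutative R) [hr : Fact r.Prime]
    (hG : (Nat.card (U ⊓ specialLinear ι F : Subgroup _) : ℤ) ∣ t ^ 3 * ((t ^ 2 - 1) * (t ^ 3 - 1)))
    (hΩ : r ∣ (𝐍 R).relIndex (U ⊓ specialLinear ι F)) :
    El (U ⊓ specialLinear ι F) (𝐍 R) r ↔ r = 2 ∨ r = 3 ∧ t % 9 = 1 := by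
  have k3 : ((3 : ℕ) : F) ≠ 0 := by simpa
  have k2 : ((2 : ℕ) : F) ≠ 0 := by simpa
  obtain ⟨v, v1, v2⟩ := exists_root k3 Nat.prime_three
  obtain ⟨-, -, w, rfl, -⟩ := hE.sc (z := v) (by rintro rfl; simp at v1)
    (by simpa using zpow_eq (k := 1) v1 (by simp) ht)
  obtain ⟨X, Y, w, h⟩ := exists_hs hn h3 (w := w) ((algebraMap F (AC F)).injective (by
    simpa using cube_root v1 v2)) h1 he h4
  have inj := (algebraMap F (AC F)).injective
  constructor
  · intro hh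
    by_contra! hc
    by_cases e3 : r = 3
    · subst e3
      have k4 : 27 ∣ Nat.card ((𝐍 R).subgroupOf (U ⊓ specialLinear ι F)) := by
        rw [← inf_subgroupOf_right, Nat.card_congr (subgroupOfEquivOfLe inf_le_right).toEquiv, ← h1]
        exact card_dvd_of_le (le_inf le_normalizer (le_inf hRU (h.le_SL hn h2 h3)))
      have k5 := (Int.natCast_dvd_natCast.2 ((mul_dvd_mul k4 hΩ).trans (card_mul_index _).dvd)).trans hG
      obtain ⟨s, rfl⟩ : ∃ s, t = 3 * s + 1 := ⟨t / 3, by omega⟩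
      have k6 : (3 : ℤ) ∣ 2 * s ^ 2 := by
        obtain ⟨m, hm⟩ := k5
        exact ⟨m - s ^ 2 * (9 * s + 50 * s ^ 2 + 147 * s ^ 3 + 243 * s ^ 4 + 216 * s ^ 5 + 81 * s ^ 6), by
          push_cast at hm; linarith⟩
      have k7 := Int.prime_three.dvd_of_dvd_pow ((Int.prime_three.dvd_or_dvd k6).resolve_left (by decide))
      exact hc.2 rfl (by omega)
    have k4 : ∀ {a b : ℕ}, r ∣ 2 ^ a * 3 ^ b → False := fun e => ((Nat.Prime.dvd_mul hr.out).1 e).elim
      (fun e => hc.1 ((Nat.prime_dvd_prime_iff_eq hr.out Nat.prime_two).1 (hr.out.dvd_of_dvd_pow e)))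
      fun e => e3 ((Nat.prime_dvd_prime_iff_eq hr.out Nat.prime_three).1 (hr.out.dvd_of_dvd_pow e))
    refine not_el_of_dvd inf_le_right (hn ▸ (Nat.coprime_primes hr.out Nat.prime_three).2 e3) hΩ (fun y hy e => ?_) hh
    have k5 := fix_mod (r := r) (z := 1) (x := y) (by simp [e]) (T := R) fun u hu => N_conj hy hu
    obtain ⟨k, hk⟩ := h.cz ▸ card_dvd_of_le (sc_le (R := R) y)
    have k6 : k ∣ 3 ^ 2 := Nat.dvd_of_mul_dvd_mul_left three_pos (by
      rw [← hk, show 3 * 3 ^ 2 = 27 from rfl, ← h1]; exact card_dvd_of_le inf_le_left)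
    rw [card_fix, hk, SetLike.coe_sort_coe, h1] at k5
    obtain ⟨i, hi, rfl⟩ := (Nat.dvd_prime_pow Nat.prime_three).1 k6
    interval_cases i
    · exact (k4 (a := 3) (b := 1) ((Nat.modEq_iff_dvd' (by norm_num)).1 k5.symm)).elim
    · exact (k4 (a := 1) (b := 2) ((Nat.modEq_iff_dvd' (by norm_num)).1 k5.symm)).elim
    · exact h.xr.sc y fun u hu => congrArg Units.val (mem_C1.1
        ((eq_of_le_of_card_ge inf_le_left (by rw [hk, h1]; rfl)).ge hu).2).symm
  have p2 : (2 : AC F) ≠ 0 := by simpa using psi_ne k2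
  rintro (rfl | ⟨rfl, e⟩)
  · obtain ⟨D, D1, D2, D3, D4⟩ := h.exists_inv hn h2 h3 hU.ad hRU
    have D5 : Rt D 2 1 := ⟨k2, by simpa⟩
    refine El.of_one 1 inf_le_right (by simp [hn]) fun x hx e e' => el_conj hU hx.1 D1 (rt_one e k2) D5 ?_
    obtain ⟨a, b, a0, b0, k4, k5⟩ := (rt_one e k2).two e' (ζ := 1) (by simp)
    obtain ⟨a', b', a0', b0', k4', k5'⟩ := D5.two D4 (ζ := 1) (by simp)
    have k6 := (rt_one e k2).prod
    have k7 := D5.sum
    rw [k5, mem_SL.1 hx.2] at k6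
    rw [k5', D3] at k7
    rw [k5, k5']
    obtain rfl : b = 3 - a := by omega
    obtain rfl : b' = 3 - a' := by omega
    have : a < 3 := by omega
    have : a' < 3 := by omega
    interval_cases a <;> interval_cases a' <;> simp at a0 a0' k6 k7 ⊢ <;> exact (p2 (by grind)).elim
  rintro x hx ⟨z, hz⟩ hs
  have k4 : Rt x 3 z := ⟨k3, hz⟩
  have k5 := k4.prod
  have k6 := k4.sum
  have k7 := k4.sum_pow k2
  have z3 : z ^ 3 = 1 := hn ▸ pow_card_of_det hx.2 hz
  have ns : ∀ u, Ev x ≠ replicate 3 u := fun u e =>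
    (k4.scal (w := u) fun _ h => eq_of_mem_replicate (e ▸ h)).elim fun a e => hs a e.2
  rw [mem_SL.1 hx.2, map_one] at k5
  by_cases z1 : z = 1
  · subst z1
    have t0 := h.tr hn h2 h3 h.hX (h.ns hn h2 h3)
    have v3 := cube_root v1 v2
    obtain ⟨a, b, c, k8, k9⟩ := k4.three (ζ := 1) (by simp) v3
    rw [k9] at k5 k6 k7 ns
    have : a ≤ 3 := by omega
    have : b ≤ 3 - a := by omega
    obtain rfl : c = 3 - a - b := by omega
    refine el_conj hU hx.1 ⟨hRU h.hX, le_normalizer h.hX⟩ k4 (rt_one (h.cube X h.hX) k3)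
      (three_tr hn h2 h3 k4 (rt_one (h.cube X h.hX) k3) (inj ?_) (inj ?_)) <;>
    · simp only [← k6, ← k7, t0.1, t0.2, _root_.map_zero]
      interval_cases a <;> interval_cases b <;> first | exact (ns _ rfl).elim | (simp at k5 ⊢; grind)
  have Z3 : ψ z ^ 3 = 1 := by rw [← map_pow, z3, map_one]
  have Z1 : ψ z ≠ 1 := fun e => z1 (inj (by rwa [map_one]))
  have Z2 := cube_root Z3 Z1
  obtain ⟨η, η1, η2⟩ : ∃ η, η ^ 3 = ψ z ∧ Ev x = {η, η, η * ψ z ^ 2} := by
    obtain ⟨ζ, hζ⟩ := k4.exists_mem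
    have k8 := k4.mem hζ
    obtain ⟨a, b, c, k9, k10⟩ := k4.three k8 Z2
    rw [k10] at k5 ⊢
    have : a ≤ 3 := by omega
    have : b ≤ 3 - a := by omega
    obtain rfl : c = 3 - a - b := by omega
    have e1 : ζ * ψ z * ψ z ^ 2 = ζ := by grind
    have e2 : ζ * ψ z ^ 2 * ψ z ^ 2 = ζ * ψ z := by grind
    interval_cases a <;> interval_cases b <;> first | exact ⟨ζ, k8, rfl⟩ | (exfalso; simp at k5; grind) | skip
    · exact ⟨ζ * ψ z ^ 2, by grind, by rw [e2]; exact add_comm (replicate 1 _) (replicate 2 _)⟩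
    · exact ⟨ζ * ψ z, by grind, by rw [e1]; exact add_comm (replicate 1 _) (replicate 2 _)⟩
  obtain ⟨g, hg, s, rfl, e3⟩ := hE.sc (z := η) (ev_ne (x := x) (by simp [η2]))
    (by simpa using zpow_eq (n := 9) (k := 1) (by grind) (by simp) e)
  obtain ⟨D, D1, D2, D3, D4⟩ := h.exists_D hn h2 h3 hU.ad hRU (s := z ^ 2) (inj (by simp; grind))
  have k8 : Rt (g * D) 3 z := ⟨k3, by
    rw [Units.val_mul, e3, smul_mul_assoc, one_mul, _root_.smul_pow, ← Units.val_pow_eq_pow_val, D2,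
      inj ((map_pow _ _ _).trans η1), Units.val_one]⟩
  refine el_conj hU hx.1 (mul_mem ⟨hg, sc_mem_N e3⟩ D1) k4 k8 (three_tr hn h2 h3 k4 k8 (inj ?_) (inj ?_))
  · simp [← k6, η2, e3, D3, map_ofNat]; ring
  · simp [← k7, η2, e3, _root_.smul_pow, D4, map_ofNat]; ring

end H21.Xs
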